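import Cfsg.Agent.Lib.ThreeTrans.ZStarF
import Cfsg.Agent.Lib.Basic.Frattini
import Cfsg.Agent.Lib.TwoGroups.Present
import Cfsg.Agent.S0111

/-!
# A simple group with an involution `z` whose centralizer `R` is Sylow with `Φ(R) = ⟨z⟩` has `R ≅ D₈`
-/

set_option autoImplicit false
set_option linter.style.haveILetI false
set_option linter.unusedSectionVars false
set_option linter.unusedVariables false

namespace Cfsg.Agent.Lib.ThreeTrans.CD8

open Cfsg Subgroup
open Cfsg.Agent.Lib.Basic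
open scoped Pointwise commutatorElement

variable {L : Type*} [Group L]

/-- The element-level data. -/
structure CI (z : L) (R : Subgroup L) : Prop where
  hz : z * z = 1
  hz1 : z ≠ 1
  mem : ∀ x, x ∈ R ↔ x * z = z * x
  sq : ∀ x ∈ R, x * x = 1 ∨ x * x = z
  comm : ∀ x ∈ R, ∀ y ∈ R, x * y * x⁻¹ * y⁻¹ = 1 ∨ x * y * x⁻¹ * y⁻¹ = z
  ne : ∃ x ∈ R, x * x ≠ 1

section Basic

variable {z : L} {R : Subgroup L} (h : CI z R)
include h

theorem CI.z_mem : z ∈ R := (h.mem z).mpr rfl

theorem CI.z_inv : z⁻¹ = z := inv_eq_of_mul_eq_one_left h.hz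

/-- `z` commutes with every element of `R`. -/
theorem CI.z_comm {x : L} (hx : x ∈ R) : x * z = z * x := (h.mem x).mp hx

theorem CI.conj_sq (k x : L) (hx : x * (k * z * k⁻¹) = (k * z * k⁻¹) * x) :
    x * x = 1 ∨ x * x = k * z * k⁻¹ := by
  have hy : k⁻¹ * x * k ∈ R := by
    rw [h.mem]
    have : k⁻¹ * (x * (k * z * k⁻¹)) * k = k⁻¹ * ((k * z * k⁻¹) * x) * k := by rw [hx]
    calc k⁻¹ * x * k * z = k⁻¹ * (x * (k * z * k⁻¹)) * k := by group
      _ = k⁻¹ * ((k * z * k⁻¹) * x) * k := this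
      _ = z * (k⁻¹ * x * k) := by group
  have e : x * x = k * ((k⁻¹ * x * k) * (k⁻¹ * x * k)) * k⁻¹ := by group
  rcases h.sq _ hy with h1 | h1
  · left
    rw [e, h1]; group
  · right
    rw [e, h1]

theorem CI.sq_of_both (k x : L) (hxR : x ∈ R) (hx : x * (k * z * k⁻¹) = (k * z * k⁻¹) * x)
    (hne : k * z * k⁻¹ ≠ z) : x * x = 1 := by
  rcases h.sq x hxR with h1 | h1
  · exact h1
  rcases h.conj_sq k x hx with h2 | h2
  · exact h2
  exact absurd (h2.symm.trans h1) hne

/-- If `R` centralizes a conjugate of `z`, that conjugate is `z`. -/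
theorem CI.eq_of_central (k : L) (hk : ∀ x ∈ R, x * (k * z * k⁻¹) = (k * z * k⁻¹) * x) :
    k * z * k⁻¹ = z := by
  by_contra hne
  obtain ⟨x, hx, hx1⟩ := h.ne
  exact hx1 (h.sq_of_both k x hx (hk x hx) hne)

/-- Conjugates of `z` are involutions. -/
theorem CI.cj_sq (k : L) : (k * z * k⁻¹) * (k * z * k⁻¹) = 1 := by
  have : (k * z * k⁻¹) * (k * z * k⁻¹) = k * (z * z) * k⁻¹ := by group
  rw [this, h.hz]; group

theorem CI.cj_ne (k : L) : k * z * k⁻¹ ≠ 1 := by
  intro h1
  apply h.hz1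
  have : z = k⁻¹ * (k * z * k⁻¹) * k := by group
  rw [this, h1]; group

end Basic

/-- The conjugates of `z` in `R` other than `z`. -/
def TT (z : L) (R : Subgroup L) : Set L := {t | (∃ k, t = k * z * k⁻¹) ∧ t ∈ R ∧ t ≠ z}

section TTfacts

variable {z : L} {R : Subgroup L} (h : CI z R)
include h

theorem CI.tt_sq {t : L} (ht : t ∈ TT z R) : t * t = 1 := by
  obtain ⟨⟨k, rfl⟩, -, -⟩ := ht
  exact h.cj_sq k

theorem CI.tt_ne_one {t : L} (ht : t ∈ TT z R) : t ≠ 1 := by
  obtain ⟨⟨k, rfl⟩, -, -⟩ := ht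
  exact h.cj_ne k

theorem CI.tt_inv {t : L} (ht : t ∈ TT z R) : t⁻¹ = t := inv_eq_of_mul_eq_one_left (h.tt_sq ht)

/-- Members of `TT` are not central in `R`. -/
theorem CI.tt_noncentral {t : L} (ht : t ∈ TT z R) : ∃ x ∈ R, x * t ≠ t * x := by
  obtain ⟨⟨k, rfl⟩, htR, hne⟩ := ht
  by_contra hall
  push Not at hall
  exact hne (h.eq_of_central k hall)

/-- The commutator rule. -/
theorem CI.comm_rule {x t : L} (hx : x ∈ R) (ht : t ∈ R) (hxt : x * t ≠ t * x) :
    x * t * x⁻¹ = z * t := by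
  rcases h.comm x hx t ht with h1 | h1
  · exfalso
    apply hxt
    have := mul_inv_eq_one.mp h1
    rw [mul_inv_eq_iff_eq_mul] at this
    exact this
  · rw [mul_inv_eq_iff_eq_mul] at h1
    exact h1

/-- `C_R(t)` has exponent two. -/
theorem CI.cent_sq {t x : L} (ht : t ∈ TT z R) (hx : x ∈ R) (hxt : x * t = t * x) : x * x = 1 := by
  obtain ⟨⟨k, rfl⟩, htR, hne⟩ := ht
  exact h.sq_of_both k x hx hxt hne

/-- `C_R(t)` is commutative. -/
theorem CI.cent_comm {t x y : L} (ht : t ∈ TT z R) (hx : x ∈ R) (hxt : x * t = t * x) (hy : y ∈ R)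
    (hyt : y * t = t * y) : x * y = y * x := by
  have h1 := h.cent_sq ht hx hxt
  have h2 := h.cent_sq ht hy hyt
  have h3 := h.cent_sq ht (mul_mem hx hy) (by
    rw [mul_assoc, hyt, ← mul_assoc, hxt, mul_assoc])
  have hxi : x⁻¹ = x := inv_eq_of_mul_eq_one_left h1
  have hyi : y⁻¹ = y := inv_eq_of_mul_eq_one_left h2
  have h4 : x * y = (x * y)⁻¹ := eq_inv_of_mul_eq_one_left h3
  rw [mul_inv_rev, hxi, hyi] at h4
  exact h4

/-- `z t` is again in `TT`. -/
theorem CI.zt_mem {t : L} (ht : t ∈ TT z R) : z * t ∈ TT z R := by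
  obtain ⟨x, hx, hxt⟩ := h.tt_noncentral ht
  have e := h.comm_rule hx ht.2.1 hxt
  obtain ⟨⟨k, rfl⟩, htR, hne⟩ := id ht
  refine ⟨⟨x * k, ?_⟩, mul_mem h.z_mem htR, ?_⟩
  · rw [← e]; group
  · intro h1
    have : k * z * k⁻¹ = 1 := by
      have h2 : z * (k * z * k⁻¹) = z * 1 := by rw [h1, mul_one]
      exact mul_left_cancel h2
    exact h.cj_ne k this

/-- Distinct commuting members of `TT`. -/
theorem CI.tt_pair {t t' : L} (ht : t ∈ TT z R) (ht' : t' ∈ TT z R) (hc : t * t' = t' * t)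
    (hne : t ≠ t') : t' = z * t := by
  obtain ⟨⟨a, rfl⟩, haR, hane⟩ := id ht
  obtain ⟨⟨b, rfl⟩, hbR, hbne⟩ := id ht'
  set t := a * z * a⁻¹ with htdef
  set t' := b * z * b⁻¹ with ht'def
  -- the product is a conjugate of `z`
  have hw : a⁻¹ * t' * a ∈ TT z R := by
    refine ⟨⟨a⁻¹ * b, by rw [ht'def]; group⟩, ?_, ?_⟩
    · rw [h.mem]
      have : t' * t = t * t' := hc.symm
      calc a⁻¹ * t' * a * z = a⁻¹ * (t' * t) * a := by rw [htdef]; group
        _ = a⁻¹ * (t * t') * a := by rw [this]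
        _ = z * (a⁻¹ * t' * a) := by rw [htdef]; group
    · intro h1
      apply hne
      have : t' = a * (a⁻¹ * t' * a) * a⁻¹ := by group
      rw [this, h1]
  have hzw := h.zt_mem hw
  obtain ⟨⟨c, hc'⟩, -, -⟩ := hzw
  have hprod : t * t' = (a * c) * z * (a * c)⁻¹ := by
    have : t * t' = a * (z * (a⁻¹ * t' * a)) * a⁻¹ := by rw [htdef]; group
    rw [this, hc']; group
  -- it is central in `R`
  have hcentral : ∀ y ∈ R, y * ((a * c) * z * (a * c)⁻¹) = ((a * c) * z * (a * c)⁻¹) * y := by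
    intro y hy
    rw [← hprod]
    by_cases hyt : y * t = t * y
    · have hyt2 : y * t' = t' * y := h.cent_comm ht hy hyt hbR hc.symm
      calc y * (t * t') = (y * t) * t' := by group
        _ = t * (y * t') := by rw [hyt]; group
        _ = t * t' * y := by rw [hyt2]; group
    · have hyt' : y * t' ≠ t' * y := by
        intro hyt'
        exact hyt (h.cent_comm ht' hy hyt' haR hc)
      have e1 := h.comm_rule hy haR hyt
      have e2 := h.comm_rule hy hbR hyt'
      have e3 : y * (t * t') * y⁻¹ = (y * t * y⁻¹) * (y * t' * y⁻¹) := by group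
      have e4 : y * (t * t') * y⁻¹ = t * t' := by
        rw [e3, e1, e2]
        have hzc : t * z = z * t := h.z_comm haR
        calc z * t * (z * t') = (z * z) * t * t' := by
              rw [mul_assoc z t, ← mul_assoc t z, hzc]; group
          _ = t * t' := by rw [h.hz, one_mul]
      rw [mul_inv_eq_iff_eq_mul] at e4
      exact e4
  have hzz := h.eq_of_central _ hcentral
  rw [← hprod] at hzz
  -- so `t' = z t`
  have htt : t * t = 1 := h.cj_sq a
  have e : t' = t * (t * t') := by rw [← mul_assoc, htt, one_mul]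
  rw [e, hzz]
  exact (h.z_comm haR)

/-- Three members cannot be pairwise non-commuting with a common witness. -/
theorem CI.tt_three {t₁ t₂ t' : L} (h1 : t₁ ∈ TT z R) (h2 : t₂ ∈ TT z R) (h3 : t' ∈ TT z R)
    (h12 : t₁ * t₂ ≠ t₂ * t₁) (h31 : t₁ * t' ≠ t' * t₁) (h32 : t₂ * t' ≠ t' * t₂) : False := by
  have e1 := h.comm_rule h1.2.1 h3.2.1 h31
  have e2 := h.comm_rule h2.2.1 h3.2.1 h32
  have hc : (t₁ * t₂) * t' = t' * (t₁ * t₂) := by
    have e3 : (t₁ * t₂) * t' * (t₁ * t₂)⁻¹ = t₁ * (t₂ * t' * t₂⁻¹) * t₁⁻¹ := by group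
    have e4 : (t₁ * t₂) * t' * (t₁ * t₂)⁻¹ = t' := by
      rw [e3, e2]
      have e5 : t₁ * (z * t') * t₁⁻¹ = z * (t₁ * t' * t₁⁻¹) := by
        have hz1 : t₁ * z = z * t₁ := h.z_comm h1.2.1
        calc t₁ * (z * t') * t₁⁻¹ = (t₁ * z) * t' * t₁⁻¹ := by group
          _ = z * (t₁ * t' * t₁⁻¹) := by rw [hz1]; group
      rw [e5, e1, ← mul_assoc, h.hz, one_mul]
    rw [mul_inv_eq_iff_eq_mul] at e4
    exact e4
  have hs := h.cent_sq h3 (mul_mem h1.2.1 h2.2.1) hc
  have hi1 := h.tt_inv h1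
  have hi2 := h.tt_inv h2
  apply h12
  have h4 : t₁ * t₂ = (t₁ * t₂)⁻¹ := eq_inv_of_mul_eq_one_left hs
  rw [mul_inv_rev, hi1, hi2] at h4
  exact h4

end TTfacts

section Sylow

variable [Finite L]

/-- A `2`-subgroup of a subgroup `C` containing a Sylow `2`-subgroup `P` of `L` can be conjugated into `P` inside `C`. -/
theorem exists_conj_into (P : Sylow 2 L) (C T : Subgroup L) (hPC : (P : Subgroup L) ≤ C) (hT : IsPGroup 2 T)
    (hTC : T ≤ C) : ∃ c ∈ C, ∀ y ∈ T, c⁻¹ * y * c ∈ (P : Subgroup L) := by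
  haveI : Fact (Nat.Prime 2) := ⟨Nat.prime_two⟩
  have hT' : IsPGroup 2 (T.subgroupOf C) := hT.comap_of_injective C.subtype C.subtype_injective
  obtain ⟨Q, hQ⟩ := hT'.exists_le_sylow
  obtain ⟨c, hc⟩ := MulAction.exists_smul_eq C (P.subtype hPC) Q
  refine ⟨c, c.2, fun y hy => ?_⟩
  have h1 : (⟨y, hTC hy⟩ : C) ∈ (Q : Subgroup C) := hQ (by
    rw [Subgroup.mem_subgroupOf]; exact hy)
  rw [← hc, Sylow.smul_def, Sylow.pointwise_smul_def, Subgroup.mem_pointwise_smul_iff_inv_smul_mem,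
    Sylow.coe_subtype, Subgroup.mem_subgroupOf] at h1
  have : ((MulAut.conj c)⁻¹ • (⟨y, hTC hy⟩ : C) : C) = ((c⁻¹ : C) * ⟨y, hTC hy⟩ * c : C) := by
    simp [MulAut.smul_def, MulAut.inv_def]
  rw [this] at h1
  simpa using h1

/-- A self-map of `R` by conjugation is onto. -/
theorem conj_onto {R : Subgroup L} {m : L} (hm : ∀ r ∈ R, m * r * m⁻¹ ∈ R) (x : L) (hx : x ∈ R) :
    ∃ r ∈ R, m * r * m⁻¹ = x := by
  let f : R → R := fun r => ⟨m * r * m⁻¹, hm r r.2⟩
  have hf : Function.Injective f := by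
    intro a b hab
    have : m * (a : L) * m⁻¹ = m * b * m⁻¹ := congrArg Subtype.val hab
    apply Subtype.ext
    simpa using this
  obtain ⟨r, hr⟩ := (Finite.injective_iff_surjective.mp hf) ⟨x, hx⟩
  exact ⟨r, r.2, congrArg Subtype.val hr⟩

variable {z : L} {R : Subgroup L} (h : CI z R)
include h

/-- An element of `L` normalizing `R` lies in `R`. -/
theorem CI.mem_of_normalizes {m : L} (hm : ∀ r ∈ R, m * r * m⁻¹ ∈ R) : m ∈ R := by
  have hcz : ∀ x ∈ R, x * (m * z * m⁻¹) = (m * z * m⁻¹) * x := by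
    intro x hx
    obtain ⟨r, hr, rfl⟩ := conj_onto hm x hx
    have := h.z_comm hr
    calc m * r * m⁻¹ * (m * z * m⁻¹) = m * (r * z) * m⁻¹ := by group
      _ = m * (z * r) * m⁻¹ := by rw [this]
      _ = m * z * m⁻¹ * (m * r * m⁻¹) := by group
  have e := h.eq_of_central m hcz
  rw [h.mem]
  rw [mul_inv_eq_iff_eq_mul] at e
  exact e

/-- Burnside: central elements of `R` conjugate in `L` are equal. -/
theorem CI.central_conj (S : Sylow 2 L) (hS : (S : Subgroup L) = R) {u g : L}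
    (huc : ∀ x ∈ R, x * u = u * x) (hv : g * u * g⁻¹ ∈ R)
    (hvc : ∀ x ∈ R, x * (g * u * g⁻¹) = (g * u * g⁻¹) * x) : g * u * g⁻¹ = u := by
  subst hS
  set v := g * u * g⁻¹ with hvdef
  let C : Subgroup L := centralizer ({v} : Set L)
  have hmemC : ∀ y, y ∈ C ↔ y * v = v * y := fun y => by
    rw [Subgroup.mem_centralizer_singleton_iff]
  have hSC : ((S : Subgroup L)) ≤ C := fun x hx => (hmemC x).mpr (hvc x hx)
  let T : Subgroup L := ((g • S : Sylow 2 L) : Subgroup L)
  have hTmem : ∀ y, y ∈ T → g⁻¹ * y * g ∈ (S : Subgroup L) := by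
    intro y hy
    have h1 : y ∈ MulAut.conj g • (S : Subgroup L) := by
      have : T = MulAut.conj g • (S : Subgroup L) := by
        show ((g • S : Sylow 2 L) : Subgroup L) = _
        rw [Sylow.smul_def, Sylow.pointwise_smul_def]
      rw [← this]; exact hy
    rw [Subgroup.mem_pointwise_smul_iff_inv_smul_mem] at h1
    simpa [MulAut.smul_def, MulAut.inv_def] using h1
  have hTmem' : ∀ r ∈ (S : Subgroup L), g * r * g⁻¹ ∈ T := by
    intro r hr
    have : T = MulAut.conj g • (S : Subgroup L) := by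
      show ((g • S : Sylow 2 L) : Subgroup L) = _
      rw [Sylow.smul_def, Sylow.pointwise_smul_def]
    rw [this, Subgroup.mem_pointwise_smul_iff_inv_smul_mem]
    simpa [MulAut.smul_def, MulAut.inv_def, mul_assoc] using hr
  have hTC : T ≤ C := by
    intro y hy
    rw [hmemC]
    have h1 := huc _ (hTmem y hy)
    rw [hvdef]
    calc y * (g * u * g⁻¹) = g * (g⁻¹ * y * g * u) * g⁻¹ := by group
      _ = g * (u * (g⁻¹ * y * g)) * g⁻¹ := by rw [h1]
      _ = g * u * g⁻¹ * y := by group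
  obtain ⟨c, hcC, hc⟩ := exists_conj_into S C T hSC (g • S : Sylow 2 L).isPGroup' hTC
  have hcv := (hmemC c).mp hcC
  have hm : c⁻¹ * g ∈ (S : Subgroup L) := by
    apply h.mem_of_normalizes
    intro r hr
    have := hc _ (hTmem' r hr)
    convert this using 1
    group
  have e1 : (c⁻¹ * g) * u * (c⁻¹ * g)⁻¹ = u := by
    have := huc _ hm
    rw [mul_inv_eq_iff_eq_mul]
    exact this
  have e2 : (c⁻¹ * g) * u * (c⁻¹ * g)⁻¹ = c⁻¹ * v * c := by
    rw [hvdef]; group
  have e3 : c⁻¹ * v * c = v := by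
    rw [mul_assoc, inv_mul_eq_iff_eq_mul]
    exact hcv.symm
  rw [← e3, ← e2, e1]

omit h in
theorem mem_smul_sylow (g : L) (S : Sylow 2 L) (y : L) :
    y ∈ ((g • S : Sylow 2 L) : Subgroup L) ↔ g⁻¹ * y * g ∈ (S : Subgroup L) := by
  rw [Sylow.smul_def, Sylow.pointwise_smul_def, Subgroup.mem_pointwise_smul_iff_inv_smul_mem]
  simp [MulAut.smul_def, MulAut.inv_def]

/-- The key lemma: a non-central conjugate of a central element of `R`. -/
theorem CI.key (S : Sylow 2 L) (hS : (S : Subgroup L) = R) {u g : L} (huR : u ∈ R)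
    (huc : ∀ x ∈ R, x * u = u * x) (hv : g * u * g⁻¹ ∈ R)
    (hvnc : ∃ x ∈ R, x * (g * u * g⁻¹) ≠ (g * u * g⁻¹) * x) :
    ∃ t' ∈ TT z R, g * u * g⁻¹ = u * z * t' := by
  subst hS
  set v := g * u * g⁻¹ with hvdef
  let C : Subgroup L := centralizer ({v} : Set L)
  have hmemC : ∀ y, y ∈ C ↔ y * v = v * y := fun y => by
    rw [Subgroup.mem_centralizer_singleton_iff]
  have hTC : ((g • S : Sylow 2 L) : Subgroup L) ≤ C := by
    intro y hy
    rw [hmemC]
    have h1 := huc _ ((mem_smul_sylow g S y).mp hy)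
    rw [hvdef]
    calc y * (g * u * g⁻¹) = g * (g⁻¹ * y * g * u) * g⁻¹ := by group
      _ = g * (u * (g⁻¹ * y * g)) * g⁻¹ := by rw [h1]
      _ = g * u * g⁻¹ * y := by group
  have hT₀ : IsPGroup 2 ((S : Subgroup L) ⊓ C : Subgroup L) :=
    S.isPGroup'.to_le inf_le_left
  obtain ⟨c, hcC, hc⟩ := exists_conj_into (g • S) C ((S : Subgroup L) ⊓ C) hTC hT₀ inf_le_right
  have hcv : c * v = v * c := (hmemC c).mp hcC
  set k := c * g with hk
  set t' := k * z * k⁻¹ with ht'
  -- (i)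
  have hi : ∀ y ∈ (S : Subgroup L), y * v = v * y → y * t' = t' * y := by
    intro y hy hyv
    have h1 := hc y ⟨hy, (hmemC y).mpr hyv⟩
    rw [mem_smul_sylow, h.mem] at h1
    have h2 : k⁻¹ * y * k * z = z * (k⁻¹ * y * k) := by
      rw [hk]
      calc (c * g)⁻¹ * y * (c * g) * z = g⁻¹ * (c⁻¹ * y * c) * g * z := by group
        _ = z * (g⁻¹ * (c⁻¹ * y * c) * g) := h1
        _ = z * ((c * g)⁻¹ * y * (c * g)) := by group
    rw [ht']
    calc y * (k * z * k⁻¹) = k * (k⁻¹ * y * k * z) * k⁻¹ := by group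
      _ = k * (z * (k⁻¹ * y * k)) * k⁻¹ := by rw [h2]
      _ = k * z * k⁻¹ * y := by group
  -- (ii)
  have hii : ∀ y, y * t' = t' * y → y * v = v * y := by
    intro y hy
    have h1 : k⁻¹ * y * k ∈ (S : Subgroup L) := by
      rw [h.mem]
      rw [ht'] at hy
      calc k⁻¹ * y * k * z = k⁻¹ * (y * (k * z * k⁻¹)) * k := by group
        _ = k⁻¹ * ((k * z * k⁻¹) * y) * k := by rw [hy]
        _ = z * (k⁻¹ * y * k) := by group
    have h2 := huc _ h1
    have h3 : y * (k * u * k⁻¹) = (k * u * k⁻¹) * y := by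
      calc y * (k * u * k⁻¹) = k * (k⁻¹ * y * k * u) * k⁻¹ := by group
        _ = k * (u * (k⁻¹ * y * k)) * k⁻¹ := by rw [h2]
        _ = k * u * k⁻¹ * y := by group
    have h4 : k * u * k⁻¹ = v := by
      have e : k * u * k⁻¹ = c * v * c⁻¹ := by rw [hk, hvdef]; group
      rw [e, hcv]; group
    rwa [h4] at h3
  -- (iii)
  have hne : t' ≠ z := by
    intro he
    obtain ⟨x, hx, hxv⟩ := hvnc
    apply hxv
    apply hii
    rw [he]
    exact h.z_comm hx
  -- (iv)
  have hzS : z ∈ (S : Subgroup L) := h.z_mem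
  have hzv : z * v = v * z := (h.z_comm hv).symm
  have hzt : z * t' = t' * z := hi z hzS hzv
  have ht'S : t' ∈ (S : Subgroup L) := by
    rw [h.mem]
    exact hzt.symm
  have hT : t' ∈ TT z (S : Subgroup L) := ⟨⟨k, rfl⟩, ht'S, hne⟩
  have ht't : t' * t' = 1 := h.tt_sq hT
  have ht'i : t'⁻¹ = t' := h.tt_inv hT
  have hvt : t' * v = v * t' := hii t' rfl
  -- (vii)
  set c₀ := v * t' with hc₀
  have hc₀S : c₀ ∈ (S : Subgroup L) := mul_mem hv ht'S
  have hc₀c : ∀ y ∈ (S : Subgroup L), y * c₀ = c₀ * y := by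
    intro y hy
    by_cases hyv : y * v = v * y
    · have hyt := hi y hy hyv
      exact Commute.mul_right hyv hyt
    · have hyt : y * t' ≠ t' * y := fun he => hyv (hii y he)
      have e1 := h.comm_rule hy hv hyv
      have e2 := h.comm_rule hy ht'S hyt
      have e3 : y * c₀ * y⁻¹ = (y * v * y⁻¹) * (y * t' * y⁻¹) := by rw [hc₀]; group
      have e4 : y * c₀ * y⁻¹ = c₀ := by
        rw [e3, e1, e2, hc₀]
        have hzc : v * z = z * v := h.z_comm hv
        calc z * v * (z * t') = z * (v * z) * t' := by group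
          _ = z * (z * v) * t' := by rw [hzc]
          _ = (z * z) * v * t' := by group
          _ = v * t' := by rw [h.hz, one_mul]
      rw [mul_inv_eq_iff_eq_mul] at e4
      exact e4
  have hvc₀ : v = c₀ * t' := by rw [hc₀, mul_assoc, ht't, mul_one]
  -- (viii)
  obtain ⟨x, hx, hxt⟩ := h.tt_noncentral hT
  have ex := h.comm_rule hx ht'S hxt
  have hz'' : k⁻¹ * z * k ∈ (S : Subgroup L) := by
    rw [h.mem]
    calc k⁻¹ * z * k * z = k⁻¹ * (z * t') * k := by rw [ht']; group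
      _ = k⁻¹ * (t' * z) * k := by rw [hzt]
      _ = z * (k⁻¹ * z * k) := by rw [ht']; group
  obtain ⟨r, hr, hrz⟩ : ∃ r ∈ (S : Subgroup L), r * (k⁻¹ * z * k) ≠ (k⁻¹ * z * k) * r := by
    by_contra hall
    push Not at hall
    have hall' : ∀ r ∈ (S : Subgroup L), r * (k⁻¹ * z * k⁻¹⁻¹) = (k⁻¹ * z * k⁻¹⁻¹) * r := by
      intro r hr
      rw [inv_inv]
      exact hall r hr
    have e := h.eq_of_central k⁻¹ hall'
    rw [inv_inv] at e
    apply hne
    rw [ht']
    calc k * z * k⁻¹ = k * (k⁻¹ * z * k) * k⁻¹ := by rw [e]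
      _ = z := by group
  have er := h.comm_rule hr hz'' hrz
  set x' := k * r * k⁻¹ with hx'
  have hx't : x' * t' = t' * x' := by
    have := h.z_comm hr
    rw [hx', ht']
    calc k * r * k⁻¹ * (k * z * k⁻¹) = k * (r * z) * k⁻¹ := by group
      _ = k * (z * r) * k⁻¹ := by rw [this]
      _ = k * z * k⁻¹ * (k * r * k⁻¹) := by group
  have ex' : x' * z * x'⁻¹ = t' * z := by
    calc x' * z * x'⁻¹ = k * (r * (k⁻¹ * z * k) * r⁻¹) * k⁻¹ := by rw [hx']; group
      _ = k * (z * (k⁻¹ * z * k)) * k⁻¹ := by rw [er]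
      _ = t' * z := by rw [ht']; group
  have hx'v : x' * v = v * x' := hii x' hx't
  have hx'c₀ : x' * c₀ = c₀ * x' := Commute.mul_right hx'v hx't
  -- the element `n`
  set n := x' * x with hn
  have hnt : n * t' * n⁻¹ = z := by
    have e1 : x' * t' * x'⁻¹ = t' := by
      rw [hx't]; group
    calc n * t' * n⁻¹ = x' * (x * t' * x⁻¹) * x'⁻¹ := by rw [hn]; group
      _ = x' * (z * t') * x'⁻¹ := by rw [ex]
      _ = (x' * z * x'⁻¹) * (x' * t' * x'⁻¹) := by group
      _ = t' * z * t' := by rw [ex', e1]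
      _ = z * (t' * t') := by rw [← hzt, mul_assoc]
      _ = z := by rw [ht't, mul_one]
  have hnc : n * c₀ * n⁻¹ = c₀ := by
    have e0 := hc₀c x hx
    calc n * c₀ * n⁻¹ = x' * (x * c₀) * x⁻¹ * x'⁻¹ := by rw [hn]; group
      _ = x' * (c₀ * x) * x⁻¹ * x'⁻¹ := by rw [e0]
      _ = (x' * c₀) * x'⁻¹ := by group
      _ = c₀ := by rw [hx'c₀]; group
  have hnv : n * v * n⁻¹ = c₀ * z := by
    calc n * v * n⁻¹ = (n * c₀ * n⁻¹) * (n * t' * n⁻¹) := by rw [hvc₀]; group
      _ = c₀ * z := by rw [hnc, hnt]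
  -- Burnside
  have hcz : c₀ * z ∈ (S : Subgroup L) := mul_mem hc₀S hzS
  have hczc : ∀ y ∈ (S : Subgroup L), y * (c₀ * z) = (c₀ * z) * y := by
    intro y hy
    have e1 := hc₀c y hy
    have e2 := h.z_comm hy
    exact Commute.mul_right e1 e2
  have e5 : (n * g) * u * (n * g)⁻¹ = c₀ * z := by
    rw [← hnv, hvdef]; group
  have e6 : (n * g) * u * (n * g)⁻¹ = u :=
    h.central_conj S rfl huc (by rw [e5]; exact hcz) (by rw [e5]; exact hczc)
  have e7 : u = c₀ * z := by rw [← e6, e5]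
  refine ⟨t', hT, ?_⟩
  rw [hvc₀, e7, mul_assoc c₀, h.hz, mul_one]

omit h [Finite L] in
theorem pow_of_sq {x : L} (hx : x * x = 1) (n : ℕ) : x ^ n = 1 ∨ x ^ n = x := by
  induction n with
  | zero => exact Or.inl (pow_zero x)
  | succ n ih =>
    rcases ih with h1 | h1
    · right; rw [pow_succ, h1, one_mul]
    · left; rw [pow_succ, h1, hx]

omit h [Finite L] in
/-- The closure of `z, a, b`. -/
theorem mem_closure3 {z a b : L} (hz : z * z = 1) (ha : a * a = 1) (hb : b * b = 1)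
    (hza : a * z = z * a) (hzb : b * z = z * b) (e : ℕ) (hab : b * a = z ^ e * (a * b))
    {y : L} (hy : y ∈ closure ({z, a, b} : Set L)) :
    y = 1 ∨ y = z ∨ y = a ∨ y = z * a ∨ y = b ∨ y = z * b ∨ y = a * b ∨ y = z * (a * b) := by
  have hzi : z⁻¹ = z := inv_eq_of_mul_eq_one_left hz
  have hai : a⁻¹ = a := inv_eq_of_mul_eq_one_left ha
  have hbi : b⁻¹ = b := inv_eq_of_mul_eq_one_left hb
  have hcz : ∀ i : ℕ, Commute a (z ^ i) := fun i => Commute.pow_right hza i
  have hcz' : ∀ i : ℕ, Commute b (z ^ i) := fun i => Commute.pow_right hzb i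
  have hba : ∀ j : ℕ, b * a ^ j = z ^ (e * j) * (a ^ j * b) := by
    intro j
    induction j with
    | zero => simp
    | succ j ih =>
      calc b * a ^ (j + 1) = (b * a ^ j) * a := by rw [pow_succ, mul_assoc]
        _ = z ^ (e * j) * (a ^ j * (b * a)) := by rw [ih]; group
        _ = z ^ (e * j) * (a ^ j * (z ^ e * (a * b))) := by rw [hab]
        _ = z ^ (e * j) * (z ^ e * (a ^ j * (a * b))) := by
            rw [← mul_assoc (a ^ j), ((hcz e).pow_left j).eq, mul_assoc]
        _ = z ^ (e * (j + 1)) * (a ^ (j + 1) * b) := by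
            rw [mul_add, mul_one, pow_add z, pow_succ a]; group
  have key : ∃ i j k : ℕ, y = z ^ i * (a ^ j * b ^ k) := by
    induction hy using Subgroup.closure_induction_left with
    | one => exact ⟨0, 0, 0, by simp⟩
    | mul_left x hx y hy ih =>
      obtain ⟨i, j, k, rfl⟩ := ih
      rcases hx with rfl | rfl | rfl
      · exact ⟨i + 1, j, k, by rw [pow_succ']; group⟩
      · refine ⟨i, j + 1, k, ?_⟩
        rw [pow_succ' x j, ← mul_assoc x, (hcz i).eq]
        group
      · refine ⟨i + e * j, j, k + 1, ?_⟩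
        have h1 := hba j
        calc x * (z ^ i * (a ^ j * x ^ k)) = z ^ i * ((x * a ^ j) * x ^ k) := by
              rw [← mul_assoc x, (hcz' i).eq]; group
          _ = z ^ i * (z ^ (e * j) * (a ^ j * x) * x ^ k) := by rw [h1]
          _ = z ^ (i + e * j) * (a ^ j * x ^ (k + 1)) := by
              rw [pow_add z, pow_succ' x k]; group
    | inv_mul_cancel x hx y hy ih =>
      obtain ⟨i, j, k, rfl⟩ := ih
      rcases hx with rfl | rfl | rfl
      · refine ⟨i + 1, j, k, ?_⟩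
        rw [hzi, pow_succ']; group
      · refine ⟨i, j + 1, k, ?_⟩
        rw [hai, pow_succ' x j, ← mul_assoc x, (hcz i).eq]
        group
      · refine ⟨i + e * j, j, k + 1, ?_⟩
        have h1 := hba j
        rw [hbi]
        calc x * (z ^ i * (a ^ j * x ^ k)) = z ^ i * ((x * a ^ j) * x ^ k) := by
              rw [← mul_assoc x, (hcz' i).eq]; group
          _ = z ^ i * (z ^ (e * j) * (a ^ j * x) * x ^ k) := by rw [h1]
          _ = z ^ (i + e * j) * (a ^ j * x ^ (k + 1)) := by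
              rw [pow_add z, pow_succ' x k]; group
  obtain ⟨i, j, k, rfl⟩ := key
  rcases pow_of_sq hz i with h1 | h1 <;> rcases pow_of_sq ha j with h2 | h2 <;>
    rcases pow_of_sq hb k with h3 | h3 <;> rw [h1, h2, h3] <;> simp

/-- Hyperplanes of `R`. -/
theorem CI.exists_hyper {W : Subgroup L} (hzW : z ∈ W) (hWR : W ≤ R) {u : L} (huR : u ∈ R) (huW : u ∉ W) :
    ∃ M : Subgroup L, W ≤ M ∧ M ≤ R ∧ u ∉ M ∧ M.relIndex R = 2 := by
  classical
  let F : Set (Subgroup L) := {M | W ≤ M ∧ M ≤ R ∧ u ∉ M}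
  have hF : F.Nonempty := ⟨W, le_rfl, hWR, huW⟩
  obtain ⟨M, hM⟩ := F.toFinite.exists_maximal hF
  obtain ⟨⟨hWM, hMR, huM⟩, hmax⟩ := hM
  have hzM : z ∈ M := hWM hzW
  have key : ∀ x ∈ R, x ∉ M → x * u ∈ M := by
    intro x hx hxM
    have hx2 : x * x ∈ M := by
      rcases h.sq x hx with h1 | h1
      · rw [h1]; exact one_mem _
      · rw [h1]; exact hzM
    have hN : ∀ y ∈ R, ∀ m ∈ M, y * m * y⁻¹ ∈ M := by
      intro y hy m hm
      have h2 : y * m * y⁻¹ * m⁻¹ ∈ M := by
        rcases h.comm y hy m (hMR hm) with h1 | h1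
        · rw [h1]; exact one_mem _
        · rw [h1]; exact hzM
      have e : y * m * y⁻¹ = (y * m * y⁻¹ * m⁻¹) * m := by group
      rw [e]
      exact mul_mem h2 hm
    have hxi : x⁻¹ * x⁻¹ ∈ M := by
      have := inv_mem hx2
      rw [mul_inv_rev] at this
      exact this
    let X : Subgroup L :=
      { carrier := {y | y ∈ M ∨ x * y ∈ M}
        one_mem' := Or.inl (one_mem _)
        mul_mem' := by
          rintro a b (ha | ha) (hb | hb)
          · exact Or.inl (mul_mem ha hb)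
          · right
            have e : x * (a * b) = (x * a * x⁻¹) * (x * b) := by group
            rw [e]
            exact mul_mem (hN x hx a ha) hb
          · right
            have e : x * (a * b) = (x * a) * b := by group
            rw [e]
            exact mul_mem ha hb
          · left
            have e : a * b = (x⁻¹ * (x * a) * x⁻¹⁻¹) * (x⁻¹ * x⁻¹) * (x * b) := by group
            rw [e]
            exact mul_mem (mul_mem (hN x⁻¹ (inv_mem hx) _ ha) hxi) hb
        inv_mem' := by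
          rintro a (ha | ha)
          · exact Or.inl (inv_mem ha)
          · right
            have e : x * a⁻¹ = (x * (x * a)⁻¹ * x⁻¹) * (x * x) := by group
            rw [e]
            exact mul_mem (hN x hx _ (inv_mem ha)) hx2 }
    have hXmem : ∀ y, y ∈ X ↔ y ∈ M ∨ x * y ∈ M := fun y => Iff.rfl
    have hMX : M ≤ X := fun y hy => Or.inl hy
    have hxiX : x⁻¹ ∈ X := Or.inr (by rw [mul_inv_cancel]; exact one_mem _)
    have hXR : X ≤ R := by
      rintro y (hy | hy)
      · exact hMR hy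
      · have e : y = x⁻¹ * (x * y) := by group
        rw [e]
        exact mul_mem (inv_mem hx) (hMR hy)
    by_contra hxu
    have huX : u ∉ X := by
      rintro (h1 | h1)
      · exact huM h1
      · exact hxu h1
    have hXF : X ∈ F := ⟨hWM.trans hMX, hXR, huX⟩
    have hle := hmax hXF hMX
    exact hxM (by
      have := hle hxiX
      simpa using inv_mem this)
  refine ⟨M, hWM, hMR, huM, ?_⟩
  show (M.subgroupOf R).index = 2
  rw [Subgroup.index_eq_two_iff]
  refine ⟨⟨u, huR⟩, ?_⟩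
  rintro ⟨b, hb⟩
  rw [Subgroup.mem_subgroupOf, Subgroup.mem_subgroupOf]
  show Xor (b * u ∈ M) (b ∈ M)
  by_cases hbM : b ∈ M
  · right
    refine ⟨hbM, fun h1 => huM ?_⟩
    have e : u = b⁻¹ * (b * u) := by group
    rw [e]
    exact mul_mem (inv_mem hbM) h1
  · left
    exact ⟨key b hb hbM, hbM⟩

/-- The centre of `R` is `⟨z⟩`. -/
theorem CI.center_eq (S : Sylow 2 L) (hS : (S : Subgroup L) = R)
    (hT : ∀ M : Subgroup L, M ≤ R → M.relIndex R = 2 → ∀ u ∈ R, orderOf u = 2 → u ∉ M → ∃ g : L, g * u * g⁻¹ ∈ M)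
    {t₁ : L} (ht₁ : t₁ ∈ TT z R) {u : L} (huR : u ∈ R) (huc : ∀ x ∈ R, x * u = u * x) : u = 1 ∨ u = z := by
  classical
  by_contra hne
  push Not at hne
  obtain ⟨hu1, huz⟩ := hne
  have huu : u * u = 1 := h.cent_sq ht₁ huR (huc t₁ ht₁.2.1).symm
  have ho : orderOf u = 2 := by
    apply orderOf_eq_prime
    · rw [pow_two]; exact huu
    · exact hu1
  obtain ⟨t₂, ht₂, hcases⟩ : ∃ t₂ ∈ TT z R, (t₂ = t₁ ∨ t₁ * t₂ ≠ t₂ * t₁) ∧
      ∀ t' ∈ TT z R, t' = t₁ ∨ t' = z * t₁ ∨ t' = t₂ ∨ t' = z * t₂ := by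
    by_cases hex : ∃ t₂ ∈ TT z R, t₁ * t₂ ≠ t₂ * t₁
    · obtain ⟨t₂, ht₂, h12⟩ := hex
      refine ⟨t₂, ht₂, Or.inr h12, fun t' ht' => ?_⟩
      by_cases h1 : t₁ * t' = t' * t₁
      · by_cases h1' : t₁ = t'
        · exact Or.inl h1'.symm
        · exact Or.inr (Or.inl (h.tt_pair ht₁ ht' h1 h1'))
      · by_cases h2 : t₂ * t' = t' * t₂
        · by_cases h2' : t₂ = t'
          · exact Or.inr (Or.inr (Or.inl h2'.symm))
          · exact Or.inr (Or.inr (Or.inr (h.tt_pair ht₂ ht' h2 h2')))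
        · exact (h.tt_three ht₁ ht₂ ht' h12 h1 h2).elim
    · push Not at hex
      refine ⟨t₁, ht₁, Or.inl rfl, fun t' ht' => ?_⟩
      by_cases h1' : t₁ = t'
      · exact Or.inl h1'.symm
      · exact Or.inr (Or.inl (h.tt_pair ht₁ ht' (hex t' ht') h1'))
  obtain ⟨hcase, hall⟩ := hcases
  -- the subgroup `W`
  let W : Subgroup L := closure ({z, t₁, t₂} : Set L)
  have hWR : W ≤ R := by
    rw [closure_le]
    rintro x (rfl | rfl | rfl)
    · exact h.z_mem
    · exact ht₁.2.1
    · exact ht₂.2.1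
  have hzW : z ∈ W := subset_closure (by simp)
  have ht₁W : t₁ ∈ W := subset_closure (by simp)
  have ht₂W : t₂ ∈ W := subset_closure (by simp)
  have hTW : ∀ t' ∈ TT z R, t' ∈ W := by
    intro t' ht'
    rcases hall t' ht' with rfl | rfl | rfl | rfl
    · exact ht₁W
    · exact mul_mem hzW ht₁W
    · exact ht₂W
    · exact mul_mem hzW ht₂W
  -- central elements of `W`
  have hs₁ := h.tt_sq ht₁
  have hs₂ := h.tt_sq ht₂
  have huW : u ∉ W := by
    intro huW
    obtain ⟨e, he⟩ : ∃ e : ℕ, t₂ * t₁ = z ^ e * (t₁ * t₂) := by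
      by_cases hc : t₁ * t₂ = t₂ * t₁
      · exact ⟨0, by simp [hc]⟩
      · refine ⟨1, ?_⟩
        have h1 := h.comm_rule ht₂.2.1 ht₁.2.1 (fun h' => hc h'.symm)
        rw [pow_one]
        rw [mul_inv_eq_iff_eq_mul] at h1
        rw [h1, mul_assoc]
    have hnc : ∀ t' ∈ TT z R, u ≠ t' := by
      rintro t' ht' rfl
      obtain ⟨x, hx, hxt⟩ := h.tt_noncentral ht'
      exact hxt (huc x hx)
    have h12 : t₁ * (t₁ * t₂) = (t₁ * t₂) * t₁ → t₁ * t₂ = t₂ * t₁ := by
      intro h'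
      have h3 : t₂ = t₁ * t₂ * t₁ := by
        rw [← mul_assoc, hs₁, one_mul] at h'
        exact h'
      have h4 : t₁ * t₂ = t₁ * (t₁ * t₂ * t₁) := by rw [← h3]
      rw [h4, ← mul_assoc, ← mul_assoc, hs₁, one_mul]
    rcases mem_closure3 h.hz hs₁ hs₂ (h.z_comm ht₁.2.1) (h.z_comm ht₂.2.1) e he huW with
      e1 | e1 | e1 | e1 | e1 | e1 | e1 | e1
    · exact hu1 e1
    · exact huz e1
    · exact hnc _ ht₁ e1
    · exact hnc _ (h.zt_mem ht₁) e1
    · exact hnc _ ht₂ e1
    · exact hnc _ (h.zt_mem ht₂) e1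
    · rcases hcase with rfl | hcc
      · rw [hs₁] at e1; exact hu1 e1
      · apply hcc
        apply h12
        have := huc t₁ ht₁.2.1
        rw [e1] at this
        exact this
    · rcases hcase with rfl | hcc
      · rw [hs₁, mul_one] at e1; exact huz e1
      · apply hcc
        apply h12
        have := huc t₁ ht₁.2.1
        rw [e1] at this
        have hz1 := h.z_comm ht₁.2.1
        have h5 : z * (t₁ * (t₁ * t₂)) = z * ((t₁ * t₂) * t₁) := by
          calc z * (t₁ * (t₁ * t₂)) = (z * t₁) * (t₁ * t₂) := by group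
            _ = (t₁ * z) * (t₁ * t₂) := by rw [hz1]
            _ = t₁ * (z * (t₁ * t₂)) := by group
            _ = z * (t₁ * t₂) * t₁ := this
            _ = z * ((t₁ * t₂) * t₁) := by group
        exact mul_left_cancel h5
  obtain ⟨M, hWM, hMR, huM, hidx⟩ := h.exists_hyper hzW hWR huR huW
  obtain ⟨g, hg⟩ := hT M hMR hidx u huR ho huM
  have hvR : g * u * g⁻¹ ∈ R := hMR hg
  by_cases hvc : ∀ x ∈ R, x * (g * u * g⁻¹) = (g * u * g⁻¹) * x
  · have := h.central_conj S hS huc hvR hvc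
    rw [this] at hg
    exact huM hg
  · push Not at hvc
    obtain ⟨t', ht', hv⟩ := h.key S hS huR huc hvR hvc
    apply huM
    have e : u = (g * u * g⁻¹) * t' * z := by
      rw [hv]
      have hs := h.tt_sq ht'
      calc u = u * (z * z) := by rw [h.hz, mul_one]
        _ = u * z * 1 * z := by group
        _ = u * z * (t' * t') * z := by rw [hs]
        _ = u * z * t' * t' * z := by group
    rw [e]
    exact mul_mem (mul_mem hg (hWM (hTW t' ht'))) (hWM hzW)

/-- The final step: `R ≅ D₈`. -/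
theorem CI.final (hcent : ∀ u ∈ R, (∀ x ∈ R, x * u = u * x) → u = 1 ∨ u = z) {t₁ : L} (ht₁ : t₁ ∈ TT z R) :
    Nonempty (↥R ≃* DihedralGroup 4) := by
  classical
  obtain ⟨x, hx, hxt⟩ := h.tt_noncentral ht₁
  have ht₁R := ht₁.2.1
  have hs := h.tt_sq ht₁
  have hti := h.tt_inv ht₁
  have ex := h.comm_rule hx ht₁R hxt
  have hzc : ∀ {y}, y ∈ R → y * z = z * y := fun hy => h.z_comm hy
  have hyx : ∀ y ∈ R, y * t₁ ≠ t₁ * y → (y * x) * t₁ = t₁ * (y * x) := by
    intro y hy hyt
    have ey := h.comm_rule hy ht₁R hyt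
    have e : (y * x) * t₁ * (y * x)⁻¹ = t₁ := by
      calc (y * x) * t₁ * (y * x)⁻¹ = y * (x * t₁ * x⁻¹) * y⁻¹ := by group
        _ = y * (z * t₁) * y⁻¹ := by rw [ex]
        _ = (y * z) * t₁ * y⁻¹ := by group
        _ = (z * y) * t₁ * y⁻¹ := by rw [hzc hy]
        _ = z * (y * t₁ * y⁻¹) := by group
        _ = z * (z * t₁) := by rw [ey]
        _ = t₁ := by rw [← mul_assoc, h.hz, one_mul]
    rw [mul_inv_eq_iff_eq_mul] at e
    exact e
  have hcent' : ∀ r ∈ R, r * t₁ = t₁ * r → r * x = x * r → r = 1 ∨ r = z := by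
    intro r hr hrt hrx
    apply hcent r hr
    intro y hy
    by_cases hyt : y * t₁ = t₁ * y
    · exact h.cent_comm ht₁ hy hyt hr hrt
    · have h1 := hyx y hy hyt
      have h2 : (y * x) * r = r * (y * x) := h.cent_comm ht₁ (mul_mem hy hx) h1 hr hrt
      have h3 : y = (y * x) * x⁻¹ := by group
      have h4 : x⁻¹ * r = r * x⁻¹ := by
        rw [inv_mul_eq_iff_eq_mul, ← mul_assoc, ← hrx, mul_assoc, mul_inv_cancel, mul_one]
      calc y * r = (y * x) * (x⁻¹ * r) := by group
        _ = (y * x) * (r * x⁻¹) := by rw [h4]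
        _ = ((y * x) * r) * x⁻¹ := by group
        _ = (r * (y * x)) * x⁻¹ := by rw [h2]
        _ = r * y := by group
  have hA : ∀ r ∈ R, r * t₁ = t₁ * r → r = 1 ∨ r = z ∨ r = t₁ ∨ r = z * t₁ := by
    intro r hr hrt
    by_cases hrx : r * x = x * r
    · rcases hcent' r hr hrt hrx with rfl | rfl
      · exact Or.inl rfl
      · exact Or.inr (Or.inl rfl)
    · have er := h.comm_rule hx hr (fun h' => hrx h'.symm)
      have h1 : (r * t₁) * t₁ = t₁ * (r * t₁) := by
        rw [mul_assoc, hs, mul_one, ← mul_assoc, ← hrt, mul_assoc, hs, mul_one]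
      have h2 : (r * t₁) * x = x * (r * t₁) := by
        have e : x * (r * t₁) * x⁻¹ = r * t₁ := by
          calc x * (r * t₁) * x⁻¹ = (x * r * x⁻¹) * (x * t₁ * x⁻¹) := by group
            _ = z * r * (z * t₁) := by rw [er, ex]
            _ = z * (r * z) * t₁ := by group
            _ = z * (z * r) * t₁ := by rw [hzc hr]
            _ = (z * z) * r * t₁ := by group
            _ = r * t₁ := by rw [h.hz, one_mul]
        rw [mul_inv_eq_iff_eq_mul] at e
        exact e.symm
      have hrr : r = (r * t₁) * t₁ := by rw [mul_assoc, hs, mul_one]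
      rcases hcent' _ (mul_mem hr ht₁R) h1 h2 with h3 | h3
      · right; right; left
        rw [hrr, h3, one_mul]
      · right; right; right
        rw [hrr, h3]
  -- the square root
  obtain ⟨ρ, hρR, hρρ, hρt⟩ : ∃ ρ ∈ R, ρ * ρ = z ∧ ρ * t₁ ≠ t₁ * ρ := by
    rcases h.sq x hx with h1 | h1
    · refine ⟨x * t₁, mul_mem hx ht₁R, ?_, ?_⟩
      · have e : x * t₁ = (z * t₁) * x := by
          rw [mul_inv_eq_iff_eq_mul] at ex
          exact ex
        calc x * t₁ * (x * t₁) = (z * t₁) * x * (x * t₁) := by rw [e]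
          _ = z * t₁ * (x * x) * t₁ := by group
          _ = z * (t₁ * t₁) := by rw [h1]; group
          _ = z := by rw [hs, mul_one]
      · intro h2
        apply hxt
        have h3 : x * t₁ * t₁ = t₁ * x * t₁ := by rw [mul_assoc t₁, h2]
        exact mul_right_cancel h3
    · exact ⟨x, hx, h1, hxt⟩
  have eρ := h.comm_rule ht₁R hρR (fun h' => hρt h'.symm)
  have hρ4 : orderOf ρ = 4 := by
    haveI : Fact (Nat.Prime 2) := ⟨Nat.prime_two⟩
    have := orderOf_eq_prime_pow (x := ρ) (p := 2) (n := 1) (by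
      rw [pow_one, pow_two, hρρ]; exact h.hz1) (by
      have : ρ ^ 2 ^ (1 + 1) = (ρ * ρ) * (ρ * ρ) := by
        rw [← pow_two ρ, ← pow_add]
        norm_num
      rw [this, hρρ, h.hz])
    simpa using this
  -- the elements
  let ρ' : R := ⟨ρ, hρR⟩
  let σ : R := ⟨t₁, ht₁R⟩
  have h1 : orderOf ρ' = 4 := by
    rw [← hρ4]; exact Subgroup.orderOf_mk ρ hρR
  have h2 : σ * σ = 1 := Subtype.ext hs
  have hρi : ρ⁻¹ = z * ρ := by
    apply inv_eq_of_mul_eq_one_left
    rw [mul_assoc, hρρ, h.hz]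
  have h3 : σ * ρ' * σ⁻¹ = ρ'⁻¹ := by
    apply Subtype.ext
    show t₁ * ρ * t₁⁻¹ = ρ⁻¹
    rw [eρ, hρi]
  have h4 : σ ∉ zpowers ρ' := by
    intro hm
    obtain ⟨i, hi⟩ := Subgroup.mem_zpowers_iff.mp hm
    apply hρt
    have : ρ' * σ = σ * ρ' := by
      rw [← hi]
      exact (Commute.zpow_right (Commute.refl ρ') i).eq
    exact congrArg Subtype.val this
  -- the order
  have hle : Nat.card R ≤ 8 := by
    let l : List L := [1, z, t₁, z * t₁, x⁻¹, z * x⁻¹, t₁ * x⁻¹, z * t₁ * x⁻¹]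
    have hsub : (R : Set L) ⊆ (l.toFinset : Set L) := by
      intro y hy
      simp only [SetLike.mem_coe] at hy
      have hall : y ∈ l := by
        by_cases hyt : y * t₁ = t₁ * y
        · rcases hA y hy hyt with rfl | rfl | rfl | rfl <;> simp [l]
        · have h5 := hyx y hy hyt
          have hyy : y = (y * x) * x⁻¹ := by group
          rcases hA _ (mul_mem hy hx) h5 with h6 | h6 | h6 | h6 <;> rw [hyy, h6] <;> simp [l]
      simpa [List.mem_toFinset] using hall
    calc Nat.card R = (R : Set L).ncard := Nat.card_coe_set_eq (R : Set L)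
      _ ≤ (l.toFinset : Set L).ncard := Set.ncard_le_ncard hsub (Set.toFinite _)
      _ = l.toFinset.card := Set.ncard_coe_finset _
      _ ≤ l.length := List.toFinset_card_le l
      _ = 8 := rfl
  have hdvd : 4 ∣ Nat.card R := by
    rw [← h1]; exact orderOf_dvd_natCard ρ'
  have hne4 : Nat.card R ≠ 4 := by
    intro h4'
    apply h4
    have hz4 : Nat.card (zpowers ρ') = 4 := by rw [Nat.card_zpowers, h1]
    have : zpowers ρ' = ⊤ := by
      apply Subgroup.eq_top_of_card_eq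
      rw [hz4, h4']
    rw [this]; exact mem_top _
  have hcard : Nat.card R = 2 * 4 := by
    obtain ⟨c, hc⟩ := hdvd
    have h0 : 0 < Nat.card R := Nat.card_pos
    omega
  exact Cfsg.Agent.Lib.TwoGroups.nonempty_mulEquiv_dihedral_of ρ' σ h1 h2 h3 h4 hcard

end Sylow

/-- The main theorem. -/
theorem main {L : Type*} [Group L] [Finite L] [IsSimpleGroup L] (hL : ¬ IsMulCommutative L) (z : L)
    (hz : orderOf z = 2) (R : Sylow 2 L) (hR : (R : Subgroup L) = centralizer ({z} : Set L))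
    (hΦ : (frattini ↥(R : Subgroup L)).map (R : Subgroup L).subtype = zpowers z) :
    Nonempty (↥(R : Subgroup L) ≃* DihedralGroup 4) := by
  classical
  haveI : Fact (Nat.Prime 2) := ⟨Nat.prime_two⟩
  have hzz : z * z = 1 := by rw [← pow_two, ← hz]; exact pow_orderOf_eq_one z
  have hz1 : z ≠ 1 := by
    rintro rfl
    simp at hz
  have hzi : z⁻¹ = z := inv_eq_of_mul_eq_one_left hzz
  have hG : IsPGroup 2 ↥(R : Subgroup L) := R.isPGroup'
  haveI hnil : Group.IsNilpotent ↥(R : Subgroup L) := hG.isNilpotent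
  have hzp : ∀ y ∈ zpowers z, y = 1 ∨ y = z := by
    intro y hy
    obtain ⟨i, rfl⟩ := Subgroup.mem_zpowers_iff.mp hy
    rcases Int.even_or_odd' i with ⟨k, rfl | rfl⟩
    · left
      rw [zpow_mul, zpow_two, hzz, one_zpow]
    · right
      rw [zpow_add, zpow_mul, zpow_two, hzz, one_zpow, one_mul, zpow_one]
  have hΦmem : ∀ a : ↥(R : Subgroup L), a ∈ frattini ↥(R : Subgroup L) → (a : L) = 1 ∨ (a : L) = z := by
    intro a ha
    apply hzp
    rw [← hΦ]
    exact ⟨a, ha, rfl⟩
  have hmem : ∀ x, x ∈ (R : Subgroup L) ↔ x * z = z * x := by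
    intro x
    rw [hR, Subgroup.mem_centralizer_singleton_iff]
  have hCI : CI z (R : Subgroup L) := by
    refine ⟨hzz, hz1, hmem, ?_, ?_, ?_⟩
    · intro x hx
      have := hΦmem _ (pow_mem_frattini_of_isPGroup hG ⟨x, hx⟩)
      simpa [pow_two] using this
    · intro x hx y hy
      have h1 : ⁅(⟨x, hx⟩ : ↥(R : Subgroup L)), (⟨y, hy⟩ : ↥(R : Subgroup L))⁆ ∈ frattini ↥(R : Subgroup L) :=
        commutator_le_frattini_of_isNilpotent
          (Subgroup.commutator_mem_commutator (mem_top _) (mem_top _))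
      have := hΦmem _ h1
      simpa [commutatorElement_def] using this
    · by_contra hall
      push Not at hall
      have hcomm : commutator ↥(R : Subgroup L) ≤ ⊥ := by
        rw [_root_.commutator_def, Subgroup.commutator_le]
        rintro ⟨a, ha⟩ - ⟨b, hb⟩ -
        rw [mem_bot, commutatorElement_def]
        apply Subtype.ext
        show a * b * a⁻¹ * b⁻¹ = 1
        have h1 := hall a ha
        have h2 := hall b hb
        have h3 := hall (a * b) (mul_mem ha hb)
        have hai : a⁻¹ = a := inv_eq_of_mul_eq_one_left h1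
        have hbi : b⁻¹ = b := inv_eq_of_mul_eq_one_left h2
        rw [hai, hbi, ← h3]
        group
      have hF := frattini_le_of_commutator_le_of_pow_mem Nat.prime_two ⊥ hcomm (by
        rintro ⟨a, ha⟩
        rw [mem_bot]
        apply Subtype.ext
        show a ^ 2 = 1
        rw [pow_two]
        exact hall a ha)
      have h0 : z ∈ (frattini ↥(R : Subgroup L)).map (R : Subgroup L).subtype := by
        rw [hΦ]; exact mem_zpowers z
      obtain ⟨a, ha, rfl⟩ := h0
      have := hF ha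
      rw [mem_bot] at this
      rw [this] at hz1
      exact hz1 rfl
  -- `Z*`
  have hsimple_comm : ∀ N : Subgroup L, N.Normal → N = ⊥ ∨ N = ⊤ := fun N hN =>
    IsSimpleGroup.eq_bot_or_eq_top_of_normal N hN
  have hex : ∃ t₁, t₁ ∈ TT z (R : Subgroup L) := by
    by_contra hno
    push Not at hno
    have hw : ∀ x ∈ zpowers z, ∀ g : L, g * x * g⁻¹ ∈ (R : Subgroup L) → g * x * g⁻¹ = x := by
      intro x hx g hg
      rcases hzp x hx with rfl | rfl
      · simp
      · by_contra hne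
        exact hno _ ⟨⟨g, rfl⟩, hg, hne⟩
    have hQ : zpowers z ≤ (R : Subgroup L) := by
      rw [Subgroup.zpowers_le]
      exact hCI.z_mem
    have hc := Cfsg.Agent.Lib.ThreeTrans.ZS.mem_center_of_weaklyClosed R (zpowers z) hQ hw (mem_zpowers z)
    have hO : pPrimeCore 2 L = ⊥ := by
      rcases hsimple_comm _ (pPrimeCore_normal (G := L) 2) with h0 | h0
      · exact h0
      · exfalso
        have h1 := pPrimeCore_coprime (G := L) 2
        rw [h0, Subgroup.card_top] at h1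
        have h2 : 2 ∣ Nat.card L := by
          rw [← hz]; exact orderOf_dvd_natCard z
        have h3 := Nat.dvd_gcd h2 (dvd_refl 2)
        rw [h1.gcd_eq_one] at h3
        omega
    have hcz : z ∈ center L := by
      rw [Subgroup.mem_center_iff]
      intro g
      have h1 := (Subgroup.mem_center_iff.mp hc) (QuotientGroup.mk' _ g)
      have h2 : QuotientGroup.mk' (pPrimeCore 2 L) (g * z * g⁻¹ * z⁻¹) = 1 := by
        simp only [map_mul, map_inv, h1]
        group
      rw [QuotientGroup.mk'_apply, QuotientGroup.eq_one_iff, hO, mem_bot] at h2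
      have h3 := mul_inv_eq_one.mp h2
      rw [mul_inv_eq_iff_eq_mul] at h3
      exact h3
    rcases hsimple_comm _ (inferInstance : (center L).Normal) with h0 | h0
    · rw [h0, mem_bot] at hcz
      exact hz1 hcz
    · apply hL
      refine ⟨⟨fun a b => ?_⟩⟩
      have : a ∈ center L := by rw [h0]; exact mem_top a
      exact (Subgroup.mem_center_iff.mp this b).symm
  -- Thompson
  have hT : ∀ M : Subgroup L, M ≤ (R : Subgroup L) → M.relIndex (R : Subgroup L) = 2 →
      ∀ u ∈ (R : Subgroup L), orderOf u = 2 → u ∉ M → ∃ g : L, g * u * g⁻¹ ∈ M := by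
    intro M hM hi u hu ho huM
    rcases Cfsg.Agent.S0111.result R M hM hi u ho hu huM with ⟨N, hN, hNi, -⟩ | h'
    · exfalso
      rcases hsimple_comm N hN with rfl | rfl
      · rw [Subgroup.index_bot] at hNi
        apply hL
        haveI : Fact (Nat.card L).Prime := ⟨by rw [hNi]; exact Nat.prime_two⟩
        haveI hcyc : IsCyclic L := isCyclic_of_prime_card (p := Nat.card L) rfl
        letI : CommGroup L := IsCyclic.commGroup
        exact ⟨⟨fun a b => mul_comm a b⟩⟩
      · rw [Subgroup.index_top] at hNi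
        omega
    · exact h'
  obtain ⟨t₁, ht₁⟩ := hex
  exact hCI.final (fun u hu huc => hCI.center_eq R rfl hT ht₁ hu huc) ht₁

end Cfsg.Agent.Lib.ThreeTrans.CD8
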