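import Mathlib

/-!
The Coxeter presentation of the symmetric group of degree five: given involutions `a, b, c, e` in a group with
the braid relations along the chain and commuting otherwise, there is a homomorphism from `Perm (Fin 5)` sending the adjacent
transpositions to them. The proof goes through a complete rewriting system on words, run inside the kernel by `decide`.
-/

set_option autoImplicit false

namespace Cfsg.Agent.Lib.ThreeTrans

open Equiv

/-- The four Coxeter letters. -/
inductive L4 : Type
  | a | b | c | e
  deriving DecidableEq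

namespace L4

/-- The transposition of a letter. -/
def sw : L4 → Perm (Fin 5)
  | a => swap 0 1
  | b => swap 1 2
  | c => swap 2 3
  | e => swap 3 4

/-- The permutation of a word. -/
def permOf : List L4 → Perm (Fin 5)
  | [] => 1
  | i :: w => sw i * permOf w

/-- The rewrite rules. -/
def rules : List (List L4 × List L4) :=
  [([a, a], []), ([b, b], []), ([c, c], []), ([e, e], []),
   ([c, a], [a, c]), ([e, a], [a, e]), ([e, b], [b, e]),
   ([b, a, b], [a, b, a]), ([c, b, c], [b, c, b]), ([e, c, e], [c, e, c]),
   ([c, b, a, c], [b, c, b, a]), ([e, c, b, e], [c, e, c, b]), ([e, c, b, a, e], [c, e, c, b, a])]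

/-- One step of the rewriting system. -/
def rw1 : List L4 → Option (List L4)
  | [] => none
  | i :: t =>
    match rules.find? (fun r => r.1.isPrefixOf (i :: t)) with
    | some r => some (r.2 ++ (i :: t).drop r.1.length)
    | none => (rw1 t).map (i :: ·)

/-- Normal form, with fuel. -/
def nf : ℕ → List L4 → List L4
  | 0, w => w
  | n + 1, w =>
    match rw1 w with
    | none => w
    | some w' => nf n w'

/-- The table of normal forms of the 24 elements of the subgroup on `a, b, c`. -/
def table4 : List (List L4) :=
  [[], [a], [b], [a, b], [b, a], [a, b, a],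
   [c], [a, c], [b, c], [a, b, c], [b, a, c], [a, b, a, c],
   [c, b], [a, c, b], [b, c, b], [a, b, c, b], [b, a, c, b], [a, b, a, c, b],
   [c, b, a], [a, c, b, a], [b, c, b, a], [a, b, c, b, a], [b, a, c, b, a], [a, b, a, c, b, a]]

/-- The table of normal forms of the 120 elements. -/
def table : List (List L4) :=
  table4.flatMap fun w => [w, w ++ [e], w ++ [e, c], w ++ [e, c, b], w ++ [e, c, b, a]]

/-- A normal form word of a permutation. -/
def wordOf (g : Perm (Fin 5)) : List L4 :=
  (table.find? (fun w => decide (permOf w = g))).getD []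

set_option maxRecDepth 100000 in
theorem permOf_wordOf : ∀ g : Perm (Fin 5), permOf (wordOf g) = g := by
  decide +kernel

set_option maxRecDepth 100000 in
theorem nf_wordOf_all : ∀ (g : Perm (Fin 5)) (s : L4), nf 24 (wordOf g ++ [s]) = wordOf (g * sw s) := by
  intro g s
  revert g
  cases s <;> decide +kernel

theorem wordOf_one : wordOf 1 = [] := by decide +kernel
theorem wordOf_a : wordOf (swap 0 1) = [a] := by decide +kernel
theorem wordOf_b : wordOf (swap 1 2) = [b] := by decide +kernel
theorem wordOf_c : wordOf (swap 2 3) = [c] := by decide +kernel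
theorem wordOf_e : wordOf (swap 3 4) = [e] := by decide +kernel

section
variable {G : Type*} [Group G] (x y z w : G)

/-- Letters to elements. -/
def gen : L4 → G
  | a => x
  | b => y
  | c => z
  | e => w

/-- Evaluation of a word. -/
def ev : List L4 → G
  | [] => 1
  | i :: t => gen x y z w i * ev t

lemma ev_append (u v : List L4) : ev x y z w (u ++ v) = ev x y z w u * ev x y z w v := by
  induction u with
  | nil => simp [ev]
  | cons i u ih => simp [ev, ih, mul_assoc]

/-- The relations of the chain. -/
structure Rel (x y z w : G) : Prop where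
  h1 : x * x = 1
  h2 : y * y = 1
  h3 : z * z = 1
  h4 : w * w = 1
  hxz : z * x = x * z
  hxw : w * x = x * w
  hyw : w * y = y * w
  hxy : y * x * y = x * y * x
  hyz : z * y * z = y * z * y
  hzw : w * z * w = z * w * z

variable {x y z w}

lemma rules_sound (h : Rel x y z w) : ∀ r ∈ rules, ev x y z w r.1 = ev x y z w r.2 := by
  intro r hr
  simp only [rules, List.mem_cons, List.not_mem_nil, or_false] at hr
  have hzx := h.hxz
  have hwx := h.hxw
  have hwy := h.hyw
  have hzw := h.hzw
  have hyz := h.hyz
  rcases hr with rfl | rfl | rfl | rfl | rfl | rfl | rfl | rfl | rfl | rfl | rfl | rfl | rfl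
  · simpa [ev, gen] using h.h1
  · simpa [ev, gen] using h.h2
  · simpa [ev, gen] using h.h3
  · simpa [ev, gen] using h.h4
  · simpa [ev, gen] using hzx
  · simpa [ev, gen] using hwx
  · simpa [ev, gen] using hwy
  · simpa [ev, gen, mul_assoc] using h.hxy
  · simpa [ev, gen, mul_assoc] using hyz
  · simpa [ev, gen, mul_assoc] using hzw
  · simp only [ev, gen, mul_one]
    calc z * (y * (x * z)) = z * y * (x * z) := by group
      _ = z * y * (z * x) := by rw [hzx]
      _ = (z * y * z) * x := by group
      _ = (y * z * y) * x := by rw [hyz]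
      _ = y * (z * (y * x)) := by group
  · simp only [ev, gen, mul_one]
    calc w * (z * (y * w)) = w * z * (y * w) := by group
      _ = w * z * (w * y) := by rw [hwy]
      _ = (w * z * w) * y := by group
      _ = (z * w * z) * y := by rw [hzw]
      _ = z * (w * (z * y)) := by group
  · simp only [ev, gen, mul_one]
    calc w * (z * (y * (x * w))) = w * z * y * (x * w) := by group
      _ = w * z * y * (w * x) := by rw [hwx]
      _ = w * z * (y * w) * x := by group
      _ = w * z * (w * y) * x := by rw [hwy]
      _ = (w * z * w) * y * x := by group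
      _ = (z * w * z) * y * x := by rw [hzw]
      _ = z * (w * (z * (y * x))) := by group

lemma ev_rw1 (h : Rel x y z w) : ∀ t t' : List L4, rw1 t = some t' → ev x y z w t = ev x y z w t' := by
  intro t
  induction t with
  | nil => intro t' ht; simp [rw1] at ht
  | cons i t ih =>
    intro t' ht
    rw [rw1] at ht
    rcases hf : rules.find? (fun r => r.1.isPrefixOf (i :: t)) with _ | r
    · rw [hf] at ht
      rcases hr : rw1 t with _ | v
      · simp [hr] at ht
      · simp only [hr, Option.map_some, Option.some.injEq] at ht
        subst ht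
        simp only [ev, ih v hr]
    · rw [hf] at ht
      simp only [Option.some.injEq] at ht
      subst ht
      have hp := List.find?_some hf
      have hmem := List.mem_of_find?_eq_some hf
      have hpre : r.1 <+: (i :: t) := by
        simpa using hp
      obtain ⟨u, hu⟩ := hpre
      rw [← hu]
      rw [List.drop_left' rfl]
      rw [ev_append, ev_append, rules_sound h r hmem]

lemma ev_nf (h : Rel x y z w) : ∀ (n : ℕ) (t : List L4), ev x y z w (nf n t) = ev x y z w t := by
  intro n
  induction n with
  | zero => intro t; rfl
  | succ n ih =>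
    intro t
    simp only [nf]
    rcases hr : rw1 t with _ | v
    · rfl
    · simp only [ih]
      exact (ev_rw1 h t v hr).symm

/-- The homomorphism of the Coxeter presentation, as a bare function. -/
def psi (x y z w : G) (g : Perm (Fin 5)) : G := ev x y z w (wordOf g)

lemma psi_mul_sw (h : Rel x y z w) (g : Perm (Fin 5)) (s : L4) :
    psi x y z w (g * sw s) = psi x y z w g * gen x y z w s := by
  unfold psi
  rw [← nf_wordOf_all, ev_nf h, ev_append]
  simp [ev]

lemma psi_mul_word (h : Rel x y z w) (t : List L4) :
    ∀ g : Perm (Fin 5), psi x y z w (g * permOf t) = psi x y z w g * ev x y z w t := by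
  induction t with
  | nil => intro g; simp [permOf, ev]
  | cons i t ih =>
    intro g
    simp only [permOf, ev]
    rw [← mul_assoc, ih, psi_mul_sw h, mul_assoc]

end

end L4

/-- The Coxeter presentation of the symmetric group of degree 5. -/
theorem exists_hom_perm_five {G : Type*} [Group G] {x y z w : G} (h : L4.Rel x y z w) :
    ∃ φ : Perm (Fin 5) →* G, φ (swap 0 1) = x ∧ φ (swap 1 2) = y ∧ φ (swap 2 3) = z ∧ φ (swap 3 4) = w := by
  refine ⟨⟨⟨L4.psi x y z w, ?_⟩, ?_⟩, ?_, ?_, ?_, ?_⟩
  · show L4.ev x y z w (L4.wordOf 1) = 1
    rw [L4.wordOf_one]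
    rfl
  · intro g k
    have e := L4.psi_mul_word h (L4.wordOf k) g
    rw [L4.permOf_wordOf] at e
    exact e
  · show L4.ev x y z w (L4.wordOf (swap 0 1)) = x
    rw [L4.wordOf_a]
    exact mul_one x
  · show L4.ev x y z w (L4.wordOf (swap 1 2)) = y
    rw [L4.wordOf_b]
    exact mul_one y
  · show L4.ev x y z w (L4.wordOf (swap 2 3)) = z
    rw [L4.wordOf_c]
    exact mul_one z
  · show L4.ev x y z w (L4.wordOf (swap 3 4)) = w
    rw [L4.wordOf_e]
    exact mul_one w

open L4 in
/-- A small family of permutations conjugating any non-trivial element suitably. -/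
def hitS5 : List (Perm (Fin 5)) :=
  ([[a, b, c, e, b, c, a, b], [c, a, b], [c, e, c], [c, a, b, a], [e, c, a], [b, c, e, b, a], [a, b, c, a], [b],
    [c, e, b, c, a], [a, b, c, e, c, a, b], [b, c, e, a, b], [c, e, a, b, c], [b, c, e, a],
    [a, b, c, e, a, b, c, a, b], [b, c, e, a, b, c, b], [b, c, e, a, b, c, a, b, a]] : List (List L4)).map permOf

set_option maxRecDepth 100000 in
/-- A non-trivial normal subgroup of the symmetric group of degree 5 contains (0 1)(1 2). -/
theorem perm_five_normal_aux : ∀ g : Perm (Fin 5), g ≠ 1 →
    ∃ t₁ ∈ hitS5, ∃ t₂ ∈ hitS5, (t₁ * g * t₁⁻¹) * (t₂ * g⁻¹ * t₂⁻¹) = swap 0 1 * swap 1 2 := by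
  decide +kernel

/-- A homomorphism from the symmetric group of degree 5 that does not kill (0 1)(1 2) is injective. -/
theorem injective_of_map_ne_one_five {G : Type*} [Group G] (φ : Perm (Fin 5) →* G)
    (h : φ (swap 0 1) * φ (swap 1 2) ≠ 1) : Function.Injective φ := by
  rw [injective_iff_map_eq_one]
  intro g hg
  by_contra hg1
  obtain ⟨t₁, -, t₂, -, ht⟩ := perm_five_normal_aux g hg1
  apply h
  rw [← map_mul, ← ht]
  simp [hg]

end Cfsg.Agent.Lib.ThreeTrans
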