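import Mathlib
import Cfsg.Prelude.Def_FischerSpaces
import Cfsg.Agent.Lib.ThreeTrans.Sim
import Cfsg.Agent.Lib.ThreeTrans.CoxeterS4

/-!
# The line system of a set of 3-transpositions is a Fischer space.

`Tri D x y z`: `x, y, z ∈ D`, `x, y` do not commute, `z = y x y`.  Two different lines through `p` are either in a copy of
the symmetric group of degree 4 (the dual affine plane of order two) or in a copy of the affine group `3² : 2` (the affine
plane of order three).
-/

set_option autoImplicit false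

namespace Cfsg.Agent.Lib.ThreeTrans.FL

open Cfsg Cfsg.LineSystem

variable {G : Type*} [Group G] {D : Set G}

/-- The set of points among three elements. -/
def ln (D : Set G) (x y z : G) : Set D := {w : D | (w : G) = x ∨ (w : G) = y ∨ (w : G) = z}

/-- Three elements of `D` making a line. -/
structure Tri (D : Set G) (x y z : G) : Prop where
  hx : x ∈ D
  hy : y ∈ D
  hz : z ∈ D
  ncomm : ¬ Commute x y
  third : z = y * x * y

theorem Tri.ne12 {x y z : G} (t : Tri D x y z) : x ≠ y := by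
  rintro rfl
  exact t.ncomm (Commute.refl x)

section
variable (hT : TT D)
include hT

theorem cancel_l {x : G} (hx : x ∈ D) (y : G) : x * (x * y) = y := by
  rw [← mul_assoc, hT.inv x hx, one_mul]

theorem conj_mem {g d : G} (hg : g ∈ D) (hd : d ∈ D) : g * d * g ∈ D := by
  have := hT.conj g d hd
  rwa [inv_eq_of_mul_self (hT.inv g hg)] at this

theorem braid {x y : G} (hx : x ∈ D) (hy : y ∈ D) (h : ¬ Commute x y) : x * y * x = y * x * y := by
  rcases hT.prod x hx y hy with h2 | h3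
  · exact absurd (commute_of_sq (hT.inv x hx) (hT.inv y hy) h2) h
  · exact braid_of_cube (hT.inv x hx) (hT.inv y hy) h3

theorem Tri.swap12 {x y z : G} (t : Tri D x y z) : Tri D y x z where
  hx := t.hy
  hy := t.hx
  hz := t.hz
  ncomm := fun h => t.ncomm h.symm
  third := by rw [t.third, braid hT t.hx t.hy t.ncomm]

theorem Tri.rot {x y z : G} (t : Tri D x y z) : Tri D y z x where
  hx := t.hy
  hy := t.hz
  hz := t.hx
  ncomm := by
    intro h
    apply t.ncomm
    have h1 : y * z = z * y := h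
    rw [t.third] at h1
    have e1 : y * (y * x * y) = x * y := by
      rw [← mul_assoc, ← mul_assoc, hT.inv y t.hy, one_mul]
    have e2 : y * x * y * y = y * x := by
      rw [mul_assoc, hT.inv y t.hy, mul_one]
    rw [e1, e2] at h1
    exact h1
  third := by
    have hb := braid hT t.hx t.hy t.ncomm
    have hyy := hT.inv y t.hy
    rw [t.third]
    calc x = y * (y * x * y) * y := by
          simp only [mul_assoc, hyy, mul_one, cancel_l hT t.hy]
      _ = y * (x * y * x) * y := by rw [hb]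
      _ = y * x * y * y * (y * x * y) := by
          simp only [mul_assoc, hyy, mul_one, cancel_l hT t.hy]

theorem Tri.ne13 {x y z : G} (t : Tri D x y z) : x ≠ z :=
  (Tri.ne12 ((t.rot hT).rot hT)).symm

theorem Tri.ne23 {x y z : G} (t : Tri D x y z) : y ≠ z := Tri.ne12 (t.rot hT)

end

theorem ln_rot (x y z : G) : ln D x y z = ln D y z x := by
  ext w; simp only [ln, Set.mem_setOf_eq]; tauto

theorem ln_swap (x y z : G) : ln D x y z = ln D y x z := by
  ext w; simp only [ln, Set.mem_setOf_eq]; tauto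

theorem mem_lines_iff (hT : TT D) (l : Set D) :
    l ∈ threeTranspositionLines D ↔ ∃ x y z, Tri D x y z ∧ l = ln D x y z := by
  constructor
  · rintro ⟨x, y, h, rfl⟩
    refine ⟨x, y, y * x * y, ⟨x.2, y.2, conj_mem hT y.2 x.2, h, rfl⟩, ?_⟩
    simp only [ln, inv_eq_of_mul_self (hT.inv _ y.2)]
  · rintro ⟨x, y, z, t, rfl⟩
    refine ⟨⟨x, t.hx⟩, ⟨y, t.hy⟩, t.ncomm, ?_⟩
    simp only [ln, inv_eq_of_mul_self (hT.inv _ t.hy), t.third]

/-- A line through two different points is the line of these two. -/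
theorem tri_of_mem (hT : TT D) {x y z u v : G} (t : Tri D x y z) (hu : u = x ∨ u = y ∨ u = z)
    (hv : v = x ∨ v = y ∨ v = z) (huv : u ≠ v) : Tri D u v (v * u * v) ∧ ln D x y z = ln D u v (v * u * v) := by
  have key : ∀ {a b c : G}, Tri D a b c → Tri D a b (b * a * b) ∧ ln D a b c = ln D a b (b * a * b) := by
    intro a b c ht
    rw [← ht.third]
    exact ⟨ht, rfl⟩
  have t1 := t
  have t2 := t.swap12 hT
  have t3 := t.rot hT
  have t4 := t3.swap12 hT
  have t5 := t3.rot hT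
  have t6 := t5.swap12 hT
  rcases hu with rfl | rfl | rfl <;> rcases hv with rfl | rfl | rfl
  · exact absurd rfl huv
  · exact key t1
  · obtain ⟨a, b⟩ := key t6
    exact ⟨a, by rw [← b]; ext w; simp only [ln, Set.mem_setOf_eq]; tauto⟩
  · obtain ⟨a, b⟩ := key t2
    exact ⟨a, by rw [← b]; ext w; simp only [ln, Set.mem_setOf_eq]; tauto⟩
  · exact absurd rfl huv
  · obtain ⟨a, b⟩ := key t3
    exact ⟨a, by rw [← b]; ext w; simp only [ln, Set.mem_setOf_eq]; tauto⟩
  · obtain ⟨a, b⟩ := key t5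
    exact ⟨a, by rw [← b]; ext w; simp only [ln, Set.mem_setOf_eq]; tauto⟩
  · obtain ⟨a, b⟩ := key t4
    exact ⟨a, by rw [← b]; ext w; simp only [ln, Set.mem_setOf_eq]; tauto⟩
  · exact absurd rfl huv

theorem partial_linear (hT : TT D) : IsPartialLinear (threeTranspositionLines D) := by
  intro l hl m hm u v huv hul hvl hum hvm
  obtain ⟨x, y, z, t, rfl⟩ := (mem_lines_iff hT l).1 hl
  obtain ⟨x', y', z', t', rfl⟩ := (mem_lines_iff hT m).1 hm
  have hne : (u : G) ≠ v := fun h => huv (Subtype.ext h)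
  rw [(tri_of_mem hT t hul hvl hne).2, (tri_of_mem hT t' hum hvm hne).2]

theorem ncard_three (hT : TT D) {l : Set D} (hl : l ∈ threeTranspositionLines D) : l.ncard = 3 := by
  obtain ⟨x, y, z, t, rfl⟩ := (mem_lines_iff hT l).1 hl
  rw [Set.ncard_eq_three]
  refine ⟨⟨x, t.hx⟩, ⟨y, t.hy⟩, ⟨z, t.hz⟩, ?_, ?_, ?_, ?_⟩
  · exact fun h => t.ne12 (congrArg Subtype.val h)
  · exact fun h => (t.ne13 hT) (congrArg Subtype.val h)
  · exact fun h => (t.ne23 hT) (congrArg Subtype.val h)
  · ext w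
    simp only [ln, Set.mem_setOf_eq, Set.mem_insert_iff, Set.mem_singleton_iff, Subtype.ext_iff]

/-- A subspace containing two non-commuting points contains the third. -/
theorem third_mem_subspace {T : Set D} (hT : TT D) (hs : IsSubspace (threeTranspositionLines D) T) {x y z : G}
    (t : Tri D x y z) (hx : (⟨x, t.hx⟩ : D) ∈ T) (hy : (⟨y, t.hy⟩ : D) ∈ T) : (⟨z, t.hz⟩ : D) ∈ T := by
  have hl : ln D x y z ∈ threeTranspositionLines D := (mem_lines_iff hT _).2 ⟨x, y, z, t, rfl⟩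
  refine hs _ hl _ hx _ hy (fun h => t.ne12 (congrArg Subtype.val h)) (Or.inl rfl) (Or.inr (Or.inl rfl)) ?_
  exact Or.inr (Or.inr rfl)

/-- The general transfer to a model. -/
theorem model_iso (hT : TT D) {M Y : Type*} (ψ : M → G) (hψD : ∀ u, ψ u ∈ D) (hψ : Function.Injective ψ)
    (eY : M ≃ Y) (R : M → M → M → Prop)
    (hR₁ : ∀ u v w, R u v w → Tri D (ψ u) (ψ v) (ψ w))
    (hR₂ : ∀ u v, ¬ Commute (ψ u) (ψ v) → ∃ w, R u v w)
    (Lines : Set (Set Y)) (hlines : ∀ s : Set Y, s ∈ Lines ↔ ∃ u v w, R u v w ∧ s = {eY u, eY v, eY w})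
    (S₀ : Set D) (hl : S₀ ⊆ {z : D | ∃ u, (z : G) = ψ u})
    (hgen : ∀ T : Set D, S₀ ⊆ T → IsSubspace (threeTranspositionLines D) T → ∀ u, (⟨ψ u, hψD u⟩ : D) ∈ T) :
    Isomorphic (restrict (threeTranspositionLines D) (span (threeTranspositionLines D) S₀)) Lines := by
  -- the span
  have hsub : IsSubspace (threeTranspositionLines D) {z : D | ∃ u, (z : G) = ψ u} := by
    intro l hl₀ x hx y hy hxy hxl hyl
    obtain ⟨a, b, c, t, rfl⟩ := (mem_lines_iff hT l).1 hl₀
    obtain ⟨u, hu⟩ := hx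
    obtain ⟨v, hv⟩ := hy
    have hne : (x : G) ≠ y := fun h => hxy (Subtype.ext h)
    have t' := tri_of_mem hT t hxl hyl hne
    rw [t'.2]
    have hnc : ¬ Commute (ψ u) (ψ v) := by rw [← hu, ← hv]; exact t'.1.ncomm
    obtain ⟨w, hw⟩ := hR₂ u v hnc
    have t2 := hR₁ u v w hw
    rintro z (hz | hz | hz)
    · exact ⟨u, by rw [hz, hu]⟩
    · exact ⟨v, by rw [hz, hv]⟩
    · refine ⟨w, ?_⟩
      rw [hz, t2.third, hu, hv]
  have hspan : span (threeTranspositionLines D) S₀ = {z : D | ∃ u, (z : G) = ψ u} := by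
    apply Set.Subset.antisymm
    · intro x hx
      exact Set.mem_sInter.1 hx _ ⟨hl, hsub⟩
    · rintro ⟨x, hx⟩ ⟨u, hu⟩
      apply Set.mem_sInter.2
      rintro T ⟨h1, h2⟩
      have := hgen T h1 h2 u
      have e : (⟨x, hx⟩ : D) = ⟨ψ u, hψD u⟩ := Subtype.ext hu
      rw [e]; exact this
  rw [hspan]
  set S : Set D := {z : D | ∃ u, (z : G) = ψ u} with hS
  let f : M → S := fun u => ⟨⟨ψ u, hψD u⟩, ⟨u, rfl⟩⟩
  have hf : Function.Bijective f := by
    constructor
    · intro u v h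
      apply hψ
      have := congrArg (fun x : S => ((x : D) : G)) h
      exact this
    · rintro ⟨⟨x, hx⟩, ⟨u, hu⟩⟩
      exact ⟨u, Subtype.ext (Subtype.ext hu.symm)⟩
  let e₀ : M ≃ S := Equiv.ofBijective f hf
  refine ⟨e₀.symm.trans eY, ?_⟩
  have he : ∀ u, (e₀.symm.trans eY) (f u) = eY u := by
    intro u
    simp only [Equiv.trans_apply]
    congr 1
    exact e₀.symm_apply_apply u
  intro l
  constructor
  · rintro ⟨l₀, hl₀, hsubS, rfl⟩
    obtain ⟨x, y, z, t, rfl⟩ := (mem_lines_iff hT l₀).1 hl₀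
    obtain ⟨u, hu⟩ := hsubS (show (⟨x, t.hx⟩ : D) ∈ ln D x y z from Or.inl rfl)
    obtain ⟨v, hv⟩ := hsubS (show (⟨y, t.hy⟩ : D) ∈ ln D x y z from Or.inr (Or.inl rfl))
    have hu' : x = ψ u := hu
    have hv' : y = ψ v := hv
    subst hu' hv'
    obtain ⟨w, hw⟩ := hR₂ u v t.ncomm
    have t2 := hR₁ u v w hw
    have hz : z = ψ w := by rw [t.third, t2.third]
    subst hz
    rw [hlines]
    refine ⟨u, v, w, hw, ?_⟩
    ext y
    simp only [Set.mem_image, Set.mem_setOf_eq, Set.mem_insert_iff, Set.mem_singleton_iff]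
    constructor
    · rintro ⟨s, hs, rfl⟩
      obtain ⟨t₀, rfl⟩ := hf.2 s
      rw [he]
      rcases hs with h | h | h
      · left; rw [hψ h]
      · right; left; rw [hψ h]
      · right; right; rw [hψ h]
    · rintro (rfl | rfl | rfl)
      · exact ⟨f u, Or.inl rfl, he u⟩
      · exact ⟨f v, Or.inr (Or.inl rfl), he v⟩
      · exact ⟨f w, Or.inr (Or.inr rfl), he w⟩
  · intro hl₁
    obtain ⟨u, v, w, hw, hs⟩ := (hlines _).1 hl₁
    have t2 := hR₁ u v w hw
    refine ⟨ln D (ψ u) (ψ v) (ψ w), (mem_lines_iff hT _).2 ⟨_, _, _, t2, rfl⟩, ?_, ?_⟩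
    · rintro z (h | h | h)
      · exact ⟨u, h⟩
      · exact ⟨v, h⟩
      · exact ⟨w, h⟩
    · ext x
      obtain ⟨t₀, rfl⟩ := hf.2 x
      have h₁ : f t₀ ∈ l ↔ eY t₀ ∈ (e₀.symm.trans eY) '' l := by
        rw [← he t₀]
        exact ((e₀.symm.trans eY).injective.mem_set_image).symm
      rw [h₁, hs]
      simp only [Set.mem_insert_iff, Set.mem_singleton_iff, Set.mem_setOf_eq, ln, f, EmbeddingLike.apply_eq_iff_eq]
      constructor
      · rintro (rfl | rfl | rfl)
        · exact Or.inl rfl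
        · exact Or.inr (Or.inl rfl)
        · exact Or.inr (Or.inr rfl)
      · rintro (h | h | h)
        · exact Or.inl (hψ h)
        · exact Or.inr (Or.inl (hψ h))
        · exact Or.inr (Or.inr (hψ h))

/-! ### The dual affine plane -/

open Equiv in
/-- Transpositions of four letters. -/
def sw6 : Fin 6 → Perm (Fin 4)
  | 0 => swap 0 1
  | 1 => swap 0 2
  | 2 => swap 0 3
  | 3 => swap 1 2
  | 4 => swap 1 3
  | 5 => swap 2 3

/-- Pairs of four letters. -/
def pt6 : Fin 6 → DualAffinePoint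
  | 0 => ⟨{0, 1}, by decide⟩
  | 1 => ⟨{0, 2}, by decide⟩
  | 2 => ⟨{0, 3}, by decide⟩
  | 3 => ⟨{1, 2}, by decide⟩
  | 4 => ⟨{1, 3}, by decide⟩
  | 5 => ⟨{2, 3}, by decide⟩

theorem pt6_bij : Function.Bijective pt6 := by decide +kernel

/-- The bijection. -/
noncomputable def pt6Equiv : Fin 6 ≃ DualAffinePoint := Equiv.ofBijective pt6 pt6_bij

/-- The line relation on the model. -/
abbrev R6 (u v w : Fin 6) : Prop := sw6 w = sw6 v * sw6 u * sw6 v ∧ sw6 u * sw6 v ≠ sw6 v * sw6 u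

theorem R6_exists : ∀ u v : Fin 6, sw6 u * sw6 v ≠ sw6 v * sw6 u → ∃ w, R6 u v w := by decide +kernel

theorem R6_of_line : ∀ i : Fin 4, ∃ u v w : Fin 6, R6 u v w ∧
    ∀ t : DualAffinePoint, i ∉ t.val ↔ (t = pt6 u ∨ t = pt6 v ∨ t = pt6 w) := by decide +kernel

theorem line_of_R6 : ∀ u v w : Fin 6, R6 u v w → ∃ i : Fin 4,
    ∀ t : DualAffinePoint, i ∉ t.val ↔ (t = pt6 u ∨ t = pt6 v ∨ t = pt6 w) := by decide +kernel

theorem dual_lines (s : Set DualAffinePoint) : s ∈ dualAffinePlaneTwo ↔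
    ∃ u v w, R6 u v w ∧ s = {pt6Equiv u, pt6Equiv v, pt6Equiv w} := by
  constructor
  · rintro ⟨i, rfl⟩
    obtain ⟨u, v, w, hR, h⟩ := R6_of_line i
    refine ⟨u, v, w, hR, ?_⟩
    ext t
    exact h t
  · rintro ⟨u, v, w, hR, rfl⟩
    obtain ⟨i, h⟩ := line_of_R6 u v w hR
    refine ⟨i, ?_⟩
    ext t
    exact (h t).symm

theorem dual_iso (hT : TT D) {p a b A B : G} (t1 : Tri D p a A) (t2 : Tri D p b B) (hab : Commute a b) (hne : a ≠ b) :
    Isomorphic (restrict (threeTranspositionLines D)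
      (span (threeTranspositionLines D) (ln D p a A ∪ ln D p b B))) dualAffinePlaneTwo := by
  have hpp := hT.inv p t1.hx
  have haa := hT.inv a t1.hy
  have hbb := hT.inv b t2.hy
  obtain ⟨φ, h0, h3, h5⟩ := exists_hom_perm_four haa hpp hbb hab.eq.symm
    (braid hT t1.hx t1.hy t1.ncomm) (braid hT t2.hy t2.hx (fun h => t2.ncomm h.symm))
  have hinj : Function.Injective φ := by
    apply injective_of_map_ne_one
    rw [h0, h5]
    intro h
    apply hne
    calc a = a * (b * b) := by rw [hbb, mul_one]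
      _ = (a * b) * b := by rw [mul_assoc]
      _ = b := by rw [h, one_mul]
  let ψ : Fin 6 → G := fun u => φ (sw6 u)
  have hψ0 : ψ 0 = a := h0
  have hψ3 : ψ 3 = p := h3
  have hψ5 : ψ 5 = b := h5
  have hψ1 : ψ 1 = A := by
    have e : sw6 1 = sw6 3 * sw6 0 * sw6 3 := by decide
    show φ (sw6 1) = A
    rw [e, map_mul, map_mul]
    show ψ 3 * ψ 0 * ψ 3 = A
    rw [hψ3, hψ0, t1.third, braid hT t1.hx t1.hy t1.ncomm]
  have hψ4 : ψ 4 = B := by
    have e : sw6 4 = sw6 5 * sw6 3 * sw6 5 := by decide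
    show φ (sw6 4) = B
    rw [e, map_mul, map_mul]
    show ψ 5 * ψ 3 * ψ 5 = B
    rw [hψ3, hψ5, t2.third]
  have hψ2 : ψ 2 = a * B * a := by
    have e : sw6 2 = sw6 0 * sw6 4 * sw6 0 := by decide
    show φ (sw6 2) = a * B * a
    rw [e, map_mul, map_mul]
    show ψ 0 * ψ 4 * ψ 0 = a * B * a
    rw [hψ0, hψ4]
  have hψD : ∀ u, ψ u ∈ D := by
    intro u
    fin_cases u
    · show ψ 0 ∈ D
      rw [hψ0]; exact t1.hy
    · show ψ 1 ∈ D
      rw [hψ1]; exact t1.hz
    · show ψ 2 ∈ D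
      rw [hψ2]; exact conj_mem hT t1.hy t2.hz
    · show ψ 3 ∈ D
      rw [hψ3]; exact t1.hx
    · show ψ 4 ∈ D
      rw [hψ4]; exact t2.hz
    · show ψ 5 ∈ D
      rw [hψ5]; exact t2.hy
  have hψ : Function.Injective ψ := by
    intro u v h
    have h' : sw6 u = sw6 v := hinj h
    clear h
    revert h'
    revert u v
    decide
  have hR₁ : ∀ u v w, R6 u v w → Tri D (ψ u) (ψ v) (ψ w) := by
    rintro u v w ⟨h1, h2⟩
    refine ⟨hψD u, hψD v, hψD w, ?_, ?_⟩
    · intro h
      apply h2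
      apply hinj
      rw [map_mul, map_mul]
      exact h
    · show φ (sw6 w) = φ (sw6 v) * φ (sw6 u) * φ (sw6 v)
      rw [h1, map_mul, map_mul]
  have hR₂ : ∀ u v, ¬ Commute (ψ u) (ψ v) → ∃ w, R6 u v w := by
    intro u v h
    apply R6_exists
    intro e
    apply h
    show φ (sw6 u) * φ (sw6 v) = φ (sw6 v) * φ (sw6 u)
    rw [← map_mul, ← map_mul, e]
  refine model_iso hT ψ hψD hψ pt6Equiv R6 hR₁ hR₂ _ dual_lines _ ?_ ?_
  · rintro z (h | h) <;> rcases h with h | h | h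
    · exact ⟨3, h.trans hψ3.symm⟩
    · exact ⟨0, h.trans hψ0.symm⟩
    · exact ⟨1, h.trans hψ1.symm⟩
    · exact ⟨3, h.trans hψ3.symm⟩
    · exact ⟨5, h.trans hψ5.symm⟩
    · exact ⟨4, h.trans hψ4.symm⟩
  · intro T hsub hs
    have m0 : (⟨ψ 0, hψD 0⟩ : D) ∈ T := hsub (Or.inl (Or.inr (Or.inl hψ0)))
    have m1 : (⟨ψ 1, hψD 1⟩ : D) ∈ T := hsub (Or.inl (Or.inr (Or.inr hψ1)))
    have m3 : (⟨ψ 3, hψD 3⟩ : D) ∈ T := hsub (Or.inl (Or.inl hψ3))
    have m4 : (⟨ψ 4, hψD 4⟩ : D) ∈ T := hsub (Or.inr (Or.inr (Or.inr hψ4)))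
    have m5 : (⟨ψ 5, hψD 5⟩ : D) ∈ T := hsub (Or.inr (Or.inr (Or.inl hψ5)))
    have m2 : (⟨ψ 2, hψD 2⟩ : D) ∈ T :=
      third_mem_subspace hT hs (hR₁ 4 0 2 (by decide)) m4 m0
    intro u
    fin_cases u
    · exact m0
    · exact m1
    · exact m2
    · exact m3
    · exact m4
    · exact m5

/-! ### The affine plane -/

/-- The nine points. -/
def T9 (p a b : G) : Fin 3 → Fin 3 → G
  | 0, 0 => p
  | 1, 0 => a
  | 2, 0 => p * a * p
  | 0, 1 => b
  | 0, 2 => p * b * p
  | 2, 2 => a * b * a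
  | 1, 1 => p * (a * b * a) * p
  | 2, 1 => a * (p * b * p) * a
  | 1, 2 => p * (a * (p * b * p) * a) * p

/-- Hypotheses on three generators. -/
structure AH (p a b : G) : Prop where
  hp : p * p = 1
  ha : a * a = 1
  hb : b * b = 1
  hpa : p * a * p = a * p * a
  hpb : p * b * p = b * p * b
  hab : a * b * a = b * a * b
  haB : a * (p * b * p) * a = (p * b * p) * a * (p * b * p)
  hAb : (p * a * p) * b * (p * a * p) = b * (p * a * p) * b

theorem dbl {g : G} (h : g * g = 1) (x : G) : g * (g * x * g) * g = x := by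
  have h' : ∀ y, g * (g * y) = y := fun y => by rw [← mul_assoc, h, one_mul]
  simp only [mul_assoc, h, mul_one, h']

theorem tpl {g : G} (h : g * g = 1) : g * g * g = g := by rw [h, one_mul]

section
variable {p a b : G} (H : AH p a b)
include H

theorem key_aC : a * (p * (a * b * a) * p) * a = p * (a * (p * b * p) * a) * p := by
  have e1 : a * (p * (a * b * a) * p) * a = (a * p * a) * b * (a * p * a) := by
    simp only [mul_assoc]
  have e2 : p * (a * (p * b * p) * a) * p = (p * a * p) * b * (p * a * p) := by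
    simp only [mul_assoc]
  rw [e1, e2, H.hpa]

theorem key_bA : b * (p * a * p) * b = p * (a * (p * b * p) * a) * p := by
  have e2 : p * (a * (p * b * p) * a) * p = (p * a * p) * b * (p * a * p) := by
    simp only [mul_assoc]
  rw [e2, H.hAb]

theorem key_bC : b * (p * (a * b * a) * p) * b = a * (p * b * p) * a := by
  rw [H.hab, H.haB, H.hpb]
  simp only [mul_assoc]

theorem conj_p : ∀ i j : Fin 3, p * T9 p a b i j * p = T9 p a b (-0 - i) (-0 - j)
  | 0, 0 => tpl H.hp
  | 1, 0 => rfl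
  | 2, 0 => dbl H.hp a
  | 0, 1 => rfl
  | 0, 2 => dbl H.hp b
  | 2, 2 => rfl
  | 1, 1 => dbl H.hp (a * b * a)
  | 2, 1 => rfl
  | 1, 2 => dbl H.hp (a * (p * b * p) * a)

theorem conj_a : ∀ i j : Fin 3, a * T9 p a b i j * a = T9 p a b (-1 - i) (-0 - j)
  | 0, 0 => H.hpa.symm
  | 1, 0 => tpl H.ha
  | 2, 0 => by
      show a * (p * a * p) * a = p
      rw [H.hpa]; exact dbl H.ha p
  | 0, 1 => rfl
  | 0, 2 => rfl
  | 2, 2 => dbl H.ha b
  | 1, 1 => key_aC H
  | 2, 1 => dbl H.ha (p * b * p)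
  | 1, 2 => by
      show a * (p * (a * (p * b * p) * a) * p) * a = p * (a * b * a) * p
      rw [← key_aC H]; exact dbl H.ha _

theorem conj_b : ∀ i j : Fin 3, b * T9 p a b i j * b = T9 p a b (-0 - i) (-1 - j)
  | 0, 0 => H.hpb.symm
  | 0, 1 => tpl H.hb
  | 0, 2 => by
      show b * (p * b * p) * b = p
      rw [H.hpb]; exact dbl H.hb p
  | 1, 0 => H.hab.symm
  | 2, 2 => by
      show b * (a * b * a) * b = a
      rw [H.hab]; exact dbl H.hb a
  | 2, 0 => key_bA H
  | 1, 2 => by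
      show b * (p * (a * (p * b * p) * a) * p) * b = p * a * p
      rw [← key_bA H]; exact dbl H.hb _
  | 1, 1 => key_bC H
  | 2, 1 => by
      show b * (a * (p * b * p) * a) * b = p * (a * b * a) * p
      rw [← key_bC H]; exact dbl H.hb _

omit H in
theorem idx_arith : ∀ g i k : Fin 3, -g - (-i - (-g - k)) = -(-g - i) - k := by decide

/-- The reflection identity at a point. -/
def Good (p a b : G) (i j : Fin 3) : Prop :=
  ∀ k l, T9 p a b i j * T9 p a b k l * T9 p a b i j = T9 p a b (-i - k) (-j - l)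

omit H in
theorem good_step {g : G} {g₁ g₂ : Fin 3} (hg : g * g = 1)
    (hc : ∀ k l, g * T9 p a b k l * g = T9 p a b (-g₁ - k) (-g₂ - l)) {i j : Fin 3} (h : Good p a b i j) :
    Good p a b (-g₁ - i) (-g₂ - j) := by
  intro k l
  rw [← hc i j]
  have e : g * T9 p a b i j * g * T9 p a b k l * (g * T9 p a b i j * g)
      = g * (T9 p a b i j * (g * T9 p a b k l * g) * T9 p a b i j) * g := by
    have h' : ∀ y, g * (g * y) = y := fun y => by rw [← mul_assoc, hg, one_mul]
    simp only [mul_assoc, h']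
  rw [e, hc k l, h, hc, idx_arith, idx_arith]

theorem good_all : ∀ i j : Fin 3, Good p a b i j
  | 0, 0 => conj_p H
  | 1, 0 => conj_a H
  | 0, 1 => conj_b H
  | 2, 0 => good_step (g₁ := 1) (g₂ := 0) H.ha (conj_a H) (i := 0) (j := 0) (conj_p H)
  | 0, 2 => good_step (g₁ := 0) (g₂ := 1) H.hb (conj_b H) (i := 0) (j := 0) (conj_p H)
  | 2, 2 => good_step (g₁ := 1) (g₂ := 0) H.ha (conj_a H) (i := 0) (j := 1) (conj_b H)
  | 1, 1 => good_step (g₁ := 0) (g₂ := 0) H.hp (conj_p H) (i := 2) (j := 2)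
      (good_step (g₁ := 1) (g₂ := 0) H.ha (conj_a H) (i := 0) (j := 1) (conj_b H))
  | 2, 1 => good_step (g₁ := 1) (g₂ := 0) H.ha (conj_a H) (i := 0) (j := 2)
      (good_step (g₁ := 0) (g₂ := 1) H.hb (conj_b H) (i := 0) (j := 0) (conj_p H))
  | 1, 2 => good_step (g₁ := 0) (g₂ := 0) H.hp (conj_p H) (i := 2) (j := 1)
      (good_step (g₁ := 1) (g₂ := 0) H.ha (conj_a H) (i := 0) (j := 2)
        (good_step (g₁ := 0) (g₂ := 1) H.hb (conj_b H) (i := 0) (j := 0) (conj_p H)))

theorem eq_zero_of_T9 (hap : a ≠ p) (hbp : b ≠ p) (hAb : p * a * p ≠ b) (hAB : p * a * p ≠ p * b * p) :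
    ∀ s t : Fin 3, T9 p a b s t = p → s = 0 ∧ t = 0
  | 0, 0, _ => ⟨rfl, rfl⟩
  | 1, 0, h => absurd h hap
  | 2, 0, h => by
      have h' : p * a * p = p := h
      exfalso; apply hap
      have := dbl H.hp a
      rw [h', tpl H.hp] at this
      exact this.symm
  | 0, 1, h => absurd h hbp
  | 0, 2, h => by
      have h' : p * b * p = p := h
      exfalso; apply hbp
      have := dbl H.hp b
      rw [h', tpl H.hp] at this
      exact this.symm
  | 2, 2, h => by
      have h' : a * b * a = p := h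
      exfalso; apply hAb
      rw [H.hpa, ← h']
      exact dbl H.ha b
  | 1, 1, h => by
      have h' : p * (a * b * a) * p = p := h
      exfalso; apply hAb
      have := dbl H.hp (a * b * a)
      rw [h', tpl H.hp] at this
      rw [H.hpa, this]
      exact dbl H.ha b
  | 2, 1, h => by
      have h' : a * (p * b * p) * a = p := h
      exfalso; apply hAB
      calc p * a * p = a * p * a := H.hpa
        _ = a * (a * (p * b * p) * a) * a := by rw [h']
        _ = p * b * p := dbl H.ha _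
  | 1, 2, h => by
      have h' : p * (a * (p * b * p) * a) * p = p := h
      exfalso; apply hAB
      have := dbl H.hp (a * (p * b * p) * a)
      rw [h', tpl H.hp] at this
      calc p * a * p = a * p * a := H.hpa
        _ = a * (a * (p * b * p) * a) * a := by rw [← this]
        _ = p * b * p := dbl H.ha _

omit H in
theorem idx_self : ∀ i : Fin 3, -i - -i = 0 := by decide

omit H in
theorem idx_eq : ∀ i k : Fin 3, -k - -i = 0 → i = k := by decide

omit H in
theorem idx_comm : ∀ i k : Fin 3, -i - k = -k - i := by decide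

omit H in
theorem idx_fix : ∀ x y : Fin 3, -y - x = x → x = y := by decide

theorem T9_inj (hap : a ≠ p) (hbp : b ≠ p) (hAb : p * a * p ≠ b) (hAB : p * a * p ≠ p * b * p)
    {i j k l : Fin 3} (h : T9 p a b i j = T9 p a b k l) : i = k ∧ j = l := by
  have h1 := good_all H i j (-i) (-j)
  have h2 := good_all H k l (-i) (-j)
  rw [h, h2, idx_self, idx_self] at h1
  obtain ⟨e1, e2⟩ := eq_zero_of_T9 H hap hbp hAb hAB _ _ h1
  exact ⟨idx_eq _ _ e1, idx_eq _ _ e2⟩

theorem T9_sq (hpD : p ∈ D) (haD : a ∈ D) (hbD : b ∈ D) (hT : TT D) : ∀ i j : Fin 3, T9 p a b i j ∈ D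
  | 0, 0 => hpD
  | 1, 0 => haD
  | 2, 0 => conj_mem hT hpD haD
  | 0, 1 => hbD
  | 0, 2 => conj_mem hT hpD hbD
  | 2, 2 => conj_mem hT haD hbD
  | 1, 1 => conj_mem hT hpD (conj_mem hT haD hbD)
  | 2, 1 => conj_mem hT haD (conj_mem hT hpD hbD)
  | 1, 2 => conj_mem hT hpD (conj_mem hT haD (conj_mem hT hpD hbD))

theorem tri_idx (hpD : p ∈ D) (haD : a ∈ D) (hbD : b ∈ D) (hT : TT D)
    (hap : a ≠ p) (hbp : b ≠ p) (hAb : p * a * p ≠ b) (hAB : p * a * p ≠ p * b * p)
    {i j k l : Fin 3} (hne : ¬ (i = k ∧ j = l)) :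
    Tri D (T9 p a b i j) (T9 p a b k l) (T9 p a b (-i - k) (-j - l)) := by
  have hD := T9_sq H hpD haD hbD hT
  refine ⟨hD _ _, hD _ _, hD _ _, ?_, ?_⟩
  · intro hc
    apply hne
    have h1 := good_all H k l i j
    have h2 : T9 p a b k l * T9 p a b i j * T9 p a b k l = T9 p a b i j := by
      rw [← hc.eq, mul_assoc, hT.inv _ (hD k l), mul_one]
    rw [h2] at h1
    obtain ⟨e1, e2⟩ := T9_inj H hap hbp hAb hAB h1
    exact ⟨idx_fix _ _ e1.symm, idx_fix _ _ e2.symm⟩
  · rw [good_all H k l i j, idx_comm i k, idx_comm j l]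

end

/-- Change of type. -/
def toF (x : ZMod 3) : Fin 3 := x

theorem toF_arith : ∀ i k : ZMod 3, toF (-i - k) = -toF i - toF k := by decide

theorem toF_inj : ∀ i k : ZMod 3, toF i = toF k → i = k := fun _ _ h => h

/-- Lines of the affine plane. -/
theorem affine_lines (s : Set (Fin 2 → ZMod 3)) : s ∈ affinePlaneThree ↔
    ∃ u v w, (u ≠ v ∧ w = -u - v) ∧ s = {Equiv.refl _ u, Equiv.refl _ v, Equiv.refl _ w} := by
  have hc : ∀ c : ZMod 3, c = 0 ∨ c = 1 ∨ c = 2 := by decide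
  have h2 : ∀ x y : ZMod 3, x + 2 * y = -x - (x + y) := by decide
  have h3 : ∀ x y : ZMod 3, -x - y = x + 2 * (y - x) := by decide
  constructor
  · rintro ⟨v, w, hw, rfl⟩
    refine ⟨v, v + w, -v - (v + w), ⟨?_, rfl⟩, ?_⟩
    · intro h
      apply hw
      have : v + 0 = v + w := by rw [add_zero]; exact h
      exact (add_left_cancel this).symm
    · ext x
      simp only [Set.mem_setOf_eq, Set.mem_insert_iff, Set.mem_singleton_iff, Equiv.refl_apply]
      constructor
      · rintro ⟨c, rfl⟩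
        rcases hc c with rfl | rfl | rfl
        · left; simp
        · right; left; simp
        · right; right
          funext i
          simp only [Pi.add_apply, Pi.smul_apply, Pi.sub_apply, Pi.neg_apply, smul_eq_mul]
          exact h2 _ _
      · rintro (rfl | rfl | rfl)
        · exact ⟨0, by simp⟩
        · exact ⟨1, by simp⟩
        · refine ⟨2, ?_⟩
          funext i
          simp only [Pi.add_apply, Pi.smul_apply, Pi.sub_apply, Pi.neg_apply, smul_eq_mul]
          exact (h2 _ _).symm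
  · rintro ⟨u, v, w, ⟨huv, rfl⟩, rfl⟩
    refine ⟨u, v - u, sub_ne_zero.2 huv.symm, ?_⟩
    ext x
    simp only [Set.mem_setOf_eq, Set.mem_insert_iff, Set.mem_singleton_iff, Equiv.refl_apply]
    constructor
    · rintro (rfl | rfl | rfl)
      · exact ⟨0, by simp⟩
      · exact ⟨1, by simp⟩
      · refine ⟨2, ?_⟩
        funext i
        simp only [Pi.add_apply, Pi.smul_apply, Pi.sub_apply, Pi.neg_apply, smul_eq_mul]
        exact h3 _ _
    · rintro ⟨c, rfl⟩
      rcases hc c with rfl | rfl | rfl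
      · left; simp
      · right; left; simp
      · right; right
        funext i
        simp only [Pi.add_apply, Pi.smul_apply, Pi.sub_apply, Pi.neg_apply, smul_eq_mul]
        exact (h3 _ _).symm

theorem affine_iso (hT : TT D) {p a b : G} (hpD : p ∈ D) (haD : a ∈ D) (hbD : b ∈ D) (H : AH p a b)
    (hap : a ≠ p) (hbp : b ≠ p) (hAb : p * a * p ≠ b) (hAB : p * a * p ≠ p * b * p) :
    Isomorphic (restrict (threeTranspositionLines D)
      (span (threeTranspositionLines D) (ln D p a (p * a * p) ∪ ln D p b (p * b * p)))) affinePlaneThree := by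
  have hD := T9_sq H hpD haD hbD hT
  let ψ : (Fin 2 → ZMod 3) → G := fun v => T9 p a b (toF (v 0)) (toF (v 1))
  have hψD : ∀ u, ψ u ∈ D := fun u => hD _ _
  have hne : ∀ u v : (Fin 2 → ZMod 3), u ≠ v → ¬ (toF (u 0) = toF (v 0) ∧ toF (u 1) = toF (v 1)) := by
    rintro u v huv ⟨h0, h1⟩
    apply huv
    funext i
    fin_cases i
    · exact toF_inj _ _ h0
    · exact toF_inj _ _ h1
  have hψ : Function.Injective ψ := by
    intro u v h
    by_contra huv
    exact hne u v huv (T9_inj H hap hbp hAb hAB h)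
  have hR₁ : ∀ u v w : (Fin 2 → ZMod 3), (u ≠ v ∧ w = -u - v) → Tri D (ψ u) (ψ v) (ψ w) := by
    rintro u v w ⟨huv, rfl⟩
    have := tri_idx H hpD haD hbD hT hap hbp hAb hAB (hne u v huv)
    have e : ψ (-u - v) = T9 p a b (-toF (u 0) - toF (v 0)) (-toF (u 1) - toF (v 1)) := by
      show T9 p a b (toF (-(u 0) - v 0)) (toF (-(u 1) - v 1)) = _
      rw [toF_arith, toF_arith]
    rw [e]
    exact this
  have hR₂ : ∀ u v : (Fin 2 → ZMod 3), ¬ Commute (ψ u) (ψ v) → ∃ w, u ≠ v ∧ w = -u - v := by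
    intro u v h
    refine ⟨_, ?_, rfl⟩
    rintro rfl
    exact h (Commute.refl _)
  refine model_iso hT ψ hψD hψ (Equiv.refl _) (fun u v w => u ≠ v ∧ w = -u - v) hR₁ hR₂ _ affine_lines _ ?_ ?_
  · rintro z (h | h) <;> rcases h with h | h | h
    · exact ⟨![0, 0], h⟩
    · exact ⟨![1, 0], h⟩
    · exact ⟨![2, 0], h⟩
    · exact ⟨![0, 0], h⟩
    · exact ⟨![0, 1], h⟩
    · exact ⟨![0, 2], h⟩
  · intro T hsub hs
    have hm : ∀ i j : Fin 3, (⟨T9 p a b i j, hD i j⟩ : D) ∈ T := by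
      have m00 : (⟨T9 p a b 0 0, hD 0 0⟩ : D) ∈ T := hsub (Or.inl (Or.inl rfl))
      have m10 : (⟨T9 p a b 1 0, hD 1 0⟩ : D) ∈ T := hsub (Or.inl (Or.inr (Or.inl rfl)))
      have m20 : (⟨T9 p a b 2 0, hD 2 0⟩ : D) ∈ T := hsub (Or.inl (Or.inr (Or.inr rfl)))
      have m01 : (⟨T9 p a b 0 1, hD 0 1⟩ : D) ∈ T := hsub (Or.inr (Or.inr (Or.inl rfl)))
      have m02 : (⟨T9 p a b 0 2, hD 0 2⟩ : D) ∈ T := hsub (Or.inr (Or.inr (Or.inr rfl)))
      have tt : ∀ {i j k l : Fin 3}, ¬ (i = k ∧ j = l) → (⟨T9 p a b i j, hD i j⟩ : D) ∈ T →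
          (⟨T9 p a b k l, hD k l⟩ : D) ∈ T → (⟨T9 p a b (-i - k) (-j - l), hD _ _⟩ : D) ∈ T := by
        intro i j k l h h1 h2
        exact third_mem_subspace hT hs (tri_idx H hpD haD hbD hT hap hbp hAb hAB h) h1 h2
      have m22 : (⟨T9 p a b 2 2, hD 2 2⟩ : D) ∈ T := tt (i := 1) (j := 0) (k := 0) (l := 1) (by decide) m10 m01
      have m11 : (⟨T9 p a b 1 1, hD 1 1⟩ : D) ∈ T := tt (i := 2) (j := 2) (k := 0) (l := 0) (by decide) m22 m00
      have m21 : (⟨T9 p a b 2 1, hD 2 1⟩ : D) ∈ T := tt (i := 1) (j := 0) (k := 0) (l := 2) (by decide) m10 m02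
      have m12 : (⟨T9 p a b 1 2, hD 1 2⟩ : D) ∈ T := tt (i := 2) (j := 1) (k := 0) (l := 0) (by decide) m21 m00
      intro i j
      match i, j with
      | 0, 0 => exact m00
      | 1, 0 => exact m10
      | 2, 0 => exact m20
      | 0, 1 => exact m01
      | 0, 2 => exact m02
      | 2, 2 => exact m22
      | 1, 1 => exact m11
      | 2, 1 => exact m21
      | 1, 2 => exact m12
    intro u
    exact hm _ _

/-! ### Assembly -/

/-- A line through a point, rewritten. -/
theorem exists_tri_through (hT : TT D) {x y z p : G} (t : Tri D x y z) (hp : p = x ∨ p = y ∨ p = z) :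
    ∃ a A, Tri D p a A ∧ ln D x y z = ln D p a A := by
  rcases hp with rfl | rfl | rfl
  · exact ⟨y, z, t, rfl⟩
  · exact ⟨z, x, t.rot hT, ln_rot _ _ _⟩
  · exact ⟨x, y, (t.rot hT).rot hT, by rw [ln_rot, ln_rot]⟩

/-- Swap the two other points of a line. -/
theorem tri_flip (hT : TT D) {p a A : G} (t : Tri D p a A) : Tri D p A a ∧ ln D p a A = ln D p A a := by
  refine ⟨((t.rot hT).rot hT).swap12 hT, ?_⟩
  ext w; simp only [ln, Set.mem_setOf_eq]; tauto

theorem fischer_local (hT : TT D) {p a A b B : G} (t1 : Tri D p a A) (t2 : Tri D p b B)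
    (hlm : ln D p a A ≠ ln D p b B) :
    Isomorphic (restrict (threeTranspositionLines D)
      (span (threeTranspositionLines D) (ln D p a A ∪ ln D p b B))) dualAffinePlaneTwo ∨
    Isomorphic (restrict (threeTranspositionLines D)
      (span (threeTranspositionLines D) (ln D p a A ∪ ln D p b B))) affinePlaneThree := by
  have hpl := partial_linear hT (D := D)
  -- different lines have different points other than p
  have key : ∀ {a A b B : G}, Tri D p a A → Tri D p b B → ln D p a A ≠ ln D p b B → a ≠ b := by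
    intro a A b B t1 t2 hne hab
    subst hab
    exfalso
    apply hne
    apply hpl _ ((mem_lines_iff hT _).2 ⟨_, _, _, t1, rfl⟩) _ ((mem_lines_iff hT _).2 ⟨_, _, _, t2, rfl⟩)
      ⟨p, t1.hx⟩ ⟨a, t1.hy⟩ (fun h => t1.ne12 (congrArg Subtype.val h))
    · exact Or.inl rfl
    · exact Or.inr (Or.inl rfl)
    · exact Or.inl rfl
    · exact Or.inr (Or.inl rfl)
  obtain ⟨f1, e1⟩ := tri_flip hT t1
  obtain ⟨f2, e2⟩ := tri_flip hT t2
  by_cases c1 : Commute a b
  · left
    exact dual_iso hT t1 t2 c1 (key t1 t2 hlm)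
  by_cases c2 : Commute a B
  · left
    rw [e2] at hlm ⊢
    exact dual_iso hT t1 f2 c2 (key t1 f2 hlm)
  by_cases c3 : Commute A b
  · left
    rw [e1] at hlm ⊢
    exact dual_iso hT f1 t2 c3 (key f1 t2 hlm)
  by_cases c4 : Commute A B
  · left
    rw [e1, e2] at hlm ⊢
    exact dual_iso hT f1 f2 c4 (key f1 f2 hlm)
  right
  have hA : A = p * a * p := by rw [t1.third, braid hT t1.hx t1.hy t1.ncomm]
  have hB : B = p * b * p := by rw [t2.third, braid hT t2.hx t2.hy t2.ncomm]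
  subst hA hB
  have hpD := t1.hx
  have haD := t1.hy
  have hbD := t2.hy
  have H : AH p a b :=
    { hp := hT.inv p hpD
      ha := hT.inv a haD
      hb := hT.inv b hbD
      hpa := braid hT hpD haD t1.ncomm
      hpb := braid hT hpD hbD t2.ncomm
      hab := braid hT haD hbD c1
      haB := braid hT haD t2.hz c2
      hAb := braid hT t1.hz hbD c3 }
  refine affine_iso hT hpD haD hbD H (t1.ne12.symm) (t2.ne12.symm) ?_ ?_
  · rintro h
    exact c3 (h ▸ Commute.refl _)
  · rintro h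
    exact c4 (h ▸ Commute.refl _)

/-- The main theorem. -/
theorem fischer_main (hT : TT D) : IsFischerSpace (threeTranspositionLines D) := by
  refine ⟨partial_linear hT, fun l hl => ncard_three hT hl, ?_⟩
  rintro l hl m hm hne ⟨q, hql, hqm⟩
  obtain ⟨x, y, z, t, rfl⟩ := (mem_lines_iff hT l).1 hl
  obtain ⟨x', y', z', t', rfl⟩ := (mem_lines_iff hT m).1 hm
  obtain ⟨a, A, t1, e1⟩ := exists_tri_through hT t hql
  obtain ⟨b, B, t2, e2⟩ := exists_tri_through hT t' hqm
  rw [e1, e2] at hne ⊢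
  exact fischer_local hT t1 t2 hne

end Cfsg.Agent.Lib.ThreeTrans.FL
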