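import Mathlib
import Cfsg.Prelude.Def_FischerSpaces
import Cfsg.Agent.Lib.ThreeTrans.FischerLines

/-!
# The maps t(x) of a nondegenerate Fischer space

`t(x)` is an involutory automorphism, and the set of all `t(x)` is a set of 3-transpositions.  The only local
analysis is that `t(x)` maps lines to lines, which is checked in the two planes.
-/

set_option autoImplicit false

namespace Cfsg.Agent.Lib.ThreeTrans.FS

open Cfsg Cfsg.LineSystem

variable {X : Type*} {L : Set (Set X)}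

/-- Three different points on a line. -/
def Th (L : Set (Set X)) (x y z : X) : Prop :=
  x ≠ y ∧ z ≠ x ∧ z ≠ y ∧ ∃ l ∈ L, x ∈ l ∧ y ∈ l ∧ z ∈ l

/-- A partial linear space with lines of three points. -/
structure PL (L : Set (Set X)) : Prop where
  pl : IsPartialLinear L
  three : ∀ l ∈ L, l.ncard = 3

theorem PL.eq_triple (h : PL L) {l : Set X} (hl : l ∈ L) {x y z : X} (hxy : x ≠ y) (hzx : z ≠ x) (hzy : z ≠ y)
    (hx : x ∈ l) (hy : y ∈ l) (hz : z ∈ l) : ({x, y, z} : Set X) = l := by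
  have h3 := h.three l hl
  have hfin : l.Finite := Set.finite_of_ncard_ne_zero (by omega)
  apply Set.eq_of_subset_of_ncard_le _ _ hfin
  · rintro w (rfl | rfl | rfl)
    · exact hx
    · exact hy
    · exact hz
  · rw [h3, Set.ncard_eq_three.2 ⟨x, y, z, hxy, hzx.symm, hzy.symm, rfl⟩]

theorem PL.th_iff (h : PL L) {x y z : X} : Th L x y z ↔ x ≠ y ∧ z ≠ x ∧ z ≠ y ∧ ({x, y, z} : Set X) ∈ L := by
  constructor
  · rintro ⟨h1, h2, h3, l, hl, hx, hy, hz⟩
    refine ⟨h1, h2, h3, ?_⟩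
    rw [h.eq_triple hl h1 h2 h3 hx hy hz]
    exact hl
  · rintro ⟨h1, h2, h3, hl⟩
    exact ⟨h1, h2, h3, _, hl, Or.inl rfl, Or.inr (Or.inl rfl), Or.inr (Or.inr rfl)⟩

/-- The third point of a line through two different points. -/
theorem PL.exists_third (h : PL L) {l : Set X} (hl : l ∈ L) {x y : X} (hxy : x ≠ y) (hx : x ∈ l) (hy : y ∈ l) :
    ∃ z, Th L x y z ∧ z ∈ l := by
  have h3 := h.three l hl
  have hlt : ({x, y} : Set X).ncard < l.ncard := by
    rw [h3, Set.ncard_pair hxy]; omega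
  obtain ⟨z, hz, hzn⟩ := Set.exists_mem_notMem_of_ncard_lt_ncard hlt
  simp only [Set.mem_insert_iff, Set.mem_singleton_iff, not_or] at hzn
  exact ⟨z, ⟨hxy, hzn.1, hzn.2, l, hl, hx, hy, hz⟩, hz⟩

theorem PL.third_unique (h : PL L) {x y z z' : X} (ht : Th L x y z) (ht' : Th L x y z') : z = z' := by
  obtain ⟨h1, h2, h3, l, hl, hx, hy, hz⟩ := ht
  obtain ⟨-, h2', h3', l', hl', hx', hy', hz'⟩ := ht'
  have e : l = l' := h.pl l hl l' hl' x y h1 hx hy hx' hy'
  rw [← e] at hz'
  rw [← h.eq_triple hl h1 h2 h3 hx hy hz] at hz'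
  rcases hz' with h' | h' | h'
  · exact absurd h' h2'
  · exact absurd h' h3'
  · exact h'.symm

theorem Th.swap {x y z : X} (h : Th L x y z) : Th L x z y := by
  obtain ⟨h1, h2, h3, l, hl, hx, hy, hz⟩ := h
  exact ⟨h2.symm, h1.symm, h3.symm, l, hl, hx, hz, hy⟩

theorem Th.swap' {x y z : X} (h : Th L x y z) : Th L y x z := by
  obtain ⟨h1, h2, h3, l, hl, hx, hy, hz⟩ := h
  exact ⟨h1.symm, h3, h2, l, hl, hy, hx, hz⟩

theorem PL.lineMap_eq (h : PL L) {x y z : X} (ht : Th L x y z) : lineMap L x y = z := by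
  classical
  have hex : ∃ z : X, z ≠ x ∧ z ≠ y ∧ x ≠ y ∧ ({x, y, z} : Set X) ∈ L := by
    obtain ⟨h1, h2, h3, h4⟩ := h.th_iff.1 ht
    exact ⟨z, h2, h3, h1, h4⟩
  have e : lineMap L x y = hex.choose := by
    unfold lineMap
    exact dif_pos hex
  rw [e]
  obtain ⟨h2, h3, h1, h4⟩ := hex.choose_spec
  exact h.third_unique (h.th_iff.2 ⟨h1, h2, h3, h4⟩) ht

theorem PL.lineMap_no (h : PL L) {x y : X} (ht : ¬ ∃ z, Th L x y z) : lineMap L x y = y := by
  classical
  have hex : ¬ ∃ z : X, z ≠ x ∧ z ≠ y ∧ x ≠ y ∧ ({x, y, z} : Set X) ∈ L := by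
    rintro ⟨z, h2, h3, h1, h4⟩
    exact ht ⟨z, h.th_iff.2 ⟨h1, h2, h3, h4⟩⟩
  unfold lineMap
  exact dif_neg hex

theorem PL.lineMap_invol (h : PL L) (x : X) : Function.Involutive (lineMap L x) := by
  intro y
  by_cases ht : ∃ z, Th L x y z
  · obtain ⟨z, hz⟩ := ht
    rw [h.lineMap_eq hz, h.lineMap_eq hz.swap]
  · rw [h.lineMap_no ht, h.lineMap_no ht]

/-- A model of a plane with a function computing the maps t(x). -/
structure ModelOK {Y : Type*} (M : Set (Set Y)) (f : Y → Y → Y) : Prop where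
  h1 : ∀ x y z, Th M x y z → f x y = z
  h2 : ∀ x y, (¬ ∃ z, Th M x y z) → f x y = y
  h3 : ∀ x, ∀ l ∈ M, f x '' l ∈ M

theorem isSubspace_span (S : Set X) : IsSubspace L (span L S) := by
  intro l hl x hx y hy hxy hxl hyl z hz
  apply Set.mem_sInter.2
  intro T hT
  exact hT.2 l hl x (Set.mem_sInter.1 hx T hT) y (Set.mem_sInter.1 hy T hT) hxy hxl hyl hz

theorem subset_span (S : Set X) : S ⊆ span L S := by
  intro x hx
  apply Set.mem_sInter.2
  intro T hT
  exact hT.1 hx

/-- The transfer of the local statement from a model. -/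
theorem transfer (h : PL L) {S : Set X} (hS : IsSubspace L S) {Y : Type*} {M : Set (Set Y)} {f : Y → Y → Y}
    (hf : ModelOK M f) (e : S ≃ Y) (he : IsIso (restrict L S) M e) {x : X} (hx : x ∈ S) {l : Set X} (hl : l ∈ L)
    (hlS : l ⊆ S) : lineMap L x '' l ∈ L := by
  set x' : S := ⟨x, hx⟩ with hx'
  -- the lines of the restriction
  have hres : ∀ {l₁ : Set X}, l₁ ∈ L → l₁ ⊆ S → e '' {s : S | (s : X) ∈ l₁} ∈ M := by
    intro l₁ h₁ h₂
    exact (he _).1 ⟨l₁, h₁, h₂, rfl⟩
  -- the key compatibility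
  have key : ∀ s : S, ∃ (hm : lineMap L x s ∈ S), e ⟨lineMap L x s, hm⟩ = f (e x') (e s) := by
    intro s
    by_cases ht : ∃ z, Th L x s z
    · obtain ⟨z, hz⟩ := ht
      have hz' := hz
      rw [← h.lineMap_eq hz] at hz'
      obtain ⟨h1, h2, h3, l₁, hl₁, hxl, hsl, hzl⟩ := hz
      have hsub : l₁ ⊆ S := hS l₁ hl₁ x hx s s.2 h1 hxl hsl
      have hm : lineMap L x s ∈ S := by
        rw [h.lineMap_eq ⟨h1, h2, h3, l₁, hl₁, hxl, hsl, hzl⟩]
        exact hsub hzl
      refine ⟨hm, ?_⟩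
      symm
      apply hf.h1
      have hinj := e.injective
      obtain ⟨h1', h2', h3', -⟩ := hz'
      refine ⟨?_, ?_, ?_, _, hres hl₁ hsub, ⟨x', hxl, rfl⟩, ⟨s, hsl, rfl⟩, ⟨⟨lineMap L x s, hm⟩, ?_, rfl⟩⟩
      · intro h0
        exact h1 (congrArg Subtype.val (hinj h0))
      · intro h0
        exact h2' (congrArg Subtype.val (hinj h0))
      · intro h0
        exact h3' (congrArg Subtype.val (hinj h0))
      · show lineMap L x s ∈ l₁
        rw [h.lineMap_eq ⟨h1, h2, h3, l₁, hl₁, hxl, hsl, hzl⟩]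
        exact hzl
    · have e0 : lineMap L x s = s := h.lineMap_no ht
      have hmem : lineMap L x s ∈ S := by rw [e0]; exact s.2
      refine ⟨hmem, ?_⟩
      have e1 : (⟨lineMap L x s, hmem⟩ : S) = s := Subtype.ext e0
      rw [e1]
      symm
      apply hf.h2
      rintro ⟨r, h1, h2, h3, l₄, hl₄, hxl, hsl, hrl⟩
      apply ht
      -- pull the line back
      have hl₅ : e.symm '' l₄ ∈ restrict L S := by
        rw [he]
        have : e '' (e.symm '' l₄) = l₄ := by
          rw [Set.image_image]; simp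
        rw [this]; exact hl₄
      obtain ⟨l₅, hl₅L, hl₅S, hl₅e⟩ := hl₅
      have hm : ∀ {t : S}, e t ∈ l₄ → (t : X) ∈ l₅ := by
        intro t ht
        have : t ∈ e.symm '' l₄ := ⟨e t, ht, by simp⟩
        rw [hl₅e] at this
        exact this
      have hr : (e.symm r : X) ∈ l₅ := hm (by simpa using hrl)
      refine ⟨(e.symm r : X), ?_, ?_, ?_, l₅, hl₅L, hm hxl, hm hsl, hr⟩
      · intro h0
        apply h1
        rw [show x' = s from Subtype.ext h0]
      · intro h0
        apply h2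
        have : e.symm r = x' := Subtype.ext h0
        rw [← this]; simp
      · intro h0
        apply h3
        have : e.symm r = s := Subtype.ext h0
        rw [← this]; simp
  -- the image line in the model
  have hl₂ : f (e x') '' (e '' {s : S | (s : X) ∈ l}) ∈ M := hf.h3 _ _ (hres hl hlS)
  have hl₃ : e.symm '' (f (e x') '' (e '' {s : S | (s : X) ∈ l})) ∈ restrict L S := by
    rw [he]
    have : e '' (e.symm '' (f (e x') '' (e '' {s : S | (s : X) ∈ l}))) = f (e x') '' (e '' {s : S | (s : X) ∈ l}) := by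
      rw [Set.image_image]; simp
    rw [this]; exact hl₂
  obtain ⟨l₁, hl₁, hl₁S, hl₁e⟩ := hl₃
  have hfin : lineMap L x '' l = l₁ := by
    ext z
    constructor
    · rintro ⟨s, hs, rfl⟩
      obtain ⟨hm, hem⟩ := key ⟨s, hlS hs⟩
      have : (⟨lineMap L x s, hm⟩ : S) ∈ e.symm '' (f (e x') '' (e '' {s : S | (s : X) ∈ l})) := by
        refine ⟨e ⟨lineMap L x s, hm⟩, ?_, by simp⟩
        rw [hem]
        exact ⟨e ⟨s, hlS hs⟩, ⟨⟨s, hlS hs⟩, hs, rfl⟩, rfl⟩
      rw [hl₁e] at this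
      exact this
    · intro hz
      have hzS := hl₁S hz
      have : (⟨z, hzS⟩ : S) ∈ e.symm '' (f (e x') '' (e '' {s : S | (s : X) ∈ l})) := by
        rw [hl₁e]; exact hz
      obtain ⟨y, ⟨y', ⟨s, hs, rfl⟩, rfl⟩, hy⟩ := this
      obtain ⟨hm, hem⟩ := key s
      refine ⟨s, hs, ?_⟩
      rw [← hem] at hy
      simp only [Equiv.symm_apply_apply] at hy
      exact congrArg Subtype.val hy
  rw [hfin]
  exact hl₁

/-- The map t(x) in the dual plane. -/
def fD (x y : DualAffinePoint) : DualAffinePoint :=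
  if h : (symmDiff x.val y.val).card = 2 then ⟨symmDiff x.val y.val, h⟩ else y

theorem fD_spec1 : ∀ x y z : DualAffinePoint, (x ≠ y ∧ z ≠ x ∧ z ≠ y ∧ ∃ i : Fin 4, i ∉ x.val ∧ i ∉ y.val ∧ i ∉ z.val) →
    fD x y = z := by decide +kernel

theorem fD_spec2 : ∀ x y : DualAffinePoint, (¬ ∃ z : DualAffinePoint, x ≠ y ∧ z ≠ x ∧ z ≠ y ∧ ∃ i : Fin 4, i ∉ x.val ∧ i ∉ y.val ∧ i ∉ z.val) →
    fD x y = y := by decide +kernel

theorem fD_spec3 : ∀ (x : DualAffinePoint) (i : Fin 4), ∃ j : Fin 4, ∀ t : DualAffinePoint,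
    (∃ s : DualAffinePoint, i ∉ s.val ∧ fD x s = t) ↔ j ∉ t.val := by decide +kernel

theorem modelOK_dual : ModelOK dualAffinePlaneTwo fD := by
  refine ⟨?_, ?_, ?_⟩
  · rintro x y z ⟨h1, h2, h3, l, ⟨i, rfl⟩, hx, hy, hz⟩
    exact fD_spec1 x y z ⟨h1, h2, h3, i, hx, hy, hz⟩
  · intro x y h
    apply fD_spec2
    rintro ⟨z, h1, h2, h3, i, hx, hy, hz⟩
    exact h ⟨z, h1, h2, h3, _, ⟨i, rfl⟩, hx, hy, hz⟩
  · rintro x l ⟨i, rfl⟩
    obtain ⟨j, hj⟩ := fD_spec3 x i
    refine ⟨j, ?_⟩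
    ext t
    exact hj t

/-- The affine plane. -/
theorem modelOK_affine : ModelOK affinePlaneThree (fun x y => -x - y) := by
  have hline : ∀ x y : Fin 2 → ZMod 3, x ≠ y → ({x, y, -x - y} : Set (Fin 2 → ZMod 3)) ∈ affinePlaneThree := by
    intro x y hxy
    exact (FL.affine_lines _).2 ⟨x, y, -x - y, ⟨hxy, rfl⟩, rfl⟩
  have hne : ∀ x y : Fin 2 → ZMod 3, x ≠ y → -x - y ≠ x ∧ -x - y ≠ y := by
    have h1 : ∀ a b : ZMod 3, -a - b = a → a = b := by decide
    have h2 : ∀ a b : ZMod 3, -a - b = b → a = b := by decide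
    intro x y hxy
    constructor
    · intro h
      apply hxy
      funext i
      exact h1 _ _ (congrFun h i)
    · intro h
      apply hxy
      funext i
      exact h2 _ _ (congrFun h i)
  refine ⟨?_, ?_, ?_⟩
  · rintro x y z ⟨h1, h2, h3, l, ⟨v, w, hw, rfl⟩, ⟨c₁, rfl⟩, ⟨c₂, rfl⟩, ⟨c₃, rfl⟩⟩
    have hc : ∀ c₁ c₂ c₃ : ZMod 3, c₁ ≠ c₂ → c₃ ≠ c₁ → c₃ ≠ c₂ → c₃ = -c₁ - c₂ := by decide
    have hc₃ := hc c₁ c₂ c₃ (fun e => h1 (by rw [e])) (fun e => h2 (by rw [e])) (fun e => h3 (by rw [e]))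
    have har : ∀ a b c₁ c₂ : ZMod 3, -(a + c₁ * b) - (a + c₂ * b) = a + (-c₁ - c₂) * b := by decide
    funext i
    simp only [Pi.add_apply, Pi.smul_apply, Pi.sub_apply, Pi.neg_apply, smul_eq_mul]
    rw [hc₃]
    exact har _ _ _ _
  · intro x y h
    by_cases hxy : x = y
    · subst hxy
      have h1 : ∀ a : ZMod 3, -a - a = a := by decide
      funext i
      exact h1 _
    · exfalso
      apply h
      obtain ⟨h1, h2⟩ := hne x y hxy
      exact ⟨-x - y, hxy, h1, h2, _, hline x y hxy, Or.inl rfl, Or.inr (Or.inl rfl), Or.inr (Or.inr rfl)⟩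
  · rintro x l ⟨v, w, hw, rfl⟩
    refine ⟨-x - v, -w, neg_ne_zero.2 hw, ?_⟩
    ext t
    simp only [Set.mem_image, Set.mem_setOf_eq]
    constructor
    · rintro ⟨s, ⟨c, rfl⟩, rfl⟩
      refine ⟨c, ?_⟩
      simp only [smul_neg]
      abel
    · rintro ⟨c, rfl⟩
      refine ⟨_, ⟨c, rfl⟩, ?_⟩
      simp only [smul_neg]
      abel

/-- t(x) maps lines to lines. -/
theorem image_line (hF : IsFischerSpace L) (x : X) {l : Set X} (hl : l ∈ L) : lineMap L x '' l ∈ L := by
  have h : PL L := ⟨hF.1, hF.2.1⟩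
  by_cases hxl : x ∈ l
  · -- the line through x
    have e : lineMap L x '' l = l := by
      have hinv := h.lineMap_invol x
      have hsub : ∀ {y}, y ∈ l → lineMap L x y ∈ l := by
        intro y hy
        by_cases hxy : x = y
        · subst hxy
          rw [h.lineMap_no]
          · exact hy
          · rintro ⟨z, hz, -⟩
            exact hz rfl
        · obtain ⟨z, hz, hzl⟩ := h.exists_third hl hxy hxl hy
          rw [h.lineMap_eq hz]
          exact hzl
      ext z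
      constructor
      · rintro ⟨y, hy, rfl⟩
        exact hsub hy
      · intro hz
        exact ⟨lineMap L x z, hsub hz, hinv z⟩
    rw [e]; exact hl
  by_cases hc : ∃ y ∈ l, ∃ w, Th L x y w
  · obtain ⟨y, hyl, w, ht⟩ := hc
    obtain ⟨h1, h2, h3, m, hm, hxm, hym, hwm⟩ := ht
    have hne : l ≠ m := by
      rintro rfl
      exact hxl hxm
    have hS : IsSubspace L (span L (l ∪ m)) := isSubspace_span _
    have hxS : x ∈ span L (l ∪ m) := subset_span _ (Or.inr hxm)
    have hlS : l ⊆ span L (l ∪ m) := fun z hz => subset_span _ (Or.inl hz)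
    rcases hF.2.2 l hl m hm hne ⟨y, hyl, hym⟩ with ⟨e, he⟩ | ⟨e, he⟩
    · exact transfer h hS modelOK_dual e he hxS hl hlS
    · exact transfer h hS modelOK_affine e he hxS hl hlS
  · have e : lineMap L x '' l = l := by
      have hfix : ∀ y ∈ l, lineMap L x y = y := by
        intro y hy
        apply h.lineMap_no
        rintro ⟨z, hz⟩
        exact hc ⟨y, hy, z, hz⟩
      ext z
      constructor
      · rintro ⟨y, hy, rfl⟩
        rw [hfix y hy]; exact hy
      · intro hz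
        exact ⟨z, hz, hfix z hz⟩
    rw [e]; exact hl

/-- The permutation t(x). -/
noncomputable def sigma (h : PL L) (x : X) : Equiv.Perm X := (h.lineMap_invol x).toPerm

theorem sigma_apply (h : PL L) (x y : X) : sigma h x y = lineMap L x y := rfl

theorem sigma_mul_self (h : PL L) (x : X) : sigma h x * sigma h x = 1 := by
  ext y
  exact h.lineMap_invol x y

theorem sigma_iso (hF : IsFischerSpace L) (x : X) : IsIso L L (sigma ⟨hF.1, hF.2.1⟩ x) := by
  have h : PL L := ⟨hF.1, hF.2.1⟩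
  intro l
  constructor
  · intro hl
    exact image_line hF x hl
  · intro hl
    have := image_line hF x hl
    have e : lineMap L x '' (sigma h x '' l) = l := by
      rw [Set.image_image]
      have : ∀ y, lineMap L x (sigma h x y) = y := h.lineMap_invol x
      simp [this]
    rwa [e] at this

/-- Lines through automorphisms: the relation `Th` is preserved. -/
theorem Th_map (σ : Equiv.Perm X) (hσ : IsIso L L σ) {x y z : X} (ht : Th L x y z) : Th L (σ x) (σ y) (σ z) := by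
  obtain ⟨h1, h2, h3, l, hl, hx, hy, hz⟩ := ht
  exact ⟨σ.injective.ne h1, σ.injective.ne h2, σ.injective.ne h3, σ '' l, (hσ l).1 hl,
    ⟨x, hx, rfl⟩, ⟨y, hy, rfl⟩, ⟨z, hz, rfl⟩⟩

theorem Th_unmap (σ : Equiv.Perm X) (hσ : IsIso L L σ) {x y z : X} (ht : Th L (σ x) (σ y) z) : Th L x y (σ.symm z) := by
  obtain ⟨h1, h2, h3, l, hl, hx, hy, hz⟩ := ht
  have hl' : σ.symm '' l ∈ L := by
    rw [hσ]
    have : σ '' (σ.symm '' l) = l := by
      rw [Set.image_image]; simp
    rw [this]; exact hl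
  refine ⟨fun e => h1 (by rw [e]), fun e => h2 (by rw [← e]; simp), fun e => h3 (by rw [← e]; simp), _, hl',
    ⟨σ x, hx, by simp⟩, ⟨σ y, hy, by simp⟩, ⟨z, hz, rfl⟩⟩

/-- The conjugation formula. -/
theorem lineMap_conj (h : PL L) (σ : Equiv.Perm X) (hσ : IsIso L L σ) (x y : X) :
    lineMap L (σ x) (σ y) = σ (lineMap L x y) := by
  by_cases ht : ∃ z, Th L x y z
  · obtain ⟨z, hz⟩ := ht
    rw [h.lineMap_eq hz, h.lineMap_eq (Th_map σ hσ hz)]
  · rw [h.lineMap_no ht, h.lineMap_no]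
    rintro ⟨z, hz⟩
    exact ht ⟨_, Th_unmap σ hσ hz⟩

theorem sigma_conj (hF : IsFischerSpace L) (x y : X) :
    sigma ⟨hF.1, hF.2.1⟩ x * sigma ⟨hF.1, hF.2.1⟩ y * sigma ⟨hF.1, hF.2.1⟩ x =
      sigma ⟨hF.1, hF.2.1⟩ (lineMap L x y) := by
  have h : PL L := ⟨hF.1, hF.2.1⟩
  ext z
  have e := lineMap_conj h (sigma h x) (sigma_iso hF x) y (sigma h x z)
  simp only [Equiv.Perm.mul_apply, sigma_apply] at e ⊢
  rw [h.lineMap_invol x z] at e
  exact e.symm

/-- The main theorem. -/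
theorem fischer_space_main (hF : IsFischerSpace L) (hnd : IsNondegenerate L) :
    (∀ x : X, ∃ σ : Equiv.Perm X, ⇑σ = lineMap L x ∧ orderOf σ = 2 ∧ IsIso L L σ) ∧
      IsThreeTranspositionSet {σ : Equiv.Perm X | ∃ x : X, ⇑σ = lineMap L x} := by
  have h : PL L := ⟨hF.1, hF.2.1⟩
  have hord : ∀ x, orderOf (sigma h x) = 2 := by
    intro x
    apply orderOf_eq_prime
    · rw [pow_two]; exact sigma_mul_self h x
    · intro e
      obtain ⟨l, hl, hxl⟩ := hnd x
      have h3 := h.three l hl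
      have hlt : ({x} : Set X).ncard < l.ncard := by
        rw [h3, Set.ncard_singleton]; omega
      obtain ⟨y, hy, hyn⟩ := Set.exists_mem_notMem_of_ncard_lt_ncard hlt
      have hxy : x ≠ y := fun e' => hyn (by rw [e']; rfl)
      obtain ⟨z, hz, -⟩ := h.exists_third hl hxy hxl hy
      have e1 : sigma h x y = z := h.lineMap_eq hz
      rw [e] at e1
      exact hz.2.2.1 e1.symm
  have hcoe : ∀ {σ : Equiv.Perm X} {x : X}, ⇑σ = lineMap L x → σ = sigma h x := by
    intro σ x hσ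
    ext y
    rw [hσ]; rfl
  refine ⟨fun x => ⟨sigma h x, rfl, hord x, sigma_iso hF x⟩, ?_, ?_⟩
  · rintro d ⟨x, hx⟩
    rw [hcoe hx]; exact hord x
  · rintro d ⟨x, hx⟩ e ⟨y, hy⟩
    rw [hcoe hx, hcoe hy]
    have hxx := sigma_mul_self h x
    have hyy := sigma_mul_self h y
    by_cases ht : ∃ z, Th L x y z
    · right
      obtain ⟨z, hz⟩ := ht
      have e1 : sigma h x * sigma h y * sigma h x = sigma h z := by
        rw [sigma_conj hF x y, h.lineMap_eq hz]
      have e2 : sigma h y * sigma h x * sigma h y = sigma h z := by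
        rw [sigma_conj hF y x, h.lineMap_eq hz.swap']
      calc (sigma h x * sigma h y) ^ 3
          = (sigma h x * sigma h y * sigma h x) * (sigma h y * sigma h x * sigma h y) := by
            simp only [pow_succ, pow_zero, one_mul, mul_assoc]
        _ = 1 := by rw [e1, e2]; exact sigma_mul_self h z
    · left
      have e1 : sigma h x * sigma h y * sigma h x = sigma h y := by
        rw [sigma_conj hF x y, h.lineMap_no ht]
      calc (sigma h x * sigma h y) ^ 2
          = (sigma h x * sigma h y * sigma h x) * sigma h y := by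
            simp only [pow_succ, pow_zero, one_mul, mul_assoc]
        _ = 1 := by rw [e1]; exact hyy

end Cfsg.Agent.Lib.ThreeTrans.FS
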