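import Mathlib
import Cfsg.Agent.Lib.Spinor.Dickson
import Cfsg.Agent.Lib.Classical.OrthBase

/-!
# Crossed homomorphisms of `Ω` over the field with two elements

A crossed homomorphism which vanishes at an element without nonzero fixed vectors vanishes on its centralizer.
-/

set_option autoImplicit false
set_option linter.unusedSimpArgs false
set_option linter.unusedVariables false
set_option linter.unusedSectionVars false
set_option linter.style.haveILetI false

namespace Cfsg.Agent.Lib.ThreeTrans.H1Om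

open Matrix Cfsg.Agent.Lib.Classical
open Cfsg.Agent.Lib.Spinor (lp rO rr lp_cons lp_nil rO_mat rO_mul_self rO_inv lp_mem_omega lp_mem_omega_iff' exists_lp' CDOK)

variable {ι : Type} [Fintype ι] [DecidableEq ι] {Q : QuadraticForm (ZMod 2) (ι → ZMod 2)}

local notation "bb" => QuadraticMap.polar (DFunLike.coe Q)

/-- The group `Ω`. -/
abbrev Om (Q : QuadraticForm (ZMod 2) (ι → ZMod 2)) := ↥(Cfsg.Omega (ZMod 2) ⇑Q)

/-- The matrix of an element. -/
abbrev mt (g : Om Q) : Matrix ι ι (ZMod 2) := oM g.1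

theorem mt_mul (g h : Om Q) (x : ι → ZMod 2) : mt (g * h) *ᵥ x = mt g *ᵥ (mt h *ᵥ x) := oM_mul g.1 h.1 x

theorem mt_one (x : ι → ZMod 2) : mt (1 : Om Q) *ᵥ x = x := oM_one x

/-- Crossed homomorphisms. -/
def IsDer (f : Om Q → ι → ZMod 2) : Prop := ∀ g h, f (g * h) = f g + mt g *ᵥ f h

/-- No nonzero fixed vectors. -/
def Fpf (g : Om Q) : Prop := ∀ w : ι → ZMod 2, mt g *ᵥ w = w → w = 0

section der

variable {f : Om Q → ι → ZMod 2}

theorem der_one (hf : IsDer f) : f 1 = 0 := by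
  have h := hf 1 1
  rw [mul_one, mt_one] at h
  exact left_eq_add.mp h

theorem der_mul (hf : IsDer f) {g h : Om Q} (hg : f g = 0) (hh : f h = 0) : f (g * h) = 0 := by
  rw [hf, hg, hh, mulVec_zero, add_zero]

theorem der_inv (hf : IsDer f) {g : Om Q} (hg : f g = 0) : f g⁻¹ = 0 := by
  have h := hf g⁻¹ g
  rw [inv_mul_cancel, der_one hf, hg, mulVec_zero, add_zero] at h
  exact h.symm

theorem vanish_comm (hf : IsDer f) {y g : Om Q} (hy : Fpf y) (h0 : f y = 0) (hc : y * g = g * y) : f g = 0 := by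
  have h1 := hf y g
  have h2 := hf g y
  rw [hc, h2, h0, mulVec_zero, add_zero, zero_add] at h1
  exact hy _ h1.symm

/-- A reduction to the crossed homomorphisms vanishing at a given element. -/
theorem principal_of_vanish (x : Om Q) (hx : Fpf x) (hV : ∀ f : Om Q → ι → ZMod 2, IsDer f → f x = 0 → ∀ g, f g = 0)
    (hf : IsDer f) : ∃ v, ∀ g, f g = mt g *ᵥ v - v := by
  let L : (ι → ZMod 2) →ₗ[ZMod 2] (ι → ZMod 2) := (mt x).mulVecLin - LinearMap.id
  have hinj : Function.Injective L := by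
    rw [injective_iff_map_eq_zero]
    intro w hw
    apply hx
    have : mt x *ᵥ w - w = 0 := hw
    exact sub_eq_zero.1 this
  obtain ⟨v, hv⟩ := LinearMap.injective_iff_surjective.1 hinj (f x)
  have hv' : mt x *ᵥ v - v = f x := hv
  refine ⟨v, ?_⟩
  have hder : IsDer (fun g => f g - (mt g *ᵥ v - v)) := by
    intro g h
    simp only
    rw [hf g h, mt_mul, mulVec_sub, mulVec_sub]
    abel
  have h0 := hV _ hder (sub_eq_zero.2 hv'.symm)
  intro g
  exact sub_eq_zero.1 (h0 g)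

end der

/-! ### Reflections -/

theorem z2_sq (x : ZMod 2) : IsSquare x := ⟨x, by revert x; decide⟩

theorem z2_ne {x : ZMod 2} : x ≠ 0 ↔ x = 1 := by
  revert x; decide

/-- A product of an even number of reflections as an element of `Ω`. -/
noncomputable def wd (hnd : (QuadraticMap.polarBilin Q).Nondegenerate) (w : List (ι → ZMod 2)) (hw : ∀ v ∈ w, Q v ≠ 0)
    (he : Even w.length) : Om Q :=
  ⟨lp Q w, lp_mem_omega hnd hw he (z2_sq _)⟩

theorem rO_apply {v : ι → ZMod 2} (hv : Q v ≠ 0) (x : ι → ZMod 2) : oM (rO Q v) *ᵥ x = x + bb v x • v := by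
  have h1 : oM (rO Q v) = rr Q v := rO_mat hv
  rw [h1, reflection_mulVec, z2_ne.1 hv, inv_one, one_mul]
  funext i
  simp only [Pi.sub_apply, Pi.add_apply, Pi.smul_apply, smul_eq_mul]
  generalize x i = A
  generalize bb v x * v i = B
  revert A B
  decide

theorem rO_eq_rf {v : ι → ZMod 2} (hv : Q v ≠ 0) : rO Q v = rf v hv := by
  apply og_ext
  intro x
  have h1 : oM (rO Q v) = rr Q v := rO_mat hv
  rw [h1, reflection_mulVec, rf_apply]

theorem rO_conj (g : OG Q) {v : ι → ZMod 2} (hv : Q v ≠ 0) : g * rO Q v * g⁻¹ = rO Q (oM g *ᵥ v) := by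
  rw [rO_eq_rf hv, rf_conj, rO_eq_rf]

/-- The three reflections of an anisotropic line. -/
theorem rot_eq {a b : ι → ZMod 2} (ha : Q a ≠ 0) (hb : Q b ≠ 0) (hab : bb a b = 1) :
    rO Q b * rO Q (a + b) = rO Q a * rO Q b := by
  have hb1 := z2_ne.1 hb
  have ha1 := z2_ne.1 ha
  have hc : Q (a + b) ≠ 0 := by
    rw [q_add, ha1, hb1, hab]
    decide
  have hbb : bb b b = 0 := by
    rw [polar_self2, hb1]
    decide
  have hba : bb b a = 1 := by rw [polar_symm, hab]
  apply og_ext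
  intro x
  rw [oM_mul, oM_mul, rO_apply hc, rO_apply hb, rO_apply hb, rO_apply ha, polar_add_l, polar_add_r, polar_add_r,
    polar_smul_r, polar_smul_r, polar_add_r, hba, hbb, hab]
  funext i
  simp only [Pi.add_apply, Pi.smul_apply, smul_eq_mul]
  generalize bb a x = A
  generalize bb b x = B
  generalize x i = C
  generalize a i = D
  generalize b i = E
  revert A B C D E
  decide

section pairs

variable (hnd : (QuadraticMap.polarBilin Q).Nondegenerate)

/-- The product of two reflections. -/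
noncomputable def pr (a b : ι → ZMod 2) (ha : Q a ≠ 0) (hb : Q b ≠ 0) : Om Q :=
  wd hnd [a, b] (by simp [ha, hb]) ⟨1, rfl⟩

theorem pr_val (a b : ι → ZMod 2) (ha : Q a ≠ 0) (hb : Q b ≠ 0) : (pr hnd a b ha hb).1 = rO Q a * rO Q b := by
  show lp Q [a, b] = _
  rw [lp_cons, lp_cons, lp_nil, mul_one]

theorem pr_self (a : ι → ZMod 2) (ha : Q a ≠ 0) : pr hnd a a ha ha = 1 := by
  apply Subtype.ext
  rw [pr_val, rO_mul_self]
  rfl

theorem pr_mul (a b c : ι → ZMod 2) (ha : Q a ≠ 0) (hb : Q b ≠ 0) (hc : Q c ≠ 0) :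
    pr hnd a b ha hb * pr hnd b c hb hc = pr hnd a c ha hc := by
  apply Subtype.ext
  show (pr hnd a b ha hb).1 * (pr hnd b c hb hc).1 = _
  rw [pr_val, pr_val, pr_val, mul_assoc, ← mul_assoc (rO Q b), rO_mul_self, one_mul]

theorem pr_inv (a b : ι → ZMod 2) (ha : Q a ≠ 0) (hb : Q b ≠ 0) : (pr hnd a b ha hb)⁻¹ = pr hnd b a hb ha := by
  rw [inv_eq_iff_mul_eq_one, pr_mul, pr_self]

variable {f : Om Q → ι → ZMod 2}

/-- Two vectors are related when the crossed homomorphism vanishes on the product of reflections. -/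
def Good (f : Om Q → ι → ZMod 2) (a b : ι → ZMod 2) : Prop := ∀ ha hb, f (pr hnd a b ha hb) = 0

theorem Good.trans (hf : IsDer f) {a b c : ι → ZMod 2} (hb : Q b ≠ 0) (h1 : Good hnd f a b) (h2 : Good hnd f b c) :
    Good hnd f a c := by
  intro ha hc
  rw [← pr_mul hnd a b c ha hb hc]
  exact der_mul hf (h1 ha hb) (h2 hb hc)

theorem Good.symm (hf : IsDer f) {a b : ι → ZMod 2} (h : Good hnd f a b) : Good hnd f b a := by
  intro hb ha
  rw [← pr_inv hnd a b ha hb]
  exact der_inv hf (h ha hb)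

theorem good_self (hf : IsDer f) (a : ι → ZMod 2) : Good hnd f a a := by
  intro ha _
  rw [pr_self]
  exact der_one hf

/-- Vanishing on the products of two reflections gives vanishing everywhere. -/
theorem all_of_pairs (hq : CDOK Q) (hf : IsDer f) (h : ∀ a b, Q a ≠ 0 → Q b ≠ 0 → Good hnd f a b) (g : Om Q) : f g = 0 := by
  have key : ∀ (k : ℕ) (vs : List (ι → ZMod 2)), vs.length = 2 * k → ∀ (hv : ∀ v ∈ vs, Q v ≠ 0)
      (hm : lp Q vs ∈ Cfsg.Omega (ZMod 2) ⇑Q), f ⟨lp Q vs, hm⟩ = 0 := by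
    intro k
    induction k with
    | zero =>
      intro vs hl hv hm
      have e : vs = [] := List.length_eq_zero_iff.1 (by simpa using hl)
      subst e
      exact der_one hf
    | succ k ih =>
      intro vs hl hv hm
      match vs, hl, hv, hm with
      | a :: b :: rest, hl, hv, hm =>
        have ha : Q a ≠ 0 := hv a (by simp)
        have hb : Q b ≠ 0 := hv b (by simp)
        have hr : ∀ v ∈ rest, Q v ≠ 0 := fun v hv' => hv v (by simp [hv'])
        have hlr : rest.length = 2 * k := by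
          simp at hl
          omega
        have hm' : lp Q rest ∈ Cfsg.Omega (ZMod 2) ⇑Q :=
          lp_mem_omega hnd hr ⟨k, by omega⟩ (z2_sq _)
        have e : (⟨lp Q (a :: b :: rest), hm⟩ : Om Q) = pr hnd a b ha hb * ⟨lp Q rest, hm'⟩ := by
          apply Subtype.ext
          show lp Q (a :: b :: rest) = (pr hnd a b ha hb).1 * lp Q rest
          rw [pr_val, lp_cons, lp_cons, mul_assoc]
        rw [e]
        exact der_mul hf (h a b ha hb ha hb) (ih rest hlr hr hm')
  obtain ⟨vs, hv, e⟩ := exists_lp' hnd hq g.1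
  have hm : lp Q vs ∈ Cfsg.Omega (ZMod 2) ⇑Q := e ▸ g.2
  have he := ((lp_mem_omega_iff' hnd hq hv).1 hm).1
  obtain ⟨r, hr⟩ := he
  have e' : g = ⟨lp Q vs, hm⟩ := Subtype.ext e
  rw [e']
  exact key r vs (by omega) hv hm

/-- The triangle relation from an element of order three without fixed vectors. -/
theorem good_tri (hf : IsDer f) {y : Om Q} (hy : Fpf y) (h0 : f y = 0)
    (h3 : ∀ x : ι → ZMod 2, x + mt y *ᵥ x + mt y *ᵥ (mt y *ᵥ x) = 0) (a : ι → ZMod 2) :
    Good hnd f a (mt y *ᵥ a) := by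
  intro ha hb
  apply vanish_comm hf hy h0
  have hy2 : mt y *ᵥ (mt y *ᵥ a) = a + mt y *ᵥ a := by
    have := h3 a
    funext i
    have h4 := congrFun this i
    simp only [Pi.add_apply, Pi.zero_apply] at h4 ⊢
    generalize (mt y *ᵥ (mt y *ᵥ a)) i = A at h4 ⊢
    generalize a i = B at h4 ⊢
    generalize (mt y *ᵥ a) i = C at h4 ⊢
    revert A B C
    decide
  have hab : bb a (mt y *ᵥ a) = 1 := by
    have h5 : Q (a + mt y *ᵥ a) = Q a + Q (mt y *ᵥ a) + bb a (mt y *ᵥ a) := q_add _ _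
    rw [← hy2] at h5
    have e1 : Q (mt y *ᵥ (mt y *ᵥ a)) = Q a := by
      rw [show Q (mt y *ᵥ (mt y *ᵥ a)) = Q (mt y *ᵥ a) from oM_Q y.1 _, oM_Q y.1]
    have e2 : Q (mt y *ᵥ a) = Q a := oM_Q y.1 a
    rw [e1, e2, z2_ne.1 ha] at h5
    generalize bb a (mt y *ᵥ a) = A at h5 ⊢
    revert A
    decide
  have hc : Q (a + mt y *ᵥ a) ≠ 0 := by
    rw [← hy2, show Q (mt y *ᵥ (mt y *ᵥ a)) = Q (mt y *ᵥ a) from oM_Q y.1 _]
    exact hb
  apply Subtype.ext
  show y.1 * (pr hnd a (mt y *ᵥ a) ha hb).1 = (pr hnd a (mt y *ᵥ a) ha hb).1 * y.1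
  rw [pr_val]
  have h6 : y.1 * (rO Q a * rO Q (mt y *ᵥ a)) * y.1⁻¹ = rO Q (mt y *ᵥ a) * rO Q (mt y *ᵥ (mt y *ᵥ a)) := by
    have e1 := rO_conj y.1 ha
    have e2 := rO_conj y.1 hb
    have e3 : y.1 * (rO Q a * rO Q (mt y *ᵥ a)) * y.1⁻¹ =
        (y.1 * rO Q a * y.1⁻¹) * (y.1 * rO Q (mt y *ᵥ a) * y.1⁻¹) := by group
    rw [e3, e1, e2]
  have h7 : rO Q (mt y *ᵥ a) * rO Q (mt y *ᵥ (mt y *ᵥ a)) = rO Q a * rO Q (mt y *ᵥ a) := by
    rw [hy2]
    exact rot_eq ha hb hab
  rw [h7] at h6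
  exact mul_inv_eq_iff_eq_mul.1 h6

end pairs

/-! ### Codes for vectors -/

section codes

variable (pos : ι → ℕ)

/-- The vector of a code. -/
def vv (n : ℕ) : ι → ZMod 2 := fun i => if n.testBit (pos i) then 1 else 0

theorem vv_xor (m n : ℕ) : vv pos (m ^^^ n) = vv pos m + vv pos n := by
  funext i
  simp only [vv, Nat.testBit_xor, Pi.add_apply]
  cases m.testBit (pos i) <;> cases n.testBit (pos i) <;> decide

theorem vv_surj {d : ℕ} (inv : Fin d → ι) (hpos : ∀ i, pos i < d) (hinv : ∀ i, inv ⟨pos i, hpos i⟩ = i)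
    (v : ι → ZMod 2) : ∃ n, n < 2 ^ d ∧ vv pos n = v := by
  refine ⟨Nat.ofBits (fun k : Fin d => decide (v (inv k) = 1)), Nat.ofBits_lt_two_pow _, ?_⟩
  funext i
  simp only [vv]
  rw [Nat.testBit_ofBits_lt _ _ (hpos i), hinv]
  have : ∀ x : ZMod 2, (if decide (x = 1) = true then (1 : ZMod 2) else 0) = x := by decide
  exact this _

theorem vv_inj {d : ℕ} (inv : Fin d → ι) (hpos : ∀ i, pos i < d) (hinv2 : ∀ k : Fin d, pos (inv k) = k)
    {m n : ℕ} (hm : m < 2 ^ d) (hn : n < 2 ^ d) (h : vv pos m = vv pos n) : m = n := by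
  apply Nat.eq_of_testBit_eq
  intro k
  by_cases hk : k < d
  · have h1 := congrFun h (inv ⟨k, hk⟩)
    simp only [vv, hinv2] at h1
    cases hmk : m.testBit k <;> cases hnk : n.testBit k <;> simp [hmk, hnk] at h1 ⊢
  · have h2 : 2 ^ d ≤ 2 ^ k := Nat.pow_le_pow_right (by norm_num) (by omega)
    rw [Nat.testBit_lt_two_pow (by omega), Nat.testBit_lt_two_pow (by omega)]

variable (qb : ℕ → Bool)

/-- The reflection on codes. -/
def tt (a n : ℕ) : ℕ := bif (xor (xor (qb (a ^^^ n)) (qb a)) (qb n)) then n ^^^ a else n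

/-- Words of reflections on codes. -/
def ev (w : List ℕ) (n : ℕ) : ℕ := w.foldr (tt qb) n

variable {pos qb}

section spec

variable (hq : ∀ n, Q (vv pos n) = if qb n then 1 else 0)
include hq

theorem tt_spec {a : ℕ} (ha : qb a = true) (n : ℕ) : oM (rO Q (vv pos a)) *ᵥ vv pos n = vv pos (tt qb a n) := by
  have ha' : Q (vv pos a) ≠ 0 := by
    rw [hq, ha]; decide
  rw [rO_apply ha']
  have hp : bb (vv pos a) (vv pos n) = if (xor (xor (qb (a ^^^ n)) (qb a)) (qb n)) then 1 else 0 := by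
    rw [QuadraticMap.polar, ← vv_xor, hq, hq, hq]
    cases qb (a ^^^ n) <;> cases qb a <;> cases qb n <;> decide
  rw [hp]
  unfold tt
  cases xor (xor (qb (a ^^^ n)) (qb a)) (qb n)
  · simp
  · simp [vv_xor]

theorem ne_of_qb {a : ℕ} (ha : qb a = true) : Q (vv pos a) ≠ 0 := by
  rw [hq, ha]; decide

theorem qb_of_ne {a : ℕ} (ha : Q (vv pos a) ≠ 0) : qb a = true := by
  rw [hq] at ha
  cases h : qb a
  · rw [h] at ha
    exact absurd rfl ha
  · rfl

theorem qb_eq_false {a : ℕ} (ha : Q (vv pos a) = 0) : qb a = false := by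
  rw [hq] at ha
  cases h : qb a
  · rfl
  · rw [h] at ha
    exact absurd ha (by decide)

theorem ev_spec {w : List ℕ} (hw : ∀ a ∈ w, qb a = true) (n : ℕ) :
    oM (lp Q (w.map (vv pos))) *ᵥ vv pos n = vv pos (ev qb w n) := by
  induction w with
  | nil =>
    show oM (1 : Cfsg.Agent.Lib.Classical.OG Q) *ᵥ vv pos n = vv pos n
    exact oM_one _
  | cons a w ih =>
    rw [List.map_cons, lp_cons, oM_mul, ih (fun b hb => hw b (List.mem_cons_of_mem _ hb)),
      tt_spec hq (hw a (by simp))]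
    rfl

end spec

end codes

/-! ### The model and the certificates -/

/-- Coding data for a quadratic form. -/
structure Mdl (Q : QuadraticForm (ZMod 2) (ι → ZMod 2)) (d : ℕ) where
  pos : ι → ℕ
  inv : Fin d → ι
  hpos : ∀ i, pos i < d
  hinv : ∀ i, inv ⟨pos i, hpos i⟩ = i
  hinv2 : ∀ k : Fin d, pos (inv k) = k
  qb : ℕ → Bool
  hq : ∀ n, Q (vv pos n) = if qb n then 1 else 0

/-- A word of even length of nonsingular codes. -/
def wordOK (qb : ℕ → Bool) (w : List ℕ) : Bool := w.all qb && Nat.beq (w.length % 2) 0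

/-- The order three test. -/
def fpf3 (d : ℕ) (qb : ℕ → Bool) (w : List ℕ) : Bool :=
  (List.range (2 ^ d)).all fun n => Nat.beq (n ^^^ ev qb w n ^^^ ev qb w (ev qb w n)) 0

/-- The commuting test. -/
def commOK (d : ℕ) (qb : ℕ → Bool) (w w' : List ℕ) : Bool :=
  (List.range (2 ^ d)).all fun n => Nat.beq (ev qb w (ev qb w' n)) (ev qb w' (ev qb w n))

/-- The connectivity test. -/
def chainN (qb : ℕ → Bool) (ys : List (List ℕ)) : List ℕ → List ℕ → Bool
  | _, [] => true
  | seen, a :: rest =>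
    (ys.any fun w => seen.contains (ev qb w a) || seen.contains (ev qb w (ev qb w a))) && chainN qb ys (a :: seen) rest

/-- The whole test for the case of elements of order three. -/
def frameChk (d : ℕ) (qb : ℕ → Bool) (wx : List ℕ) (ys : List (List ℕ)) (a0 : ℕ) (ord : List ℕ) : Bool :=
  wordOK qb wx && fpf3 d qb wx && ys.all (fun w => wordOK qb w && fpf3 d qb w && commOK d qb wx w) && qb a0 &&
    ord.all qb && chainN qb (wx :: ys) [a0] ord &&
    (List.range (2 ^ d)).all (fun n => !(qb n) || (n == a0) || ord.contains n)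

section main

variable {d : ℕ} (M : Mdl Q d) (hnd : (QuadraticMap.polarBilin Q).Nondegenerate)

theorem vv_zero (pos : ι → ℕ) : vv pos 0 = 0 := by
  funext i
  simp [vv]

theorem exists_code (v : ι → ZMod 2) : ∃ n, n < 2 ^ d ∧ vv M.pos n = v := vv_surj M.pos M.inv M.hpos M.hinv v

theorem wordOK_all {qb : ℕ → Bool} {w : List ℕ} (h : wordOK qb w = true) : ∀ a ∈ w, qb a = true := by
  simp only [wordOK, Bool.and_eq_true, List.all_eq_true] at h
  exact h.1

theorem wordOK_even {qb : ℕ → Bool} {w : List ℕ} (h : wordOK qb w = true) : Even w.length := by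
  simp only [wordOK, Bool.and_eq_true, Nat.beq_eq] at h
  exact Nat.even_iff.2 h.2

/-- The element of a word. -/
noncomputable def el (w : List ℕ) (h : wordOK M.qb w = true) : Om Q :=
  wd hnd (w.map (vv M.pos)) (by
    intro v hv
    obtain ⟨a, ha, rfl⟩ := List.mem_map.1 hv
    exact ne_of_qb M.hq (wordOK_all h a ha)) (by
    rw [List.length_map]
    exact wordOK_even h)

theorem el_spec (w : List ℕ) (h : wordOK M.qb w = true) (n : ℕ) :
    mt (el M hnd w h) *ᵥ vv M.pos n = vv M.pos (ev M.qb w n) :=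
  ev_spec M.hq (wordOK_all h) n

theorem om_ext {g h : Om Q} (H : ∀ n, n < 2 ^ d → mt g *ᵥ vv M.pos n = mt h *ᵥ vv M.pos n) : g = h := by
  apply Subtype.ext
  apply og_ext
  intro x
  obtain ⟨n, hn, rfl⟩ := exists_code M x
  exact H n hn

theorem range_all {P : ℕ → Bool} (h : (List.range (2 ^ d)).all P = true) {n : ℕ} (hn : n < 2 ^ d) : P n = true :=
  List.all_eq_true.mp h n (List.mem_range.2 hn)

theorem three_of {y : Om Q} {w : List ℕ} (h : fpf3 d M.qb w = true)
    (hy : ∀ n, mt y *ᵥ vv M.pos n = vv M.pos (ev M.qb w n)) (x : ι → ZMod 2) :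
    x + mt y *ᵥ x + mt y *ᵥ (mt y *ᵥ x) = 0 := by
  obtain ⟨n, hn, rfl⟩ := exists_code M x
  have h1 := range_all h hn
  rw [hy, hy, ← vv_xor, ← vv_xor, Nat.eq_of_beq_eq_true h1, vv_zero]

theorem fpf_of_three {y : Om Q} (h : ∀ x : ι → ZMod 2, x + mt y *ᵥ x + mt y *ᵥ (mt y *ᵥ x) = 0) : Fpf y := by
  intro w hw
  have h1 := h w
  rw [hw, hw] at h1
  funext i
  have h2 := congrFun h1 i
  simp only [Pi.add_apply, Pi.zero_apply] at h2 ⊢
  generalize w i = A at h2 ⊢
  revert A
  decide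

theorem comm_of {g h : Om Q} {w w' : List ℕ} (hc : commOK d M.qb w w' = true)
    (hg : ∀ n, mt g *ᵥ vv M.pos n = vv M.pos (ev M.qb w n)) (hh : ∀ n, mt h *ᵥ vv M.pos n = vv M.pos (ev M.qb w' n)) :
    g * h = h * g := by
  apply om_ext M
  intro n hn
  rw [mt_mul, mt_mul, hg, hh, hg, hh, Nat.eq_of_beq_eq_true (range_all hc hn)]

variable {f : Om Q → ι → ZMod 2}

theorem chain_good (hf : IsDer f) {ys : List (List ℕ)}
    (hys : ∀ w ∈ ys, ∃ y : Om Q, (∀ n, mt y *ᵥ vv M.pos n = vv M.pos (ev M.qb w n)) ∧ Fpf y ∧ f y = 0 ∧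
      ∀ x : ι → ZMod 2, x + mt y *ᵥ x + mt y *ᵥ (mt y *ᵥ x) = 0)
    {a0 : ℕ} (rest : List ℕ) : ∀ seen : List ℕ, (∀ s ∈ seen, M.qb s = true ∧ Good hnd f (vv M.pos s) (vv M.pos a0)) →
      (∀ a ∈ rest, M.qb a = true) → chainN M.qb ys seen rest = true → ∀ a ∈ rest, Good hnd f (vv M.pos a) (vv M.pos a0) := by
  induction rest with
  | nil => intro seen _ _ _ a ha; simp at ha
  | cons a rest ih =>
    intro seen hseen hq hc b hb
    simp only [chainN, Bool.and_eq_true] at hc
    obtain ⟨h1, h2⟩ := hc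
    have ha : Good hnd f (vv M.pos a) (vv M.pos a0) := by
      rw [List.any_eq_true] at h1
      obtain ⟨w, hw, h1⟩ := h1
      obtain ⟨y, hy1, hy2, hy3, hy4⟩ := hys w hw
      have qa : M.qb a = true := hq a (by simp)
      have g1 := good_tri hnd hf hy2 hy3 hy4 (vv M.pos a)
      rw [hy1] at g1
      have q1 : Q (vv M.pos (ev M.qb w a)) ≠ 0 := by
        rw [← hy1]
        rw [show Q (mt y *ᵥ vv M.pos a) = Q (vv M.pos a) from oM_Q y.1 _]
        exact ne_of_qb M.hq qa
      rw [Bool.or_eq_true, List.contains_iff_mem, List.contains_iff_mem] at h1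
      rcases h1 with h1 | h1
      · exact Good.trans hnd hf q1 g1 (hseen _ h1).2
      · have g2 := good_tri hnd hf hy2 hy3 hy4 (vv M.pos (ev M.qb w a))
        rw [hy1] at g2
        have q2 := ne_of_qb M.hq (hseen _ h1).1
        exact Good.trans hnd hf q1 g1 (Good.trans hnd hf q2 g2 (hseen _ h1).2)
    rcases List.mem_cons.1 hb with rfl | hb
    · exact ha
    · refine ih (a :: seen) ?_ (fun c hc' => hq c (List.mem_cons_of_mem _ hc')) h2 b hb
      intro s hs
      rcases List.mem_cons.1 hs with rfl | hs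
      · exact ⟨hq _ (by simp), ha⟩
      · exact hseen s hs

include hnd in
/-- The main theorem, in the case of elements of order three. -/
theorem frames_main (hcd : CDOK Q) {wx : List ℕ} {ys : List (List ℕ)} {a0 : ℕ} {ord : List ℕ}
    (h : frameChk d M.qb wx ys a0 ord = true) (hf : IsDer f) : ∃ v, ∀ g, f g = mt g *ᵥ v - v := by
  simp only [frameChk, Bool.and_eq_true, List.all_eq_true] at h
  obtain ⟨⟨⟨⟨⟨⟨hx1, hx2⟩, hys⟩, ha0⟩, hord⟩, hch⟩, hcov⟩ := h
  have hx3 : ∀ y, (∀ n, mt y *ᵥ vv M.pos n = vv M.pos (ev M.qb wx n)) →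
      ∀ x : ι → ZMod 2, x + mt y *ᵥ x + mt y *ᵥ (mt y *ᵥ x) = 0 := fun y hy => three_of M hx2 hy
  have hxs := el_spec M hnd wx hx1
  have hxF : Fpf (el M hnd wx hx1) := fpf_of_three (hx3 _ hxs)
  refine principal_of_vanish (el M hnd wx hx1) hxF ?_ hf
  intro f hf h0
  have hall : ∀ w ∈ wx :: ys, ∃ y : Om Q, (∀ n, mt y *ᵥ vv M.pos n = vv M.pos (ev M.qb w n)) ∧ Fpf y ∧ f y = 0 ∧
      ∀ x : ι → ZMod 2, x + mt y *ᵥ x + mt y *ᵥ (mt y *ᵥ x) = 0 := by
    intro w hw
    rcases List.mem_cons.1 hw with rfl | hw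
    · exact ⟨_, hxs, hxF, h0, hx3 _ hxs⟩
    · obtain ⟨⟨h2, h3⟩, h4⟩ := hys w hw
      have hs := el_spec M hnd w h2
      have ht := three_of M h3 hs
      refine ⟨_, hs, fpf_of_three ht, ?_, ht⟩
      exact vanish_comm hf hxF h0 (comm_of M h4 hxs hs)
  have hq0 : Q (vv M.pos a0) ≠ 0 := ne_of_qb M.hq ha0
  have hgood := chain_good M hnd hf hall ord [a0] (by
      intro s hs
      rw [List.mem_singleton] at hs
      subst hs
      exact ⟨ha0, good_self hnd hf _⟩) hord hch
  have hg : ∀ a, Q a ≠ 0 → Good hnd f a (vv M.pos a0) := by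
    intro a ha
    obtain ⟨n, hn, rfl⟩ := exists_code M a
    have h1 := hcov n (List.mem_range.2 hn)
    rw [qb_of_ne M.hq ha] at h1
    simp only [Bool.not_true, Bool.false_or, Bool.or_eq_true, beq_iff_eq, List.contains_iff_mem] at h1
    rcases h1 with rfl | h1
    · exact good_self hnd hf _
    · exact hgood n h1
  apply all_of_pairs hnd hcd hf
  intro a b ha hb
  exact Good.trans hnd hf hq0 (hg a ha) (Good.symm hnd hf (hg b hb))

/-- Evaluation of a word in two elements. -/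
def evW (qb : ℕ → Bool) (wx wy : List ℕ) : List Bool → ℕ → ℕ
  | [], n => n
  | b :: W, n => ev qb (bif b then wx else wy) (evW qb wx wy W n)

/-- The test for the case of an element of order five. -/
def a5Chk (d : ℕ) (qb : ℕ → Bool) (wx wy : List ℕ) (a0 : ℕ) (ws : List (ℕ × List Bool)) : Bool :=
  wordOK qb wx && wordOK qb wy && qb a0 &&
    ((List.range (2 ^ d)).all fun n =>
      let e1 := ev qb wx n
      let e2 := ev qb wx e1
      let e3 := ev qb wx e2
      let e4 := ev qb wx e3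
      let m := e1
      let m1 := ev qb wx (ev qb wy m)
      let m2 := ev qb wx (ev qb wy m1)
      let c := m ^^^ m1 ^^^ m2
      Nat.beq (n ^^^ e1 ^^^ e2 ^^^ e3 ^^^ e4) 0 && Nat.beq (ev qb wy (ev qb wy n)) n &&
        Nat.beq (ev qb wx (ev qb wy (ev qb wx (ev qb wy (ev qb wx (ev qb wy n)))))) n &&
        Nat.blt (ev qb wy n) (2 ^ d) && Nat.blt c (2 ^ d) &&
        (!(Nat.beq (ev qb wy n) n) || !(Nat.beq c 0) || Nat.beq n 0)) &&
    ws.all (fun p => qb p.1 && ((List.range (2 ^ d)).all fun n => Nat.beq (ev qb [p.1, a0] n) (evW qb wx wy p.2 n))) &&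
    (List.range (2 ^ d)).all (fun n => !(qb n) || (n == a0) || (ws.map Prod.fst).contains n)

theorem imp_of_test {a b c n : ℕ} (h : (!(Nat.beq a b) || !(Nat.beq c 0) || Nat.beq n 0) = true) (h1 : a = b)
    (h2 : c = 0) : n = 0 := by
  subst h1
  subst h2
  simpa [Nat.beq_refl] using h

theorem five_zero (w : ι → ZMod 2) (h : w + w + w + w + w = 0) : w = 0 := by
  funext i
  have h2 := congrFun h i
  simp only [Pi.add_apply, Pi.zero_apply] at h2 ⊢
  generalize w i = A at h2 ⊢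
  revert A
  decide

theorem sq_fix (a b : ι → ZMod 2) (h : a + b = 0) : b = a := by
  funext i
  have h2 := congrFun h i
  simp only [Pi.add_apply, Pi.zero_apply] at h2
  generalize a i = A at h2
  generalize b i = B at h2
  revert A B
  decide

/-- Products in two elements. -/
noncomputable def elW (x y : Om Q) : List Bool → Om Q
  | [] => 1
  | b :: W => (bif b then x else y) * elW x y W

include hnd in
/-- The main theorem, in the case of an element of order five. -/
theorem a5_main (hcd : CDOK Q) {wx wy : List ℕ} {a0 : ℕ} {ws : List (ℕ × List Bool)}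
    (h : a5Chk d M.qb wx wy a0 ws = true) (hf : IsDer f) : ∃ v, ∀ g, f g = mt g *ᵥ v - v := by
  simp only [a5Chk, Bool.and_eq_true, List.all_eq_true] at h
  obtain ⟨⟨⟨⟨⟨hx1, hy1⟩, ha0⟩, hmain⟩, hws⟩, hcov⟩ := h
  have hxs := el_spec M hnd wx hx1
  have hys := el_spec M hnd wy hy1
  have hT : ∀ n, n < 2 ^ d → _ := fun n hn => hmain n (List.mem_range.2 hn)
  have hxF : Fpf (el M hnd wx hx1) := by
    intro w hw
    obtain ⟨n, hn, rfl⟩ := exists_code M w
    have h1 := (hT n hn).1.1.1.1.1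
    have h1' := Nat.eq_of_beq_eq_true h1
    rw [hxs] at hw
    have hstep : ∀ k, vv M.pos k = vv M.pos n → vv M.pos (ev M.qb wx k) = vv M.pos n := by
      intro k hk
      rw [← hxs, hk, hxs, hw]
    have e2 := hstep _ hw
    have e3 := hstep _ e2
    have e4 := hstep _ e3
    have h2 := congrArg (vv M.pos) h1'
    rw [vv_xor, vv_xor, vv_xor, vv_xor, e4, e3, e2, hw, vv_zero] at h2
    exact five_zero _ h2
  refine principal_of_vanish (el M hnd wx hx1) hxF ?_ hf
  intro f hf h0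
  obtain ⟨n, hn, hw⟩ := exists_code M (f (el M hnd wy hy1))
  have hy2 : el M hnd wy hy1 * el M hnd wy hy1 = 1 := by
    apply om_ext M
    intro k hk
    have h1 := Nat.eq_of_beq_eq_true (hT k hk).1.1.1.1.2
    rw [mt_mul, hys, hys, h1, mt_one]
  have hz3 : (el M hnd wx hx1 * el M hnd wy hy1) * (el M hnd wx hx1 * el M hnd wy hy1) *
      (el M hnd wx hx1 * el M hnd wy hy1) = 1 := by
    apply om_ext M
    intro k hk
    have h1 := Nat.eq_of_beq_eq_true (hT k hk).1.1.1.2
    rw [mt_mul, mt_mul, mt_mul, mt_mul, mt_mul, hys, hxs, hys, hxs, hys, hxs, h1, mt_one]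
  have h3 : vv M.pos n + vv M.pos (ev M.qb wy n) = 0 := by
    have h4 := hf (el M hnd wy hy1) (el M hnd wy hy1)
    rw [hy2, der_one hf, ← hw, hys] at h4
    exact h4.symm
  have hd1 := (hT n hn).1.1.2
  rw [Nat.blt_eq] at hd1
  have hd2 := (hT n hn).1.2
  rw [Nat.blt_eq] at hd2
  have h5 : ev M.qb wy n = n :=
    vv_inj M.pos M.inv M.hpos M.hinv2 hd1 hn (sq_fix _ _ h3)
  have hz : ∀ k, mt (el M hnd wx hx1 * el M hnd wy hy1) *ᵥ vv M.pos k =
      vv M.pos (ev M.qb wx (ev M.qb wy k)) := by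
    intro k
    rw [mt_mul, hys, hxs]
  have h6 : f (el M hnd wx hx1 * el M hnd wy hy1) = vv M.pos (ev M.qb wx n) := by
    rw [hf, h0, zero_add, ← hw, hxs]
  obtain ⟨z, hzz⟩ : ∃ z, z = el M hnd wx hx1 * el M hnd wy hy1 := ⟨_, rfl⟩
  rw [← hzz] at hz3 hz h6
  have h7 := hf (z * z) z
  rw [hz3, der_one hf, hf, h6, mt_mul z z, hz, hz, ← vv_xor, ← vv_xor, ← vv_zero M.pos] at h7
  have h8 := vv_inj M.pos M.inv M.hpos M.hinv2 (Nat.pow_pos (by norm_num)) hd2 h7
  have h9 : n = 0 := imp_of_test (hT n hn).2 h5 h8.symm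
  have hy0 : f (el M hnd wy hy1) = 0 := by
    rw [← hw, h9, vv_zero]
  have hW : ∀ W, f (elW (el M hnd wx hx1) (el M hnd wy hy1) W) = 0 ∧ ∀ k,
      mt (elW (el M hnd wx hx1) (el M hnd wy hy1) W) *ᵥ vv M.pos k = vv M.pos (evW M.qb wx wy W k) := by
    intro W
    induction W with
    | nil => exact ⟨der_one hf, fun k => mt_one _⟩
    | cons b W ih =>
      have hb : f (bif b then el M hnd wx hx1 else el M hnd wy hy1) = 0 ∧ ∀ k,
          mt (bif b then el M hnd wx hx1 else el M hnd wy hy1) *ᵥ vv M.pos k =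
            vv M.pos (ev M.qb (bif b then wx else wy) k) := by
        cases b
        · exact ⟨hy0, hys⟩
        · exact ⟨h0, hxs⟩
      refine ⟨der_mul hf hb.1 ih.1, fun k => ?_⟩
      show mt ((bif b then el M hnd wx hx1 else el M hnd wy hy1) * elW _ _ W) *ᵥ vv M.pos k = _
      rw [mt_mul, ih.2, hb.2]
      rfl
  have hq0 : Q (vv M.pos a0) ≠ 0 := ne_of_qb M.hq ha0
  have hgood : ∀ p ∈ ws, Good hnd f (vv M.pos p.1) (vv M.pos a0) := by
    intro p hp ha hb
    obtain ⟨h1, h2⟩ := hws p hp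
    have e : pr hnd (vv M.pos p.1) (vv M.pos a0) ha hb = elW (el M hnd wx hx1) (el M hnd wy hy1) p.2 := by
      apply om_ext M
      intro k hk
      rw [(hW p.2).2]
      have h3 : mt (pr hnd (vv M.pos p.1) (vv M.pos a0) ha hb) *ᵥ vv M.pos k = vv M.pos (ev M.qb [p.1, a0] k) :=
        ev_spec M.hq (w := [p.1, a0]) (by
          intro a ha'
          simp only [List.mem_cons, List.not_mem_nil, or_false] at ha'
          rcases ha' with rfl | rfl
          · exact h1
          · exact ha0) k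
      rw [h3, Nat.eq_of_beq_eq_true (h2 k (List.mem_range.2 hk))]
    rw [e]
    exact (hW p.2).1
  have hg : ∀ a, Q a ≠ 0 → Good hnd f a (vv M.pos a0) := by
    intro a ha
    obtain ⟨n, hn, rfl⟩ := exists_code M a
    have h1 := hcov n (List.mem_range.2 hn)
    rw [qb_of_ne M.hq ha] at h1
    simp only [Bool.not_true, Bool.false_or, Bool.or_eq_true, beq_iff_eq, List.contains_iff_mem] at h1
    rcases h1 with rfl | h1
    · exact good_self hnd hf _
    · obtain ⟨p, hp, rfl⟩ := List.mem_map.1 h1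
      exact hgood p hp
  apply all_of_pairs hnd hcd hf
  intro a b ha hb
  exact Good.trans hnd hf hq0 (hg a ha) (Good.symm hnd hf (hg b hb))

end main

end Cfsg.Agent.Lib.ThreeTrans.H1Om
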