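import Cfsg.Agent.Lib.ThreeTrans.H1Om
import Cfsg.Agent.Lib.Classical.OrthMinus

/-!
# Vanishing of the first cohomology of `Ω` on the natural module in three cases
-/

set_option autoImplicit false
set_option maxRecDepth 100000
set_option linter.unusedSimpArgs false
set_option linter.unusedVariables false
set_option linter.unusedSectionVars false
set_option linter.style.haveILetI false

namespace Cfsg.Agent.Lib.ThreeTrans.H1Om

open Matrix Cfsg.Agent.Lib.Classical Module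
open Cfsg.Agent.Lib.Spinor (CDOK)

/-- Transfer to a function which is the given quadratic form. -/
theorem transfer {ι : Type} [Fintype ι] [DecidableEq ι] {Q0 : (ι → ZMod 2) → ZMod 2}
    (Q : QuadraticForm (ZMod 2) (ι → ZMod 2)) (hQ : ⇑Q = Q0)
    (H : ∀ f : Om Q → ι → ZMod 2, IsDer f → ∃ v, ∀ g, f g = mt g *ᵥ v - v)
    (f : ↥(Cfsg.Omega (ZMod 2) Q0) → (ι → ZMod 2))
    (hf : ∀ g h : ↥(Cfsg.Omega (ZMod 2) Q0), f (g * h) = f g + Matrix.mulVec
      (((g : ↥(Cfsg.isometryGroup (ZMod 2) Q0)) : GL ι (ZMod 2)) : Matrix ι ι (ZMod 2)) (f h)) :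
    ∃ v : ι → ZMod 2, ∀ g : ↥(Cfsg.Omega (ZMod 2) Q0), f g = Matrix.mulVec
      (((g : ↥(Cfsg.isometryGroup (ZMod 2) Q0)) : GL ι (ZMod 2)) : Matrix ι ι (ZMod 2)) v - v := by
  subst hQ
  exact H f hf

/-! ### The form of dimension eight -/

/-- Bit positions. -/
def posP : Fin 4 ⊕ Fin 4 → ℕ := Sum.elim (fun i => i.val) (fun i => 4 + i.val)

/-- The inverse of the bit positions. -/
def invP (k : Fin 8) : Fin 4 ⊕ Fin 4 :=
  if h : k.val < 4 then Sum.inl ⟨k.val, h⟩ else Sum.inr ⟨k.val - 4, by omega⟩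

/-- The form on codes. -/
def qbP (n : ℕ) : Bool :=
  xor (xor (xor (n.testBit 0 && n.testBit 4) (n.testBit 1 && n.testBit 5)) (n.testBit 2 && n.testBit 6))
    (n.testBit 3 && n.testBit 7)

theorem qP (n : ℕ) : Cfsg.quadFormPlus 4 (ZMod 2) (vv posP n) = if qbP n then 1 else 0 := by
  unfold Cfsg.quadFormPlus
  rw [Fin.sum_univ_four]
  show (if n.testBit 0 then (1 : ZMod 2) else 0) * (if n.testBit 4 then 1 else 0) +
      (if n.testBit 1 then (1 : ZMod 2) else 0) * (if n.testBit 5 then 1 else 0) +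
      (if n.testBit 2 then (1 : ZMod 2) else 0) * (if n.testBit 6 then 1 else 0) +
      (if n.testBit 3 then (1 : ZMod 2) else 0) * (if n.testBit 7 then 1 else 0) = _
  unfold qbP
  generalize n.testBit 0 = b0
  generalize n.testBit 1 = b1
  generalize n.testBit 2 = b2
  generalize n.testBit 3 = b3
  generalize n.testBit 4 = b4
  generalize n.testBit 5 = b5
  generalize n.testBit 6 = b6
  generalize n.testBit 7 = b7
  revert b0 b1 b2 b3 b4 b5 b6 b7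
  decide

/-- The model. -/
def mdlP (Q : QuadraticForm (ZMod 2) (Fin 4 ⊕ Fin 4 → ZMod 2)) (hQ : ⇑Q = Cfsg.quadFormPlus 4 (ZMod 2)) : Mdl Q 8 where
  pos := posP
  inv := invP
  hpos := by decide
  hinv := by decide
  hinv2 := by decide
  qb := qbP
  hq n := by rw [hQ]; exact qP n

def wxP : List ℕ := [17,35,19,34,68,140,76,136]
def ysP : List (List ℕ) := [[17,35,19,34,140,68,136,76],[17,69,21,68,34,138,42,136],[17,35,19,34,68,140,136,76]]
def a0P : ℕ := 17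
def ordP : List ℕ := [35,50,69,84,142,143,169,172,188,201,202,203,214,216,223,226,232,247,248,253,39,46,53,54,57,58,61,62,70,71,83,89,91,94,98,99,100,106,109,113,114,116,121,122,127,137,141,145,147,149,151,152,154,156,162,163,166,167,177,178,181,182,184,187,196,198,199,200,209,211,212,218,221,227,228,229,238,239,241,242,244,251,254,21,23,25,27,29,31,38,42,43,47,49,68,76,77,78,79,81,86,92,101,107,108,119,124,136,138,139,140,158,168,173,191,197,233,19,34]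

theorem chkP : frameChk 8 qbP wxP ysP a0P ordP = true := by decide +kernel

theorem final_plus (f : ↥(Cfsg.Omega (ZMod 2) (Cfsg.quadFormPlus 4 (ZMod 2))) → (Fin 4 ⊕ Fin 4 → ZMod 2))
    (hf : ∀ g h : ↥(Cfsg.Omega (ZMod 2) (Cfsg.quadFormPlus 4 (ZMod 2))), f (g * h) = f g + Matrix.mulVec
      (((g : ↥(Cfsg.isometryGroup (ZMod 2) (Cfsg.quadFormPlus 4 (ZMod 2)))) : GL (Fin 4 ⊕ Fin 4) (ZMod 2)) : Matrix (Fin 4 ⊕ Fin 4) (Fin 4 ⊕ Fin 4) (ZMod 2)) (f h)) :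
    ∃ v : Fin 4 ⊕ Fin 4 → ZMod 2, ∀ g : ↥(Cfsg.Omega (ZMod 2) (Cfsg.quadFormPlus 4 (ZMod 2))), f g = Matrix.mulVec
      (((g : ↥(Cfsg.isometryGroup (ZMod 2) (Cfsg.quadFormPlus 4 (ZMod 2)))) : GL (Fin 4 ⊕ Fin 4) (ZMod 2)) : Matrix (Fin 4 ⊕ Fin 4) (Fin 4 ⊕ Fin 4) (ZMod 2)) v - v := by
  obtain ⟨Q, hQ, hnd⟩ := ndq_plus (F := ZMod 2) 4
  exact transfer Q hQ (fun f hf => frames_main (mdlP Q hQ) hnd (Or.inr (Or.inl (by simp))) chkP hf) f hf

/-! ### The form of dimension six -/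

/-- Bit positions. -/
def posM2 : (Fin 2 ⊕ Fin 2) ⊕ Fin 2 → ℕ :=
  Sum.elim (Sum.elim (fun i => i.val) (fun i => 2 + i.val)) (fun i => 4 + i.val)

/-- The inverse of the bit positions. -/
def invM2 (k : Fin 6) : (Fin 2 ⊕ Fin 2) ⊕ Fin 2 :=
  if h : k.val < 2 then Sum.inl (Sum.inl ⟨k.val, h⟩)
  else if h' : k.val < 4 then Sum.inl (Sum.inr ⟨k.val - 2, by omega⟩) else Sum.inr ⟨k.val - 4, by omega⟩

/-- The form on codes. -/
def qbM2 (n : ℕ) : Bool :=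
  xor (xor (n.testBit 0 && n.testBit 2) (n.testBit 1 && n.testBit 3))
    (xor (xor (n.testBit 4) (n.testBit 4 && n.testBit 5)) (n.testBit 5))

theorem qM2 (n : ℕ) : Cfsg.quadFormMinus 2 (ZMod 2) 1 1 (vv posM2 n) = if qbM2 n then 1 else 0 := by
  unfold Cfsg.quadFormMinus
  rw [Fin.sum_univ_two]
  show ((if n.testBit 0 then (1 : ZMod 2) else 0) * (if n.testBit 2 then 1 else 0) +
      (if n.testBit 1 then (1 : ZMod 2) else 0) * (if n.testBit 3 then 1 else 0)) +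
      ((if n.testBit 4 then (1 : ZMod 2) else 0) ^ 2 + 1 * (if n.testBit 4 then (1 : ZMod 2) else 0) * (if n.testBit 5 then 1 else 0) +
        1 * (if n.testBit 5 then (1 : ZMod 2) else 0) ^ 2) = _
  unfold qbM2
  generalize n.testBit 0 = b0
  generalize n.testBit 1 = b1
  generalize n.testBit 2 = b2
  generalize n.testBit 3 = b3
  generalize n.testBit 4 = b4
  generalize n.testBit 5 = b5
  revert b0 b1 b2 b3 b4 b5
  decide

/-- The model. -/
def mdlM2 (Q : QuadraticForm (ZMod 2) ((Fin 2 ⊕ Fin 2) ⊕ Fin 2 → ZMod 2)) (hQ : ⇑Q = Cfsg.quadFormMinus 2 (ZMod 2) 1 1) : Mdl Q 6 where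
  pos := posM2
  inv := invM2
  hpos := by decide
  hinv := by decide
  hinv2 := by decide
  qb := qbM2
  hq n := by rw [hQ]; exact qM2 n

def wxM2 : List ℕ := [5,11,7,10,16,32]
def ysM2 : List (List ℕ) := [[5,11,7,10,32,16],[5,17,18,10,16,47],[5,11,10,7,16,32]]
def a0M2 : ℕ := 5
def ordM2 : List ℕ := [11,14,17,20,34,35,40,41,44,48,49,50,51,52,54,56,60,63,7,10,13,16,18,19,22,24,25,28,31,32,33,36,38,47,57]

theorem chkM2 : frameChk 6 qbM2 wxM2 ysM2 a0M2 ordM2 = true := by decide +kernel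

theorem hab2 : ∀ z₁ z₂ : ZMod 2, z₁ ^ 2 + 1 * z₁ * z₂ + 1 * z₂ ^ 2 = 0 → z₁ = 0 ∧ z₂ = 0 := by decide

theorem final_minus2 (f : ↥(Cfsg.Omega (ZMod 2) (Cfsg.quadFormMinus 2 (ZMod 2) 1 1)) → ((Fin 2 ⊕ Fin 2) ⊕ Fin 2 → ZMod 2))
    (hf : ∀ g h : ↥(Cfsg.Omega (ZMod 2) (Cfsg.quadFormMinus 2 (ZMod 2) 1 1)), f (g * h) = f g + Matrix.mulVec
      (((g : ↥(Cfsg.isometryGroup (ZMod 2) (Cfsg.quadFormMinus 2 (ZMod 2) 1 1))) : GL ((Fin 2 ⊕ Fin 2) ⊕ Fin 2) (ZMod 2)) : Matrix ((Fin 2 ⊕ Fin 2) ⊕ Fin 2) ((Fin 2 ⊕ Fin 2) ⊕ Fin 2) (ZMod 2)) (f h)) :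
    ∃ v : (Fin 2 ⊕ Fin 2) ⊕ Fin 2 → ZMod 2, ∀ g : ↥(Cfsg.Omega (ZMod 2) (Cfsg.quadFormMinus 2 (ZMod 2) 1 1)), f g = Matrix.mulVec
      (((g : ↥(Cfsg.isometryGroup (ZMod 2) (Cfsg.quadFormMinus 2 (ZMod 2) 1 1))) : GL ((Fin 2 ⊕ Fin 2) ⊕ Fin 2) (ZMod 2)) : Matrix ((Fin 2 ⊕ Fin 2) ⊕ Fin 2) ((Fin 2 ⊕ Fin 2) ⊕ Fin 2) (ZMod 2)) v - v := by
  obtain ⟨Q, hQ, hnd⟩ := ndq_minus (F := ZMod 2) 1 1 hab2 2
  exact transfer Q hQ (fun f hf => frames_main (mdlM2 Q hQ) hnd (Or.inr (Or.inl (by simp))) chkM2 hf) f hf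

/-! ### The form of dimension four -/

/-- Bit positions. -/
def posM1 : (Fin 1 ⊕ Fin 1) ⊕ Fin 2 → ℕ :=
  Sum.elim (Sum.elim (fun i => i.val) (fun i => 1 + i.val)) (fun i => 2 + i.val)

/-- The inverse of the bit positions. -/
def invM1 (k : Fin 4) : (Fin 1 ⊕ Fin 1) ⊕ Fin 2 :=
  if h : k.val < 1 then Sum.inl (Sum.inl ⟨k.val, h⟩)
  else if h' : k.val < 2 then Sum.inl (Sum.inr ⟨k.val - 1, by omega⟩) else Sum.inr ⟨k.val - 2, by omega⟩

/-- The form on codes. -/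
def qbM1 (n : ℕ) : Bool :=
  xor (n.testBit 0 && n.testBit 1) (xor (xor (n.testBit 2) (n.testBit 2 && n.testBit 3)) (n.testBit 3))

theorem qM1 (n : ℕ) : Cfsg.quadFormMinus 1 (ZMod 2) 1 1 (vv posM1 n) = if qbM1 n then 1 else 0 := by
  unfold Cfsg.quadFormMinus
  rw [Fin.sum_univ_one]
  show ((if n.testBit 0 then (1 : ZMod 2) else 0) * (if n.testBit 1 then 1 else 0)) +
      ((if n.testBit 2 then (1 : ZMod 2) else 0) ^ 2 + 1 * (if n.testBit 2 then (1 : ZMod 2) else 0) * (if n.testBit 3 then 1 else 0) +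
        1 * (if n.testBit 3 then (1 : ZMod 2) else 0) ^ 2) = _
  unfold qbM1
  generalize n.testBit 0 = b0
  generalize n.testBit 1 = b1
  generalize n.testBit 2 = b2
  generalize n.testBit 3 = b3
  revert b0 b1 b2 b3
  decide

/-- The model. -/
def mdlM1 (Q : QuadraticForm (ZMod 2) ((Fin 1 ⊕ Fin 1) ⊕ Fin 2 → ZMod 2)) (hQ : ⇑Q = Cfsg.quadFormMinus 1 (ZMod 2) 1 1) : Mdl Q 4 where
  pos := posM1
  inv := invM1
  hpos := by decide
  hinv := by decide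
  hinv2 := by decide
  qb := qbM1
  hq n := by rw [hQ]; exact qM1 n

def wxM1 : List ℕ := [3,4,5,8]
def wyM1 : List ℕ := [3,4]
def a0M1 : ℕ := 3
def wsM1 : List (ℕ × List Bool) := [(4,[false]),(5,[true,true,true,false,true,true,false]),(6,[false,true,true,true,false,true,true]),(8,[false,true,true,false,true,true,true,false]),(9,[true,true,true,false,true]),(10,[false,true,false,true,true,true]),(12,[true,true,false,true,true,true]),(13,[true,false,true,true,true,false]),(14,[false,true,true,true,false,true,false])]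

theorem chkM1 : a5Chk 4 qbM1 wxM1 wyM1 a0M1 wsM1 = true := by decide +kernel

theorem singM1 : (List.range 16).all (fun u => (List.range 16).all fun v =>
    (qbM1 u) || (qbM1 v) || (qbM1 (u ^^^ v)) || Nat.beq u 0 || Nat.beq v 0 || Nat.beq u v) = true := by decide +kernel

/-- The totally singular subspaces are small. -/
theorem cdokM1 (Q : QuadraticForm (ZMod 2) ((Fin 1 ⊕ Fin 1) ⊕ Fin 2 → ZMod 2)) (hQ : ⇑Q = Cfsg.quadFormMinus 1 (ZMod 2) 1 1) : CDOK Q := by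
  refine Or.inr (Or.inr ?_)
  intro U hU
  let M := mdlM1 Q hQ
  by_cases h0 : U = ⊥
  · subst h0
    simp
  · obtain ⟨u, hu, hu0⟩ := Submodule.exists_mem_ne_zero_of_ne_bot h0
    have key : ∀ w : ↥U, ∃ c : ZMod 2, c • (⟨u, hu⟩ : ↥U) = w := by
      rintro ⟨w, hw⟩
      obtain ⟨n, hn, rfl⟩ := exists_code M u
      obtain ⟨m, hm, rfl⟩ := exists_code M w
      have h1 := range_all (d := 4) (List.all_eq_true.mp singM1 n (List.mem_range.2 hn)) hm
      have q1 : M.qb n = false := by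
        have := qb_eq_false M.hq (hU _ hu)
        exact this
      have q2 : M.qb m = false := qb_eq_false M.hq (hU _ hw)
      have q3 : M.qb (n ^^^ m) = false := by
        apply qb_eq_false M.hq
        rw [vv_xor]
        exact hU _ (U.add_mem hu hw)
      have h2 : (qbM1 n || qbM1 m || qbM1 (n ^^^ m) || Nat.beq n 0 || Nat.beq m 0 || Nat.beq n m) = true := h1
      have q1' : qbM1 n = false := q1
      have q2' : qbM1 m = false := q2
      have q3' : qbM1 (n ^^^ m) = false := q3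
      rw [q1', q2', q3'] at h2
      simp only [Bool.false_or, Bool.or_eq_true, Nat.beq_eq] at h2
      rcases h2 with (h2 | h2) | h2
      · exact absurd (by rw [h2, vv_zero]) hu0
      · refine ⟨0, ?_⟩
        apply Subtype.ext
        show (0 : ZMod 2) • vv M.pos n = vv M.pos m
        rw [h2, vv_zero, zero_smul]
      · refine ⟨1, ?_⟩
        apply Subtype.ext
        show (1 : ZMod 2) • vv M.pos n = vv M.pos m
        rw [h2, one_smul]
    have := finrank_le_one (R := ZMod 2) (⟨u, hu⟩ : ↥U) key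
    omega

theorem final_minus1 (f : ↥(Cfsg.Omega (ZMod 2) (Cfsg.quadFormMinus 1 (ZMod 2) 1 1)) → ((Fin 1 ⊕ Fin 1) ⊕ Fin 2 → ZMod 2))
    (hf : ∀ g h : ↥(Cfsg.Omega (ZMod 2) (Cfsg.quadFormMinus 1 (ZMod 2) 1 1)), f (g * h) = f g + Matrix.mulVec
      (((g : ↥(Cfsg.isometryGroup (ZMod 2) (Cfsg.quadFormMinus 1 (ZMod 2) 1 1))) : GL ((Fin 1 ⊕ Fin 1) ⊕ Fin 2) (ZMod 2)) : Matrix ((Fin 1 ⊕ Fin 1) ⊕ Fin 2) ((Fin 1 ⊕ Fin 1) ⊕ Fin 2) (ZMod 2)) (f h)) :
    ∃ v : (Fin 1 ⊕ Fin 1) ⊕ Fin 2 → ZMod 2, ∀ g : ↥(Cfsg.Omega (ZMod 2) (Cfsg.quadFormMinus 1 (ZMod 2) 1 1)), f g = Matrix.mulVec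
      (((g : ↥(Cfsg.isometryGroup (ZMod 2) (Cfsg.quadFormMinus 1 (ZMod 2) 1 1))) : GL ((Fin 1 ⊕ Fin 1) ⊕ Fin 2) (ZMod 2)) : Matrix ((Fin 1 ⊕ Fin 1) ⊕ Fin 2) ((Fin 1 ⊕ Fin 1) ⊕ Fin 2) (ZMod 2)) v - v := by
  obtain ⟨Q, hQ, hnd⟩ := ndq_minus (F := ZMod 2) 1 1 hab2 1
  exact transfer Q hQ (fun f hf => a5_main (mdlM1 Q hQ) hnd (cdokM1 Q hQ) chkM1 hf) f hf

end Cfsg.Agent.Lib.ThreeTrans.H1Om
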