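import Mathlib
import Cfsg.Agent.Lib.ThreeTrans.LargeGL

/-!
# The holomorph of an elementary abelian 2-group

For `G = U ⋊ Aut U` with `U` elementary abelian of order `2^(n+1)`, the centralizer of an involution `z ∈ U` is `Q K` with
`Q` extraspecial of order `2^(2n+1)` and `K ≅ GL_n(2)`.
-/

set_option autoImplicit false
set_option linter.unusedSimpArgs false
set_option linter.unusedVariables false
set_option linter.unusedSectionVars false
set_option linter.style.haveILetI false

namespace Cfsg.Agent.Lib.ThreeTrans.HL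

open Matrix Cfsg Cfsg.Agent.Lib.TwoFusion

/-- The coordinate vectors of the complement. -/
abbrev VV (n : ℕ) := Fin n → ZMod 2

/-- The coordinate vectors of `U`. -/
abbrev WW (n : ℕ) := ZMod 2 × VV n

/-- The automorphism group of `U`. -/
abbrev LL (n : ℕ) := WW n ≃ₗ[ZMod 2] WW n

variable {n : ℕ}

theorem z2_add (x : ZMod 2) : x + x = 0 := by
  revert x; decide

theorem z2_cases (x : ZMod 2) : x = 0 ∨ x = 1 := by
  revert x; decide

theorem w_add (w : WW n) : w + w = 0 := by
  apply Prod.ext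
  · exact z2_add _
  · funext j
    exact z2_add _

theorem LL_inv (α : LL n) (w : WW n) : α (α⁻¹ w) = w := by
  rw [← LinearEquiv.mul_apply, mul_inv_cancel]
  rfl

theorem LL_inv' (α : LL n) (w : WW n) : α⁻¹ (α w) = w := by
  rw [← LinearEquiv.mul_apply, inv_mul_cancel]
  rfl

/-- The subgroup acting trivially on the quotient by the first coordinate. -/
def TT (n : ℕ) : Subgroup (LL n) where
  carrier := {α | ∀ w, (α w).2 = w.2}
  mul_mem' := by
    intro a b ha hb w
    rw [LinearEquiv.mul_apply, ha, hb]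
  one_mem' := fun w => rfl
  inv_mem' := by
    intro a ha w
    have := ha (a⁻¹ w)
    rw [LL_inv] at this
    exact this.symm

theorem one_ne : ((1, 0) : WW n) ≠ 0 := by
  intro h
  have : (1 : ZMod 2) = 0 := congrArg Prod.fst h
  exact absurd this (by decide)

theorem TT_fix {τ : LL n} (h : τ ∈ TT n) : τ (1, 0) = (1, 0) := by
  have h2 : (τ (1, 0)).2 = 0 := h (1, 0)
  apply Prod.ext _ h2
  rcases z2_cases (τ (1, 0)).1 with h1 | h1
  · exfalso
    have h0 : τ (1, 0) = 0 := Prod.ext h1 h2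
    have := τ.injective (h0.trans (map_zero τ).symm)
    exact one_ne this
  · exact h1

/-- Fixing the first basis vector gives fixing the line. -/
theorem fix_line {α : LL n} (h : α (1, 0) = (1, 0)) (c : ZMod 2) : α (c, 0) = (c, 0) := by
  rcases z2_cases c with rfl | rfl
  · exact map_zero α
  · exact h

theorem split_w (w : WW n) : w = (w.1, 0) + (0, w.2) := by
  apply Prod.ext
  · simp
  · simp

/-- The functional of an element of `TT`. -/
def lam (τ : LL n) (v : VV n) : ZMod 2 := (τ (0, v)).1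

theorem TT_apply {τ : LL n} (h : τ ∈ TT n) (w : WW n) : τ w = w + (lam τ w.2, 0) := by
  nth_rewrite 1 [split_w w]
  rw [map_add, fix_line (TT_fix h)]
  apply Prod.ext
  · simp [lam]
  · have : (τ (0, w.2)).2 = w.2 := h _
    simp [this]

theorem TT_comm {τ τ' : LL n} (h : τ ∈ TT n) (h' : τ' ∈ TT n) : τ * τ' = τ' * τ := by
  ext1 w
  rw [LinearEquiv.mul_apply, LinearEquiv.mul_apply, TT_apply h' w, TT_apply h w, map_add, map_add,
    fix_line (TT_fix h), fix_line (TT_fix h'), TT_apply h w, TT_apply h' w]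
  abel

theorem TT_sq {τ : LL n} (h : τ ∈ TT n) : τ * τ = 1 := by
  ext1 w
  rw [LinearEquiv.mul_apply, TT_apply h w, map_add, fix_line (TT_fix h), TT_apply h w, add_assoc, w_add, add_zero]
  rfl

/-- The element of `TT` with functional `f`. -/
def tf (f : VV n) : LL n where
  toFun := fun w => (w.1 + f ⬝ᵥ w.2, w.2)
  invFun := fun w => (w.1 + f ⬝ᵥ w.2, w.2)
  map_add' := by
    intro x y
    apply Prod.ext
    · simp only [Prod.fst_add, Prod.snd_add, dotProduct_add]
      ring
    · rfl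
  map_smul' := by
    intro c x
    apply Prod.ext
    · simp only [Prod.smul_fst, Prod.smul_snd, dotProduct_smul, RingHom.id_apply, smul_eq_mul]
      ring
    · rfl
  left_inv := by
    intro w
    apply Prod.ext
    · show w.1 + f ⬝ᵥ w.2 + f ⬝ᵥ w.2 = w.1
      rw [add_assoc, z2_add, add_zero]
    · rfl
  right_inv := by
    intro w
    apply Prod.ext
    · show w.1 + f ⬝ᵥ w.2 + f ⬝ᵥ w.2 = w.1
      rw [add_assoc, z2_add, add_zero]
    · rfl

theorem tf_apply (f : VV n) (w : WW n) : tf f w = (w.1 + f ⬝ᵥ w.2, w.2) := rfl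

theorem tf_mem (f : VV n) : tf f ∈ TT n := fun w => rfl

theorem lam_add {τ : LL n} (v v' : VV n) : lam τ (v + v') = lam τ v + lam τ v' := by
  have : ((0, v + v') : WW n) = (0, v) + (0, v') := by simp
  simp only [lam]
  rw [this, map_add]
  rfl

theorem exists_tf {τ : LL n} (h : τ ∈ TT n) : ∃ f, τ = tf f := by
  classical
  refine ⟨fun j => lam τ (Pi.single j 1), ?_⟩
  ext1 w
  rw [TT_apply h, tf_apply]
  apply Prod.ext
  · show w.1 + lam τ w.2 = w.1 + _
    congr 1
    let l : VV n →+ ZMod 2 := AddMonoidHom.mk' (lam τ) (fun a b => lam_add a b)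
    have hl : ∀ v, l v = lam τ v := fun v => rfl
    rw [← hl]
    nth_rewrite 1 [← Finset.univ_sum_single w.2]
    rw [map_sum]
    apply Finset.sum_congr rfl
    intro j _
    rcases z2_cases (w.2 j) with h0 | h0
    · rw [h0]
      simp
    · rw [h0]
      simp [hl]
  · simp

theorem tf_inj {f f' : VV n} (h : tf f = tf f') : f = f' := by
  classical
  funext j
  have h1 := congrArg Prod.fst (LinearEquiv.congr_fun h ((0, Pi.single j 1) : WW n))
  simpa [tf_apply] using h1

/-- The embedding of the linear automorphisms of the complement. -/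
def delta (n : ℕ) : (VV n ≃ₗ[ZMod 2] VV n) →* LL n :=
  MonoidHom.mk' (fun β => LinearEquiv.prodCongr (LinearEquiv.refl (ZMod 2) (ZMod 2)) β) (fun a b => by
    ext1 w
    rfl)

theorem delta_apply (β : VV n ≃ₗ[ZMod 2] VV n) (w : WW n) : delta n β w = (w.1, β w.2) := rfl

theorem delta_inj : Function.Injective (delta n) := by
  intro a b h
  ext1 v
  have := congrArg Prod.snd (LinearEquiv.congr_fun h ((0, v) : WW n))
  exact this

/-- The abstract description of the holomorph. -/
structure Holo (G : Type*) [Group G] (n : ℕ) where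
  ι : WW n → G
  s : LL n →* G
  A : G →* LL n
  ι_add : ∀ w w', ι (w + w') = ι w * ι w'
  conj : ∀ g w, g * ι w * g⁻¹ = ι (A g w)
  A_s : ∀ α, A (s α) = α
  ker : ∀ g, A g = 1 → ∃ w, g = ι w
  ι_inj : ∀ w, ι w = 1 → w = 0

namespace Holo

variable {G : Type*} [Group G] (H : Holo G n)

theorem ι_zero : H.ι 0 = 1 := by
  have := H.ι_add 0 0
  rw [add_zero] at this
  exact (mul_eq_left.1 this.symm)

theorem ι_inj' {a b : WW n} (h : H.ι a = H.ι b) : a = b := by
  have h1 : H.ι (a + b) = 1 := by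
    rw [H.ι_add, h, ← H.ι_add, w_add, ι_zero]
  have h2 := H.ι_inj _ h1
  have h3 := w_add b
  calc a = a + (b + b) := by rw [h3, add_zero]
    _ = (a + b) + b := by rw [add_assoc]
    _ = b := by rw [h2, zero_add]

theorem ι_comm (w w' : WW n) : H.ι w * H.ι w' = H.ι w' * H.ι w := by
  rw [← H.ι_add, ← H.ι_add, add_comm]

theorem ι_sq (w : WW n) : H.ι w * H.ι w = 1 := by
  rw [← H.ι_add, w_add, ι_zero]

theorem A_ι (w : WW n) : H.A (H.ι w) = 1 := by
  ext1 w'
  apply H.ι_inj'
  rw [← H.conj, H.ι_comm, mul_inv_cancel_right]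
  rfl

theorem s_ι (α : LL n) (w : WW n) : H.s α * H.ι w = H.ι (α w) * H.s α := by
  have h := H.conj (H.s α) w
  rw [H.A_s] at h
  rw [← h]
  group

/-- Coordinates of the group. -/
theorem exists_pr (g : G) : ∃ w, g = H.ι w * H.s (H.A g) := by
  have h1 : H.A (g * (H.s (H.A g))⁻¹) = 1 := by
    rw [map_mul, map_inv, H.A_s, mul_inv_cancel]
  obtain ⟨w, hw⟩ := H.ker _ h1
  refine ⟨w, ?_⟩
  rw [← hw]
  group

theorem pr_mul (w w' : WW n) (α α' : LL n) :
    (H.ι w * H.s α) * (H.ι w' * H.s α') = H.ι (w + α w') * H.s (α * α') := by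
  rw [H.ι_add, map_mul]
  calc H.ι w * H.s α * (H.ι w' * H.s α') = H.ι w * (H.s α * H.ι w') * H.s α' := by group
    _ = H.ι w * (H.ι (α w') * H.s α) * H.s α' := by rw [H.s_ι]
    _ = _ := by group

theorem A_pr (w : WW n) (α : LL n) : H.A (H.ι w * H.s α) = α := by
  rw [map_mul, H.A_ι, H.A_s, one_mul]

theorem pr_inj {w w' : WW n} {α α' : LL n} (h : H.ι w * H.s α = H.ι w' * H.s α') : w = w' ∧ α = α' := by
  have h1 : α = α' := by
    have := congrArg H.A h
    rwa [A_pr, A_pr] at this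
  subst h1
  exact ⟨H.ι_inj' (mul_right_cancel h), rfl⟩

/-- The central involution. -/
def zz : G := H.ι (1, 0)

/-- The extraspecial subgroup. -/
def Q : Subgroup G := (TT n).comap H.A

theorem mem_Q {g : G} : g ∈ H.Q ↔ H.A g ∈ TT n := Iff.rfl

theorem ι_mem (w : WW n) : H.ι w ∈ H.Q := by
  rw [mem_Q, A_ι]
  exact one_mem _

theorem pr_mem (w : WW n) {τ : LL n} (h : τ ∈ TT n) : H.ι w * H.s τ ∈ H.Q := by
  rw [mem_Q, A_pr]
  exact h

theorem exists_Q {g : G} (hg : g ∈ H.Q) : ∃ w τ, τ ∈ TT n ∧ g = H.ι w * H.s τ := by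
  obtain ⟨w, hw⟩ := H.exists_pr g
  exact ⟨w, _, hg, hw⟩

theorem ιd_cases (d : ZMod 2) : H.ι (d, 0) = 1 ∨ H.ι (d, 0) = H.zz := by
  rcases z2_cases d with rfl | rfl
  · left
    exact H.ι_zero
  · right
    rfl

theorem zz_ne : H.zz ≠ 1 := by
  intro h
  exact one_ne (H.ι_inj _ h)

theorem zz_central {q : G} (hq : q ∈ H.Q) : q * H.zz = H.zz * q := by
  have h1 := H.conj q (1, 0)
  rw [TT_fix hq] at h1
  calc q * H.zz = (q * H.ι (1, 0) * q⁻¹) * q := by simp [zz]
    _ = H.zz * q := by rw [h1]; rfl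

/-- The elementwise description of `Q`. -/
theorem es : ES H.Q H.zz where
  z_mem := H.ι_mem _
  z_ne := H.zz_ne
  z_sq := H.ι_sq _
  z_central := fun q hq => H.zz_central hq
  comm := by
    intro a ha b hb
    obtain ⟨w, τ, hτ, rfl⟩ := H.exists_Q ha
    obtain ⟨w', τ', hτ', rfl⟩ := H.exists_Q hb
    have e : (H.ι w * H.s τ) * (H.ι w' * H.s τ') =
        H.ι (lam τ w'.2 + lam τ' w.2, 0) * ((H.ι w' * H.s τ') * (H.ι w * H.s τ)) := by
      rw [H.pr_mul, H.pr_mul, TT_comm hτ hτ', ← mul_assoc, ← H.ι_add]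
      congr 2
      rw [TT_apply hτ, TT_apply hτ']
      have e2 : ((lam τ w'.2 + lam τ' w.2, 0) : WW n) = (lam τ w'.2, 0) + (lam τ' w.2, 0) := by simp
      rw [e2]
      calc w + (w' + (lam τ w'.2, 0)) = (lam τ w'.2, 0) + w + w' + ((lam τ' w.2, 0) + (lam τ' w.2, 0)) := by
            rw [w_add, add_zero]; abel
        _ = _ := by abel
    have e3 : (H.ι w * H.s τ) * (H.ι w' * H.s τ') * (H.ι w * H.s τ)⁻¹ * (H.ι w' * H.s τ')⁻¹ =
        H.ι (lam τ w'.2 + lam τ' w.2, 0) := by
      rw [e]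
      group
    rw [e3]
    exact H.ιd_cases _
  sq := by
    intro a ha
    obtain ⟨w, τ, hτ, rfl⟩ := H.exists_Q ha
    rw [H.pr_mul, TT_sq hτ, map_one, mul_one, TT_apply hτ, ← add_assoc, w_add, zero_add]
    exact H.ιd_cases _
  center := by
    intro x hx h
    obtain ⟨w, τ, hτ, rfl⟩ := H.exists_Q hx
    have hτ1 : τ = 1 := by
      ext1 w'
      apply H.ι_inj'
      have h1 := h (H.ι w') (H.ι_mem _)
      have h2 := H.conj (H.ι w * H.s τ) w'
      rw [A_pr, ← h1] at h2
      show H.ι (τ w') = H.ι w'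
      rw [← h2]
      exact mul_inv_cancel_right _ _
    subst hτ1
    rw [map_one, mul_one] at h ⊢
    have h2 : w.2 = 0 := by
      classical
      funext j
      have h1 := h (H.s (tf (Pi.single j 1))) (by
        rw [mem_Q, H.A_s]; exact tf_mem _)
      rw [H.s_ι] at h1
      have h3 := mul_right_cancel h1
      have h4 := H.ι_inj' h3
      have h5 := congrArg Prod.fst h4
      simpa [tf_apply] using h5
    have hw : w = (w.1, 0) := Prod.ext rfl h2
    rw [hw]
    exact H.ιd_cases _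

theorem exists_noncomm (hn : 1 ≤ n) : ∃ a ∈ H.Q, ∃ b ∈ H.Q, a * b ≠ b * a := by
  classical
  let j : Fin n := ⟨0, hn⟩
  refine ⟨H.ι (0, Pi.single j 1), H.ι_mem _, H.s (tf (Pi.single j 1)), by rw [mem_Q, H.A_s]; exact tf_mem _, ?_⟩
  intro h
  rw [H.s_ι] at h
  have h3 := mul_right_cancel h
  have h4 := H.ι_inj' h3
  have h5 := congrArg Prod.fst h4
  simp [tf_apply] at h5

theorem comm_iff (g : G) : g * H.zz = H.zz * g ↔ H.A g (1, 0) = (1, 0) := by
  have h1 := H.conj g (1, 0)
  constructor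
  · intro h
    apply H.ι_inj'
    rw [← h1]
    have h' : g * H.ι (1, 0) = H.ι (1, 0) * g := h
    rw [h']
    exact mul_inv_cancel_right _ _
  · intro h
    rw [h] at h1
    calc g * H.zz = (g * H.ι (1, 0) * g⁻¹) * g := by simp [zz]
      _ = H.zz * g := by rw [h1]; rfl

/-- The complement. -/
def K : Subgroup G := (H.s.comp (delta n)).range

theorem K_inj : Function.Injective (H.s.comp (delta n)) := by
  intro a b h
  apply delta_inj
  have := congrArg H.A h
  simpa [H.A_s] using this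

theorem K_le (g : G) (hg : g ∈ H.K) : g * H.zz = H.zz * g := by
  obtain ⟨β, rfl⟩ := hg
  rw [comm_iff]
  show H.A (H.s (delta n β)) (1, 0) = (1, 0)
  rw [H.A_s, delta_apply]
  simp

theorem normal_Q {c q : G} (hc : c * H.zz = H.zz * c) (hq : q ∈ H.Q) : c * q * c⁻¹ ∈ H.Q := by
  rw [comm_iff] at hc
  rw [mem_Q, map_mul, map_mul, map_inv]
  intro w
  have h1 : H.A q ((H.A c)⁻¹ w) = (H.A c)⁻¹ w + (lam (H.A q) ((H.A c)⁻¹ w).2, 0) := TT_apply hq _
  rw [LinearEquiv.mul_apply, LinearEquiv.mul_apply, h1, map_add, LL_inv, fix_line hc]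
  simp

/-- The decomposition of the centralizer. -/
theorem decomp {c : G} (hc : c * H.zz = H.zz * c) : ∃ q ∈ H.Q, ∃ k ∈ H.K, c = q * k := by
  rw [comm_iff] at hc
  obtain ⟨α, hα⟩ : ∃ α : LL n, α = H.A c := ⟨_, rfl⟩
  rw [← hα] at hc
  have hci : α⁻¹ (1, 0) = (1, 0) := by
    nth_rewrite 1 [← hc]
    exact LL_inv' α _
  have hsplit : ∀ y : WW n, (α y).2 = (α (0, y.2)).2 := by
    intro y
    nth_rewrite 1 [split_w y]
    rw [map_add, fix_line hc]
    simp
  have hsplit' : ∀ y : WW n, (α⁻¹ y).2 = (α⁻¹ (0, y.2)).2 := by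
    intro y
    nth_rewrite 1 [split_w y]
    rw [map_add, fix_line hci]
    simp
  let β : VV n ≃ₗ[ZMod 2] VV n :=
    { toFun := fun v => (α (0, v)).2
      invFun := fun v => (α⁻¹ (0, v)).2
      map_add' := by
        intro x y
        have : ((0, x + y) : WW n) = (0, x) + (0, y) := by simp
        rw [this, map_add]
        rfl
      map_smul' := by
        intro t x
        have : ((0, t • x) : WW n) = t • (0, x) := by simp
        rw [this, map_smul]
        rfl
      left_inv := by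
        intro v
        show (α⁻¹ (0, (α (0, v)).2)).2 = v
        rw [← hsplit', LL_inv']
      right_inv := by
        intro v
        show (α (0, (α⁻¹ (0, v)).2)).2 = v
        rw [← hsplit, LL_inv] }
  have hβ : ∀ v, β v = (α (0, v)).2 := fun v => rfl
  refine ⟨c * (H.s (delta n β))⁻¹, ?_, H.s (delta n β), ⟨β, rfl⟩, by group⟩
  rw [mem_Q, map_mul, map_inv, H.A_s, ← hα]
  intro w
  obtain ⟨y, rfl⟩ : ∃ y, w = delta n β y := ⟨(delta n β)⁻¹ w, (LL_inv _ _).symm⟩
  rw [LinearEquiv.mul_apply, LL_inv', hsplit, delta_apply, hβ]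

theorem Q_inf_K : H.Q ⊓ H.K = ⊥ := by
  rw [eq_bot_iff]
  rintro _ ⟨h1, ⟨β, rfl⟩⟩
  rw [Subgroup.mem_bot]
  have h2 : H.A (H.s (delta n β)) ∈ TT n := h1
  rw [H.A_s] at h2
  have hβ : β = 1 := by
    ext1 v
    exact h2 ((0, v) : WW n)
  rw [hβ]
  simp

theorem Q_self : Subgroup.centralizer (H.Q : Set G) ≤ H.Q := by
  intro x hx
  have h : H.A x = 1 := by
    ext1 w
    apply H.ι_inj'
    rw [← H.conj]
    have := Subgroup.mem_centralizer_iff.1 hx (H.ι w) (H.ι_mem w)
    rw [← this]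
    simp
  rw [mem_Q, h]
  exact one_mem _

/-- An element moving `z` inside `Q`. -/
theorem exists_conj (hn : 1 ≤ n) : ∃ g : G, g * H.zz * g⁻¹ ∈ H.Q ∧ g * H.zz * g⁻¹ ≠ H.zz := by
  classical
  let j : Fin n := ⟨0, hn⟩
  let γ : LL n :=
    { toFun := fun w => (w.1, w.2 + w.1 • Pi.single j 1)
      invFun := fun w => (w.1, w.2 + w.1 • Pi.single j 1)
      map_add' := by
        intro x y
        apply Prod.ext
        · rfl
        · simp only [Prod.fst_add, Prod.snd_add, add_smul]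
          abel
      map_smul' := by
        intro t x
        apply Prod.ext
        · rfl
        · simp only [Prod.smul_fst, Prod.smul_snd, RingHom.id_apply, smul_add, smul_smul, smul_eq_mul]
      left_inv := by
        intro w
        apply Prod.ext
        · rfl
        · show w.2 + w.1 • Pi.single j 1 + w.1 • Pi.single j 1 = w.2
          rw [add_assoc]
          have := w_add (n := n) ((0 : ZMod 2), w.1 • Pi.single j 1)
          have h2 := congrArg Prod.snd this
          simp only [Prod.snd_add, Prod.snd_zero] at h2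
          rw [h2, add_zero]
      right_inv := by
        intro w
        apply Prod.ext
        · rfl
        · show w.2 + w.1 • Pi.single j 1 + w.1 • Pi.single j 1 = w.2
          rw [add_assoc]
          have := w_add (n := n) ((0 : ZMod 2), w.1 • Pi.single j 1)
          have h2 := congrArg Prod.snd this
          simp only [Prod.snd_add, Prod.snd_zero] at h2
          rw [h2, add_zero] }
  have hγ : γ (1, 0) = (1, Pi.single j 1) := by
    show (((1 : ZMod 2), (0 : VV n) + (1 : ZMod 2) • Pi.single j 1)) = _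
    simp
  refine ⟨H.s γ, ?_, ?_⟩
  · rw [zz, H.conj, H.A_s, hγ]
    exact H.ι_mem _
  · rw [zz, H.conj, H.A_s, hγ]
    intro h
    have h4 := H.ι_inj' h
    have h5 := congrFun (congrArg Prod.snd h4) j
    simp at h5

/-- The parametrization of `Q`. -/
noncomputable def paramQ : (WW n × VV n) ≃ H.Q :=
  Equiv.ofBijective (fun t => ⟨H.ι t.1 * H.s (tf t.2), H.pr_mem _ (tf_mem _)⟩) (by
    constructor
    · rintro ⟨w, f⟩ ⟨w', f'⟩ h
      obtain ⟨h1, h2⟩ := H.pr_inj (congrArg Subtype.val h)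
      exact Prod.ext h1 (tf_inj h2)
    · rintro ⟨g, hg⟩
      obtain ⟨w, τ, hτ, rfl⟩ := H.exists_Q hg
      obtain ⟨f, rfl⟩ := exists_tf hτ
      exact ⟨(w, f), rfl⟩)

theorem card_Q : Nat.card H.Q = 2 ^ (2 * n + 1) := by
  rw [← Nat.card_congr H.paramQ, Nat.card_eq_fintype_card, Fintype.card_prod, Fintype.card_prod, Fintype.card_fun,
    ZMod.card, Fintype.card_fin]
  ring

/-- The isomorphism type of the complement. -/
noncomputable def equivK : ↥H.K ≃* Matrix.GeneralLinearGroup (Fin n) (ZMod 2) :=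
  ((MonoidHom.ofInjective H.K_inj).symm).trans
    ((LinearMap.GeneralLinearGroup.generalLinearEquiv (ZMod 2) (VV n)).symm.trans
      (Matrix.GeneralLinearGroup.toLin (n := Fin n) (R := ZMod 2)).symm)

/-- The main theorem. -/
theorem main [Finite G] (hn : 1 ≤ n) {C : Subgroup G} (hC : ∀ g, g ∈ C ↔ g * H.zz = H.zz * g) :
    (pCore 2 ↥C).map C.subtype = H.Q ∧ IsExtraspecial 2 ↥H.Q ∧ IsLargeExtraspecial H.Q ∧ H.Q ⊔ H.K = C ∧
      H.K ≤ C ∧ H.Q ⊓ H.K = ⊥ := by
  have hKC : H.K ≤ C := fun k hk => (hC k).2 (H.K_le k hk)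
  have hno : ∀ P : Subgroup ↥H.K, P.Normal → IsPGroup 2 P → P = ⊥ :=
    Cfsg.Agent.Lib.ThreeTrans.LGL.no_normal2_of_equiv H.equivK
      (fun P hP hP' => Cfsg.Agent.Lib.ThreeTrans.LGL.gl_no_normal2 P hP hP')
  obtain ⟨g, hg, hg'⟩ := H.exists_conj hn
  obtain ⟨h1, h2, h3, h4⟩ := Cfsg.Agent.Lib.ThreeTrans.LGL.abstract_large H.es (H.exists_noncomm hn) hC
    (fun c hc q hq => H.normal_Q ((hC c).1 hc) hq) hKC (fun c hc => H.decomp ((hC c).1 hc)) hno H.Q_self g hg hg'
  exact ⟨h1, h2, h3, h4, hKC, H.Q_inf_K⟩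

end Holo

/-- Coordinates on an elementary abelian group with a prescribed first basis vector. -/
theorem exists_coord {X : Type*} [CommGroup X] [Finite X] (h2 : ∀ x : X, x * x = 1) (hc : Nat.card X = 2 ^ (n + 1))
    (z : X) (hz : z ≠ 1) : ∃ e : X ≃* Multiplicative (WW n), e z = Multiplicative.ofAdd ((1, 0) : WW n) := by
  classical
  letI : Module (ZMod 2) (Additive X) := AddCommGroup.zmodModule (by
    intro x
    rw [two_smul]
    exact congrArg Additive.ofMul (h2 x.toMul))
  haveI : Fintype (Additive X) := Fintype.ofFinite _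
  haveI : Module.Finite (ZMod 2) (Additive X) := Module.Finite.of_finite
  have hf : Module.finrank (ZMod 2) (Additive X) = n + 1 := by
    have h1 := Module.card_eq_pow_finrank (K := ZMod 2) (V := Additive X)
    rw [ZMod.card, ← Nat.card_eq_fintype_card] at h1
    have h3 : Nat.card (Additive X) = Nat.card X := Nat.card_congr Additive.toMul
    rw [h3, hc] at h1
    exact (Nat.pow_right_injective (le_refl 2) h1).symm
  obtain ⟨zA, hzA⟩ : ∃ zA : Additive X, zA = Additive.ofMul z := ⟨_, rfl⟩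
  have hne : zA ≠ 0 := by
    rw [hzA]
    intro h
    exact hz (Additive.ofMul.injective h)
  obtain ⟨q, hq⟩ := Submodule.exists_isCompl (Submodule.span (ZMod 2) {zA})
  have hp1 : Module.finrank (ZMod 2) (Submodule.span (ZMod 2) {zA}) = 1 := finrank_span_singleton hne
  have hq1 := Submodule.finrank_add_eq_of_isCompl hq
  have hqn : Module.finrank (ZMod 2) (VV n) = Module.finrank (ZMod 2) q := by
    rw [Module.finrank_fintype_fun_eq_card, Fintype.card_fin]
    omega
  let E₂ : VV n ≃ₗ[ZMod 2] q := LinearEquiv.ofFinrankEq _ _ hqn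
  let E₁ : ZMod 2 ≃ₗ[ZMod 2] (Submodule.span (ZMod 2) {zA}) := LinearEquiv.toSpanNonzeroSingleton _ _ zA hne
  let E : WW n ≃ₗ[ZMod 2] Additive X := (E₁.prodCongr E₂).trans (Submodule.prodEquivOfIsCompl _ q hq)
  have hE : E (1, 0) = zA := by
    show (((E₁ 1 : Submodule.span (ZMod 2) {zA}) : Additive X) + ((E₂ 0 : q) : Additive X)) = zA
    rw [map_zero]
    simp [E₁, LinearEquiv.toSpanNonzeroSingleton_one]
  refine ⟨{ toFun := fun x => Multiplicative.ofAdd (E.symm (Additive.ofMul x))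
            invFun := fun w => (E (Multiplicative.toAdd w)).toMul
            left_inv := fun x => by simp
            right_inv := fun w => by simp
            map_mul' := fun x y => by
              rw [ofMul_mul, map_add, ofAdd_add] }, ?_⟩
  show Multiplicative.ofAdd (E.symm (Additive.ofMul z)) = _
  rw [← hzA, ← hE, LinearEquiv.symm_apply_apply]

/-- The holomorph data. -/
theorem exists_holo {G : Type*} [Group G] [Finite G] (U M : Subgroup G) [hUn : U.Normal]
    (hcomm : ∀ a ∈ U, ∀ b ∈ U, a * b = b * a) (hUM' : U ⊔ M = ⊤)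
    (hfaith : ∀ m ∈ M, (∀ u ∈ U, m * u * m⁻¹ = u) → m = 1)
    (hfull : ∀ φ : ↥U ≃* ↥U, ∃ m ∈ M, ∀ u : ↥U, ((φ u : ↥U) : G) = m * u * m⁻¹)
    (z : G) (hzU : z ∈ U) (e : ↥U ≃* Multiplicative (WW n))
    (hez : e ⟨z, hzU⟩ = Multiplicative.ofAdd ((1, 0) : WW n)) :
    ∃ H : Holo G n, H.zz = z ∧ ∀ u ∈ U, ∃ w, u = H.ι w := by
  classical
  let ι : WW n → G := fun w => ((e.symm (Multiplicative.ofAdd w) : ↥U) : G)
  have ι_mem : ∀ w, ι w ∈ U := fun w => (e.symm (Multiplicative.ofAdd w)).2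
  let ε : (x : G) → x ∈ U → WW n := fun x hx => Multiplicative.toAdd (e ⟨x, hx⟩)
  have ι_ε : ∀ x hx, ι (ε x hx) = x := by
    intro x hx
    simp [ι, ε]
  have ε_ι : ∀ w h, ε (ι w) h = w := by
    intro w h
    simp [ι, ε]
  have ι_add : ∀ w w', ι (w + w') = ι w * ι w' := by
    intro w w'
    simp only [ι, ofAdd_add, map_mul, Subgroup.coe_mul]
  have ι_zero : ι 0 = 1 := by
    simp [ι]
  have ι_one : ∀ w, ι w = 1 → w = 0 := by
    intro w h
    have h1 : e.symm (Multiplicative.ofAdd w) = 1 := Subtype.ext h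
    have h2 : Multiplicative.ofAdd w = 1 := by
      have := congrArg e h1
      simpa using this
    exact Multiplicative.ofAdd.injective h2
  have ι_sq : ∀ w : WW n, ι w * ι w = 1 := by
    intro w
    rw [← ι_add, w_add, ι_zero]
  have ι_inj : ∀ a b, ι a = ι b → a = b := by
    intro a b h
    have h1 : ι (a + b) = 1 := by
      rw [ι_add, h, ι_sq]
    have h2 := ι_one _ h1
    calc a = a + (b + b) := by rw [w_add, add_zero]
      _ = (a + b) + b := by rw [add_assoc]
      _ = b := by rw [h2, zero_add]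
  have hconj : ∀ (g : G) (w : WW n), g * ι w * g⁻¹ ∈ U := fun g w => hUn.conj_mem _ (ι_mem w) g
  have hconj' : ∀ (g : G) (w : WW n), g⁻¹ * ι w * g ∈ U := fun g w => by
    have := hUn.conj_mem _ (ι_mem w) g⁻¹
    rwa [inv_inv] at this
  let Af : G → LL n := fun g =>
    { toFun := fun w => ε (g * ι w * g⁻¹) (hconj g w)
      invFun := fun w => ε (g⁻¹ * ι w * g) (hconj' g w)
      map_add' := by
        intro x y
        apply ι_inj
        have h0 := ι_add (ε (g * ι x * g⁻¹) (hconj g x)) (ε (g * ι y * g⁻¹) (hconj g y))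
        show ι (ε (g * ι (x + y) * g⁻¹) (hconj g (x + y))) = ι (ε _ (hconj g x) + ε _ (hconj g y))
        rw [h0, ι_ε, ι_ε, ι_ε, ι_add]
        group
      map_smul' := by
        intro t x
        apply ι_inj
        rcases z2_cases t with rfl | rfl
        · simp only [zero_smul, RingHom.id_apply]
          rw [ι_ε, ι_zero]
          simp
        · simp only [one_smul, RingHom.id_apply]
      left_inv := by
        intro w
        apply ι_inj
        rw [ι_ε, ι_ε]
        group
      right_inv := by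
        intro w
        apply ι_inj
        rw [ι_ε, ι_ε]
        group }
  have Af_spec : ∀ g w, ι (Af g w) = g * ι w * g⁻¹ := fun g w => ι_ε _ _
  let A : G →* LL n := MonoidHom.mk' Af (by
    intro a b
    ext1 w
    apply ι_inj
    rw [Af_spec, LinearEquiv.mul_apply, Af_spec, Af_spec]
    group)
  have A_spec : ∀ g w, ι (A g w) = g * ι w * g⁻¹ := Af_spec
  have A_U : ∀ u ∈ U, A u = 1 := by
    intro u hu
    ext1 w
    apply ι_inj
    rw [A_spec, hcomm u hu _ (ι_mem w), mul_inv_cancel_right]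
    rfl
  let AM : ↥M →* LL n := A.comp M.subtype
  have hAMinj : Function.Injective AM := by
    rw [injective_iff_map_eq_one]
    rintro ⟨m, hm⟩ h
    apply Subtype.ext
    apply hfaith m hm
    intro u hu
    have h1 : A m = 1 := h
    have h2 := A_spec m (ε u hu)
    rw [h1, ι_ε] at h2
    rw [← h2]
    exact ι_ε u hu
  have hAMsurj : Function.Surjective AM := by
    intro α
    let φ : ↥U ≃* ↥U := e.trans ((AddEquiv.toMultiplicative α.toAddEquiv).trans e.symm)
    obtain ⟨m, hm, hmφ⟩ := hfull φ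
    refine ⟨⟨m, hm⟩, ?_⟩
    ext1 w
    apply ι_inj
    show ι (A m w) = ι (α w)
    rw [A_spec]
    have h1 := hmφ (e.symm (Multiplicative.ofAdd w))
    rw [← h1]
    simp [φ, ι]
  let AE : ↥M ≃* LL n := MulEquiv.ofBijective AM ⟨hAMinj, hAMsurj⟩
  let s : LL n →* G := M.subtype.comp AE.symm.toMonoidHom
  have A_s : ∀ α, A (s α) = α := by
    intro α
    show AM (AE.symm α) = α
    exact AE.apply_symm_apply α
  have hker : ∀ g, A g = 1 → ∃ w, g = ι w := by
    intro g hg
    have hg' : g ∈ ((U ⊔ M : Subgroup G) : Set G) := by rw [hUM']; exact Subgroup.mem_top g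
    rw [Subgroup.normal_mul] at hg'
    obtain ⟨u, hu, m, hm, rfl⟩ := Set.mem_mul.1 hg'
    have h1 : A m = 1 := by
      rw [map_mul, A_U u hu, one_mul] at hg
      exact hg
    have h2 : (⟨m, hm⟩ : ↥M) = 1 := by
      apply hAMinj
      rw [map_one]
      exact h1
    have h3 : m = 1 := congrArg Subtype.val h2
    refine ⟨ε u hu, ?_⟩
    rw [h3, mul_one, ι_ε]
  refine ⟨{ ι := ι, s := s, A := A, ι_add := ι_add, conj := fun g w => (A_spec g w).symm, A_s := A_s,
            ker := hker, ι_inj := ι_one }, ?_, ?_⟩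
  · show ι (1, 0) = z
    have h1 : (⟨z, hzU⟩ : ↥U) = e.symm (Multiplicative.ofAdd ((1, 0) : WW n)) := by
      rw [← hez]
      simp
    show ((e.symm (Multiplicative.ofAdd ((1, 0) : WW n)) : ↥U) : G) = z
    rw [← h1]
  · intro u hu
    exact ⟨ε u hu, (ι_ε u hu).symm⟩

/-- The statement on the holomorph. -/
theorem main {G : Type*} [Group G] [Finite G] (hn : 1 ≤ n) (U M : Subgroup G) [U.Normal]
    (hU : Cfsg.IsElementaryAbelian 2 U) (hUcard : Nat.card ↥U = 2 ^ (n + 1)) (hUM' : U ⊔ M = ⊤)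
    (hfaith : ∀ m ∈ M, (∀ u ∈ U, m * u * m⁻¹ = u) → m = 1)
    (hfull : ∀ φ : ↥U ≃* ↥U, ∃ m ∈ M, ∀ u : ↥U, ((φ u : ↥U) : G) = m * u * m⁻¹)
    (Z : Subgroup G) (hZU : Z ≤ U) (hZ : Nat.card ↥Z = 2) (Q : Subgroup G)
    (hQ : Q = (Cfsg.pCore 2 ↥(Subgroup.centralizer (Z : Set G))).map (Subgroup.centralizer (Z : Set G)).subtype) :
    Cfsg.IsExtraspecial 2 ↥Q ∧ Nat.card ↥Q = 2 ^ (2 * n + 1) ∧
    (∃ E : Subgroup G, E ≤ Q ∧ Cfsg.IsElementaryAbelian 2 E ∧ Nat.card ↥E = 2 ^ (n + 1)) ∧
    Cfsg.IsLargeExtraspecial Q ∧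
    ∃ K : Subgroup G, K ≤ Subgroup.centralizer (Z : Set G) ∧ Q ⊓ K = ⊥ ∧ Q ⊔ K = Subgroup.centralizer (Z : Set G) ∧
      Nonempty (↥K ≃* Matrix.GeneralLinearGroup (Fin n) (ZMod 2)) := by
  classical
  obtain ⟨⟨z, hzZ⟩, hz1, huniq⟩ := (Nat.card_eq_two_iff' (1 : ↥Z)).1 hZ
  have hz1' : z ≠ 1 := fun h => hz1 (Subtype.ext h)
  have hzU := hZU hzZ
  have hcomm : ∀ a ∈ U, ∀ b ∈ U, a * b = b * a := by
    intro a ha b hb
    have := hU.1
    have h1 := mul_comm' (⟨a, ha⟩ : ↥U) ⟨b, hb⟩
    exact congrArg Subtype.val h1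
  have hsq : ∀ x : ↥U, x * x = 1 := by
    rintro ⟨x, hx⟩
    apply Subtype.ext
    have := hU.2 x hx
    simpa [pow_two] using this
  letI : CommGroup ↥U :=
    { (inferInstance : Group ↥U) with
      mul_comm := fun a b => Subtype.ext (hcomm a a.2 b b.2) }
  obtain ⟨e, he⟩ := exists_coord (n := n) hsq hUcard ⟨z, hzU⟩ (fun h => hz1' (congrArg Subtype.val h))
  obtain ⟨H, hHz, hHU⟩ := exists_holo U M hcomm hUM' hfaith hfull z hzU e he
  have hC : ∀ g, g ∈ Subgroup.centralizer (Z : Set G) ↔ g * H.zz = H.zz * g := by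
    intro g
    rw [hHz, Subgroup.mem_centralizer_iff]
    constructor
    · intro h
      exact (h z hzZ).symm
    · intro h a ha
      by_cases ha1 : a = 1
      · subst ha1
        simp
      · have h2 := huniq ⟨a, ha⟩ (fun h3 => ha1 (congrArg Subtype.val h3))
        have h3 : a = z := congrArg Subtype.val h2
        subst h3
        exact h.symm
  obtain ⟨h1, h2, h3, h4, h5, h6⟩ := H.main hn hC
  rw [h1] at hQ
  subst hQ
  refine ⟨h2, H.card_Q, ⟨U, ?_, hU, hUcard⟩, h3, H.K, h5, h6, h4, ⟨H.equivK⟩⟩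
  intro u hu
  obtain ⟨w, rfl⟩ := hHU u hu
  exact H.ι_mem w

end Cfsg.Agent.Lib.ThreeTrans.HL
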