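import Mathlib
import Cfsg.Prelude.Def_FischerSpaces
import Cfsg.Agent.Lib.Classical.OrthRc

/-!
# Reflections of one norm over the field with three elements

The index of the group generated by reflections of one square class, in all dimensions at least five over `F₃`
(no parity hypothesis), and the reflections of norm `c` as a class of 3-transpositions.
-/

set_option autoImplicit false
set_option linter.unusedSimpArgs false
set_option linter.unusedVariables false
set_option linter.unusedSectionVars false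
set_option linter.style.haveILetI false

namespace Cfsg.Agent.Lib.ThreeTrans.RM

open Matrix Module Cfsg.Agent.Lib.Classical

section general

variable {F : Type*} [Field F] {ι : Type} [Fintype ι] [DecidableEq ι] {Q : QuadraticForm F (ι → F)}

local notation "bb" => QuadraticMap.polar (DFunLike.coe Q)

variable [Fintype F]

/-- The key statement: products of two reflections with equal values. -/
theorem mul_mem_rcGen' (h2 : (2 : F) ≠ 0) (hQ : (QuadraticMap.polarBilin Q).Nondegenerate)
    (hdim : Fintype.card F = 3 → 5 ≤ Fintype.card ι)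
    {w w' : ι → F} {d : F} (hw : Q w = d) (hw' : Q w' = d) (hd : d ≠ 0) {c : F} (hc : c ≠ 0)
    (hw0 : Q w ≠ 0) (hw0' : Q w' ≠ 0) : rf w hw0 * rf w' hw0' ∈ rcGen Q c := by
  by_cases hne : (bb w w') ^ 2 = 4 * d ^ 2
  swap
  · exact plane_mem_rcGen h2 hw hw' hd hne hc hw0 hw0'
  -- reduce to the case `e = 2 d`
  wlog he : bb w w' = 2 * d generalizing w'
  · have he' : bb w w' = -(2 * d) := by
      have : (bb w w' - 2 * d) * (bb w w' + 2 * d) = 0 := by linear_combination hne
      rcases mul_eq_zero.1 this with h | h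
      · exact absurd (sub_eq_zero.1 h) he
      · exact eq_neg_of_add_eq_zero_left h
    have hq : Q (-w') = d := by rw [q_neg, hw']
    have hq0 : Q (-w') ≠ 0 := by rwa [hq]
    have := this hq hq0 (by rw [polar_neg_r, neg_sq, hne]) (by rw [polar_neg_r, he', neg_neg])
    rwa [rf_neg hw0' hq0] at this
  set s : ι → F := w - w' with hs
  by_cases hs0 : s = 0
  · have hww : w' = w := (sub_eq_zero.1 hs0).symm
    subst hww
    rw [rf_sq]
    exact one_mem _
  have hQs : Q s = 0 := by
    rw [hs, q_sub, hw, hw', he]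
    ring
  have hws : bb w s = 0 := by
    rw [hs, polar_sub_r, he, polar_self2, hw]
    ring
  have hw's : bb w' s = 0 := by
    rw [hs, polar_sub_r, polar_self2, hw', polar_symm, he]
    ring
  have h2d : bb w w ≠ 0 := by
    rw [polar_self2, hw]
    exact mul_ne_zero h2 hd
  let P : Submodule F (ι → F) := Submodule.span F {w}
  have hw00 : w ≠ 0 := by
    rintro rfl
    exact hw0 q_zero
  have hPnd : QND Q P := by
    intro u hu h
    obtain ⟨α, rfl⟩ := Submodule.mem_span_singleton.1 hu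
    have h1 := h w (Submodule.mem_span_singleton_self w)
    rw [polar_smul_l] at h1
    rw [(mul_eq_zero.1 h1).resolve_right h2d, zero_smul]
  have hC : QND Q (qPerp Q P) := by
    have := qnd_inf_perp (qnd_top hQ) hPnd le_top
    rwa [top_inf_eq] at this
  have hsC : s ∈ qPerp Q P := by
    rw [mem_perp_span, polar_symm]
    exact hws
  obtain ⟨t, htC, hQt, hst⟩ := exists_partner_in_qnd hC hsC hs0 hQs
  have hwt : bb w t = 0 := by
    rw [polar_symm]
    exact mem_perp_span.1 htC
  have hts : bb t s = 1 := by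
    rw [polar_symm, hst]
  have hss : bb s s = 0 := polar_self_of_singular hQs
  have htt : bb t t = 0 := polar_self_of_singular hQt
  by_cases hq : Fintype.card F ≤ 3
  · -- the field with three elements, dimension at least six
    have hcardF : Fintype.card F = 3 := by
      have h3 := odd_card_of_two_ne_zero h2
      have h4 := Fintype.one_lt_card (α := F)
      omega
    let H : Submodule F (ι → F) := Submodule.span F {s} ⊔ Submodule.span F {t}
    have hHnd : QND Q H := by
      intro u hu h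
      obtain ⟨u₁, hu₁, u₂, hu₂, rfl⟩ := Submodule.mem_sup.1 hu
      obtain ⟨α, rfl⟩ := Submodule.mem_span_singleton.1 hu₁
      obtain ⟨β, rfl⟩ := Submodule.mem_span_singleton.1 hu₂
      have h1 := h s (Submodule.mem_sup_left (Submodule.mem_span_singleton_self s))
      have h3 := h t (Submodule.mem_sup_right (Submodule.mem_span_singleton_self t))
      rw [polar_add_l, polar_smul_l, polar_smul_l, hss, hts] at h1
      rw [polar_add_l, polar_smul_l, polar_smul_l, hst, htt] at h3
      have hα : α = 0 := by linear_combination h3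
      have hβ : β = 0 := by linear_combination h1
      rw [hα, hβ]
      simp
    have hHr : finrank F H = 2 := by
      have h1 := Submodule.finrank_sup_add_finrank_inf_eq (Submodule.span F {s}) (Submodule.span F {t})
      have ht0 : t ≠ 0 := by
        rintro rfl
        rw [polar_zero_r] at hst
        exact zero_ne_one hst
      have h3 : Submodule.span F {s} ⊓ Submodule.span F {t} = ⊥ := by
        rw [Submodule.eq_bot_iff]
        rintro x ⟨hx, hy⟩
        obtain ⟨α, rfl⟩ := Submodule.mem_span_singleton.1 hx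
        obtain ⟨β, hβ⟩ := Submodule.mem_span_singleton.1 hy
        have h4 : bb (α • s) s = bb (β • t) s := by rw [hβ]
        rw [polar_smul_l, polar_smul_l, hss, hts] at h4
        have hβ0 : β = 0 := by linear_combination -h4
        rw [← hβ, hβ0, zero_smul]
      rw [h3, finrank_bot, add_zero, finrank_span_singleton hs0, finrank_span_singleton ht0] at h1
      exact h1
    have hwH : w ∈ qPerp Q H := by
      intro y hy
      obtain ⟨u₁, hu₁, u₂, hu₂, rfl⟩ := Submodule.mem_sup.1 hy
      obtain ⟨α, rfl⟩ := Submodule.mem_span_singleton.1 hu₁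
      obtain ⟨β, rfl⟩ := Submodule.mem_span_singleton.1 hu₂
      rw [polar_add_r, polar_smul_r, polar_smul_r, hws, hwt]
      ring
    have hUnd := qnd_sup_span hHnd hwH h2d
    have hUr := finrank_sup_span hHnd hwH hw00
    set U := H ⊔ Submodule.span F {w} with hU
    have hperp : QND Q (qPerp Q U) := by
      have := qnd_inf_perp (qnd_top hQ) hUnd le_top
      rwa [top_inf_eq] at this
    have hfr := qnd_finrank (W := ⊤) hUnd le_top
    rw [top_inf_eq, finrank_top, hUr, hHr, Module.finrank_fintype_fun_eq_card] at hfr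
    have hn : 2 ≤ finrank F (qPerp Q U) := by
      have h4 := hdim hcardF
      omega
    have hperp' : ∀ y ∈ qPerp Q U, (∀ z ∈ qPerp Q U, bb z y = 0) → y = 0 := by
      intro y hy h
      apply hperp y hy
      intro z hz
      rw [polar_symm]
      exact h z hz
    obtain ⟨p, hpU, hQp⟩ := Cfsg.Agent.Lib.Spinor.exists_val_sub (Q := Q) hperp' hn hd
    have hQp0 : Q p ≠ 0 := by rwa [hQp]
    have hwp : bb w p = 0 := by
      rw [polar_symm]
      exact hpU w (Submodule.mem_sup_right (Submodule.mem_span_singleton_self w))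
    have hsp : bb s p = 0 := by
      rw [polar_symm]
      exact hpU s (Submodule.mem_sup_left (Submodule.mem_sup_left (Submodule.mem_span_singleton_self s)))
    have hpw' : bb p w' = 0 := by
      have : w' = w - s := by rw [hs]; abel
      rw [this, polar_sub_r, polar_symm, hwp, polar_symm p s, hsp, sub_zero]
    have h4d : (0 : F) ^ 2 ≠ 4 * d ^ 2 := by
      intro h
      have h5 : (2 * d) * (2 * d) = 0 := by linear_combination -h
      rcases mul_eq_zero.1 h5 with h6 | h6 <;> exact (mul_ne_zero h2 hd) h6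
    have e1 : rf w hw0 * rf w' hw0' = (rf w hw0 * rf p hQp0) * (rf p hQp0 * rf w' hw0') := by
      rw [mul_assoc, ← mul_assoc (rf p hQp0), rf_sq, one_mul]
    rw [e1]
    exact mul_mem (plane_mem_rcGen h2 hw hQp hd (by rw [hwp]; exact h4d) hc hw0 hQp0)
      (plane_mem_rcGen h2 hQp hw' hd (by rw [hpw']; exact h4d) hc hQp0 hw0')
  · -- at least five elements
    classical
    obtain ⟨u, -, hu⟩ : ∃ u ∈ (Finset.univ : Finset F), u ∉ ({0, 2 * d, -(2 * d)} : Finset F) := by
      apply Finset.exists_mem_notMem_of_card_lt_card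
      refine lt_of_le_of_lt (Finset.card_le_three) ?_
      rw [Finset.card_univ]
      omega
    simp only [Finset.mem_insert, Finset.mem_singleton, not_or] at hu
    obtain ⟨hu0, hu1, hu2⟩ := hu
    set z : ι → F := (d / u) • s + u • t with hz
    have hQz : Q z = d := by
      rw [hz, q_add, q_smul, q_smul, hQs, hQt, polar_smul_l, polar_smul_r, hst]
      field_simp
      ring
    have hQz0 : Q z ≠ 0 := by rwa [hQz]
    have hwz : bb w z = 0 := by
      rw [hz, polar_add_r, polar_smul_r, polar_smul_r, hws, hwt]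
      ring
    have hzw' : bb z w' = -u := by
      have : w' = w - s := by rw [hs]; abel
      rw [this, polar_sub_r, polar_symm, hwz, hz, polar_add_l, polar_smul_l, polar_smul_l, hss, hts]
      ring
    have h4d : (0 : F) ^ 2 ≠ 4 * d ^ 2 := by
      intro h
      have h5 : (2 * d) * (2 * d) = 0 := by linear_combination -h
      rcases mul_eq_zero.1 h5 with h6 | h6 <;> exact (mul_ne_zero h2 hd) h6
    have hu4 : (bb z w') ^ 2 ≠ 4 * d ^ 2 := by
      rw [hzw', neg_sq]
      intro h
      have : (u - 2 * d) * (u + 2 * d) = 0 := by linear_combination h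
      rcases mul_eq_zero.1 this with h | h
      · exact hu1 (sub_eq_zero.1 h)
      · exact hu2 (eq_neg_of_add_eq_zero_left h)
    have e1 : rf w hw0 * rf w' hw0' = (rf w hw0 * rf z hQz0) * (rf z hQz0 * rf w' hw0') := by
      rw [mul_assoc, ← mul_assoc (rf z hQz0), rf_sq, one_mul]
    rw [e1]
    exact mul_mem (plane_mem_rcGen h2 hw hQz hd (by rw [hwz]; exact h4d) hc hw0 hQz0)
      (plane_mem_rcGen h2 hQz hw' hd hu4 hc hQz0 hw0')

/-- The index of the subgroup of a square class. -/
theorem rcGen_index' (h2 : (2 : F) ≠ 0) (hQ : (QuadraticMap.polarBilin Q).Nondegenerate)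
    (hcard : 2 ≤ Fintype.card ι) (hdim : Fintype.card F = 3 → 5 ≤ Fintype.card ι)
    {c : F} (hc : c ≠ 0) : (rcGen Q c).index = 2 := by
  classical
  have hchar : ringChar F ≠ 2 := by
    intro h
    apply h2
    have : CharP F 2 := by rw [← h]; exact ringChar.charP F
    exact CharTwo.two_eq_zero
  haveI hN := rcGen_normal Q c hc
  obtain ⟨χ, hχ⟩ := exists_class_char h2 hQ hc
  -- a non-square
  obtain ⟨ε, hε⟩ := FiniteField.exists_nonsquare hchar
  have hε0 : ε ≠ 0 := by
    rintro rfl
    exact hε IsSquare.zero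
  obtain ⟨w₁, hw₁⟩ := exists_value h2 hQ hcard (c * ε)
  have hw₁0 : Q w₁ ≠ 0 := by
    rw [hw₁]
    exact mul_ne_zero hc hε0
  have hnon : ¬ IsSquare (Q w₁ / c) := by
    rw [hw₁, mul_div_cancel_left₀ _ hc]
    exact hε
  set r₁ := rf w₁ hw₁0 with hr₁
  have hχ₁ : χ r₁ = -1 := (hχ w₁ hw₁0).2 hnon
  have hR : ∀ g ∈ rcGen Q c, χ g = 1 := by
    have : rcGen Q c ≤ χ.ker := by
      rw [rcGen, Subgroup.closure_le]
      rintro g ⟨v, t, ht, hv, hg⟩
      have hv0 : Q v ≠ 0 := by
        rw [hv]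
        exact mul_ne_zero hc (pow_ne_zero _ ht)
      have hg' : g = rf v hv0 := by
        apply Subtype.ext
        apply Units.ext
        exact hg
      rw [SetLike.mem_coe, MonoidHom.mem_ker, hg']
      apply (hχ v hv0).1
      rw [hv, mul_div_cancel_left₀ _ hc]
      exact ⟨t, by ring⟩
    exact fun g hg => this hg
  -- a reflection outside the class differs from `r₁` by an element of the subgroup
  have hstep : ∀ (v : ι → F) (hv : Q v ≠ 0), rf v hv ∈ rcGen Q c ∨ rf v hv * r₁ ∈ rcGen Q c := by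
    intro v hv
    by_cases hs : IsSquare (Q v / c)
    · left
      obtain ⟨t, ht⟩ := hs
      have ht0 : t ≠ 0 := by
        rintro rfl
        rw [mul_zero] at ht
        exact (div_ne_zero hv hc) ht
      exact rf_mem_rcGen hv ht0 (by
        rw [pow_two, ← ht]
        field_simp)
    · right
      -- the quotient of the two values is a square
      have hqs : IsSquare (Q v / Q w₁) := by
        have h1 : quadraticChar F (Q v / Q w₁) = 1 := by
          have e1 : Q v / Q w₁ * (Q w₁ / c) = Q v / c := by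
            field_simp
          have h3 := congrArg (quadraticChar F) e1
          rw [map_mul, (quadraticChar_neg_one_iff_not_isSquare).2 hnon, (quadraticChar_neg_one_iff_not_isSquare).2 hs] at h3
          linarith
        exact (quadraticChar_one_iff_isSquare (div_ne_zero hv hw₁0)).1 h1
      obtain ⟨σ, hσ⟩ := hqs
      have hσ0 : σ ≠ 0 := by
        rintro rfl
        rw [mul_zero] at hσ
        exact (div_ne_zero hv hw₁0) hσ
      have hQ' : Q (σ⁻¹ • v) = Q w₁ := by
        rw [q_smul]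
        have : Q v = σ * σ * Q w₁ := by
          rw [← hσ]
          field_simp
        rw [this]
        field_simp
      have hQ'0 : Q (σ⁻¹ • v) ≠ 0 := by rwa [hQ']
      rw [← rf_smul hv (inv_ne_zero hσ0) hQ'0]
      exact mul_mem_rcGen' h2 hQ hdim hQ' rfl hw₁0 hc hQ'0 hw₁0
  have hr₁r₁ : r₁ * r₁ = 1 := rf_sq _ _
  have hall : ∀ g : OG Q, g ∈ rcGen Q c ∨ g * r₁ ∈ rcGen Q c := by
    intro g
    have hg : g ∈ rGen Q ⊤ := by
      rw [rGen_top_odd h2 hQ]
      exact Subgroup.mem_top g
    induction hg using Subgroup.closure_induction with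
    | mem x hx =>
      obtain ⟨v, hv, -, rfl⟩ := hx
      exact hstep v hv
    | one => exact Or.inl (one_mem _)
    | mul a b _ _ ha hb =>
      rcases ha with ha | ha <;> rcases hb with hb | hb
      · exact Or.inl (mul_mem ha hb)
      · right
        rw [mul_assoc]
        exact mul_mem ha hb
      · right
        have : a * b * r₁ = (a * r₁) * (r₁⁻¹ * b * r₁) := by group
        rw [this]
        have h3 : r₁⁻¹ * b * r₁ ∈ rcGen Q c := by
          have := hN.conj_mem b hb r₁⁻¹
          rwa [inv_inv] at this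
        exact mul_mem ha h3
      · left
        have : a * b = (a * r₁) * (r₁⁻¹ * (b * r₁) * r₁) * r₁⁻¹ * r₁⁻¹ := by
          rw [show r₁⁻¹ = r₁ from inv_eq_of_mul_eq_one_left hr₁r₁]
          simp only [mul_assoc, hr₁r₁, mul_one]
          rw [← mul_assoc r₁ r₁, hr₁r₁, one_mul]
        rw [this]
        have h3 : r₁⁻¹ * (b * r₁) * r₁ ∈ rcGen Q c := by
          have := hN.conj_mem (b * r₁) hb r₁⁻¹
          rwa [inv_inv] at this
        have h4 : r₁⁻¹ * r₁⁻¹ = 1 := by
          rw [show r₁⁻¹ = r₁ from inv_eq_of_mul_eq_one_left hr₁r₁, hr₁r₁]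
        rw [mul_assoc _ r₁⁻¹ r₁⁻¹, h4, mul_one]
        exact mul_mem ha h3
    | inv a _ ha =>
      rcases ha with ha | ha
      · exact Or.inl (inv_mem ha)
      · right
        have : a⁻¹ * r₁ = r₁⁻¹ * (a * r₁)⁻¹ * r₁ := by
          rw [show r₁⁻¹ = r₁ from inv_eq_of_mul_eq_one_left hr₁r₁]
          rw [_root_.mul_inv_rev, show r₁⁻¹ = r₁ from inv_eq_of_mul_eq_one_left hr₁r₁]
          simp only [mul_assoc, hr₁r₁, mul_one]
          rw [← mul_assoc r₁ r₁, hr₁r₁, one_mul]
        rw [this]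
        have := hN.conj_mem _ (inv_mem ha) r₁⁻¹
        rwa [inv_inv] at this
  rw [Subgroup.index_eq_two_iff]
  refine ⟨r₁, fun g => ?_⟩
  by_cases hg : g ∈ rcGen Q c
  · refine Or.inr ⟨hg, ?_⟩
    intro h
    have h3 := hR _ h
    rw [map_mul, hR g hg, hχ₁] at h3
    simp at h3
  · refine Or.inl ⟨(hall g).resolve_left hg, hg⟩

end general

section three

variable {ι : Type} [Fintype ι] [DecidableEq ι] {Q : QuadraticForm (ZMod 3) (ι → ZMod 3)}

local notation "bb" => QuadraticMap.polar (DFunLike.coe Q)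

theorem two_ne : (2 : ZMod 3) ≠ 0 := by decide

theorem card_z3 : Fintype.card (ZMod 3) = 3 := ZMod.card 3

/-- Over `F₃`, the subgroup of a square class is the reflection subgroup. -/
theorem rcGen_eq (c : ZMod 3) : rcGen Q c = Cfsg.reflectionSubgroup (⇑Q) c := by
  unfold rcGen Cfsg.reflectionSubgroup Cfsg.reflectionsOfNorm
  congr 1
  ext g
  constructor
  · rintro ⟨v, t, ht, hv, hg⟩
    have ht2 : ∀ t : ZMod 3, t ≠ 0 → t ^ 2 = 1 := by decide
    refine ⟨v, ?_, hg⟩
    rw [hv, ht2 t ht, mul_one]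
  · rintro ⟨v, hv, hg⟩
    refine ⟨v, 1, one_ne_zero, ?_, hg⟩
    rw [hv]; ring

/-- The index statement. -/
theorem reflectionSubgroup_index (hQ : (QuadraticMap.polarBilin Q).Nondegenerate) (hn : 5 ≤ Fintype.card ι)
    {c : ZMod 3} (hc : c ≠ 0) : (Cfsg.reflectionSubgroup (⇑Q) c).index = 2 := by
  rw [← rcGen_eq]
  exact rcGen_index' two_ne hQ (by omega) (fun _ => hn) hc

/-- A reflection of norm `c`. -/
theorem exists_rf_of_mem {c : ZMod 3} (hc : c ≠ 0) {g : OG Q} (hg : g ∈ Cfsg.reflectionsOfNorm (⇑Q) c) :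
    ∃ (v : ι → ZMod 3) (hv : Q v = c) (hv0 : Q v ≠ 0), g = rf v hv0 := by
  obtain ⟨v, hv, hg'⟩ := hg
  have hv0 : Q v ≠ 0 := by rwa [hv]
  refine ⟨v, hv, hv0, ?_⟩
  apply Subtype.ext
  apply Units.ext
  exact hg'

theorem rf_mem {c : ZMod 3} {v : ι → ZMod 3} (hv : Q v = c) (hv0 : Q v ≠ 0) :
    rf v hv0 ∈ Cfsg.reflectionsOfNorm (⇑Q) c := ⟨v, hv, rfl⟩

theorem rf_ne_one {v : ι → ZMod 3} (hv0 : Q v ≠ 0) : rf v hv0 ≠ 1 := by
  intro h
  have h1 := rf_self v hv0
  rw [h, oM_one] at h1
  apply hv0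
  have h3 : (2 : ZMod 3) • v = 0 := by
    rw [two_smul]
    nth_rewrite 1 [h1]
    simp
  have h4 : v = 0 := by
    have := smul_eq_zero.1 h3
    rcases this with h5 | h5
    · exact absurd h5 two_ne
    · exact h5
  rw [h4]
  exact q_zero

theorem unit_cases : ∀ e : ZMod 3, e ≠ 0 → e = 1 ∨ e = -1 := by decide

/-- The braid relation for non-orthogonal reflections of the same norm. -/
theorem rf_braid {u v : ι → ZMod 3} (hu : Q u ≠ 0) (hv : Q v ≠ 0) (huv : Q u = Q v) (he : bb u v ≠ 0) :
    rf u hu * rf v hv * rf u hu = rf v hv * rf u hu * rf v hv := by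
  have e1 : rf u hu * rf v hv * rf u hu = rf (oM (rf u hu) *ᵥ v) (oM_rf_ne hv) := by
    rw [← rf_conj, rf_inv]
  have e2 : rf v hv * rf u hu * rf v hv = rf (oM (rf v hv) *ᵥ u) (oM_rf_ne hu) := by
    rw [← rf_conj, rf_inv]
  rw [e1, e2]
  set ε : ZMod 3 := (Q u)⁻¹ * bb u v with hε
  have hε0 : ε ≠ 0 := mul_ne_zero (inv_ne_zero hu) he
  have hε2 : ε * ε = 1 := by
    rcases unit_cases ε hε0 with h | h <;> rw [h] <;> decide
  have h1 : oM (rf u hu) *ᵥ v = v - ε • u := rf_apply u hu v
  have h2 : oM (rf v hv) *ᵥ u = u - ε • v := by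
    rw [rf_apply, ← huv, polar_symm]
  have h3 : oM (rf v hv) *ᵥ u = (-ε) • (oM (rf u hu) *ᵥ v) := by
    rw [h1, h2, smul_sub, smul_smul]
    have : (-ε * ε) = -1 := by rw [neg_mul, hε2]
    rw [this]
    simp only [neg_smul, one_smul]
    abel
  have h4 : Q ((-ε) • (oM (rf u hu) *ᵥ v)) ≠ 0 := by
    rw [← h3]; exact oM_rf_ne hu
  rw [rf_congr h3 (oM_rf_ne hu) h4]
  exact (rf_smul (oM_rf_ne hv) (neg_ne_zero.2 hε0) h4).symm

/-- The order condition. -/
theorem rf_prod {u v : ι → ZMod 3} (hu : Q u ≠ 0) (hv : Q v ≠ 0) (huv : Q u = Q v) :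
    (rf u hu * rf v hv) ^ 2 = 1 ∨ (rf u hu * rf v hv) ^ 3 = 1 := by
  by_cases he : bb u v = 0
  · left
    have e : rf u hu * rf v hv * rf u hu = rf v hv := by
      have e1 : rf u hu * rf v hv * rf u hu = rf (oM (rf u hu) *ᵥ v) (oM_rf_ne hv) := by
        rw [← rf_conj, rf_inv]
      rw [e1]
      exact rf_congr (rf_fix u hu he) _ _
    calc (rf u hu * rf v hv) ^ 2 = (rf u hu * rf v hv * rf u hu) * rf v hv := by
          simp only [pow_succ, pow_zero, one_mul, mul_assoc]
      _ = 1 := by rw [e]; exact rf_sq v hv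
  · right
    have e := rf_braid hu hv huv he
    calc (rf u hu * rf v hv) ^ 3 = (rf u hu * rf v hv * rf u hu) * (rf v hv * rf u hu * rf v hv) := by
          simp only [pow_succ, pow_zero, one_mul, mul_assoc]
      _ = (rf u hu * rf v hv * rf u hu) * (rf u hu * rf v hv * rf u hu) := by rw [e]
      _ = 1 := by
          have h1 := rf_sq u hu
          have h2 := rf_sq v hv
          calc (rf u hu * rf v hv * rf u hu) * (rf u hu * rf v hv * rf u hu)
              = rf u hu * rf v hv * (rf u hu * rf u hu) * rf v hv * rf u hu := by simp only [mul_assoc]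
            _ = rf u hu * (rf v hv * rf v hv) * rf u hu := by rw [h1, mul_one]; simp only [mul_assoc]
            _ = 1 := by rw [h2, mul_one, h1]

/-- Non-orthogonal vectors of norm `c` have conjugate reflections, in the group generated by norm `c` reflections. -/
theorem conj_step {c : ZMod 3} (hc : c ≠ 0) {u v : ι → ZMod 3} (hu : Q u = c) (hv : Q v = c) (hu0 : Q u ≠ 0) (hv0 : Q v ≠ 0)
    (he : bb u v ≠ 0) : ∃ (y : ι → ZMod 3) (hy : Q y = c) (hy0 : Q y ≠ 0),
      rf y hy0 * rf u hu0 * (rf y hy0)⁻¹ = rf v hv0 := by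
  set ε : ZMod 3 := c⁻¹ * bb u v with hε
  have hε0 : ε ≠ 0 := mul_ne_zero (inv_ne_zero hc) he
  have hε2 : ε * ε = 1 := by
    rcases unit_cases ε hε0 with h | h <;> rw [h] <;> decide
  have hbb : bb u (ε • v) = c := by
    rw [polar_smul_r]
    have : bb u v = c * ε := by
      rw [hε]; field_simp
    rw [this]
    calc ε * (c * ε) = c * (ε * ε) := by ring
      _ = c := by rw [hε2, mul_one]
  have hQv' : Q (ε • v) = c := by
    rw [q_smul, hv, pow_two, hε2, one_mul]
  have hQy : Q (u - ε • v) = c := by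
    rw [q_sub, hu, hQv', hbb]
    ring
  have hQy0 : Q (u - ε • v) ≠ 0 := by rwa [hQy]
  refine ⟨u - ε • v, hQy, hQy0, ?_⟩
  rw [rf_conj]
  have hm := rf_move (Q := Q) (a := u) (b := ε • v) (by rw [hu, hQv']) hQy0
  have hQv'0 : Q (ε • v) ≠ 0 := by rwa [hQv']
  rw [rf_congr hm (oM_rf_ne hu0) hQv'0]
  exact rf_smul hv0 hε0 hQv'0

/-- A connecting vector for orthogonal vectors. -/
theorem exists_connect (hQ : (QuadraticMap.polarBilin Q).Nondegenerate) (hn : 5 ≤ Fintype.card ι) {c : ZMod 3} (hc : c ≠ 0)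
    {u v : ι → ZMod 3} (hu : Q u = c) (hv : Q v = c) (he : bb u v = 0) :
    ∃ z : ι → ZMod 3, Q z = c ∧ bb u z ≠ 0 ∧ bb z v ≠ 0 := by
  have hu0 : Q u ≠ 0 := by rwa [hu]
  have hv0 : Q v ≠ 0 := by rwa [hv]
  have huz : u ≠ 0 := by
    rintro rfl
    exact hu0 q_zero
  have hvz : v ≠ 0 := by
    rintro rfl
    exact hv0 q_zero
  have h2c : (2 : ZMod 3) * c ≠ 0 := mul_ne_zero two_ne hc
  have huu : bb u u ≠ 0 := by
    rw [polar_self2, hu]; exact h2c
  have hvv : bb v v ≠ 0 := by
    rw [polar_self2, hv]; exact h2c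
  let P : Submodule (ZMod 3) (ι → ZMod 3) := Submodule.span (ZMod 3) {u}
  have hPnd : QND Q P := by
    intro x hx h
    obtain ⟨α, rfl⟩ := Submodule.mem_span_singleton.1 hx
    have h1 := h u (Submodule.mem_span_singleton_self u)
    rw [polar_smul_l] at h1
    rw [(mul_eq_zero.1 h1).resolve_right huu, zero_smul]
  have hPr : finrank (ZMod 3) P = 1 := finrank_span_singleton huz
  have hvP : v ∈ qPerp Q P := by
    intro y hy
    obtain ⟨α, rfl⟩ := Submodule.mem_span_singleton.1 hy
    rw [polar_smul_r, polar_symm, he, mul_zero]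
  have hUnd := Cfsg.Agent.Lib.Classical.qnd_sup_span hPnd hvP hvv
  have hUr := Cfsg.Agent.Lib.Classical.finrank_sup_span hPnd hvP hvz
  set U := P ⊔ Submodule.span (ZMod 3) {v} with hU
  have hperp : QND Q (qPerp Q U) := by
    have := qnd_inf_perp (qnd_top hQ) hUnd le_top
    rwa [top_inf_eq] at this
  have hfr := qnd_finrank (W := ⊤) hUnd le_top
  rw [top_inf_eq, finrank_top, hUr, hPr, Module.finrank_fintype_fun_eq_card] at hfr
  have hdim : 2 ≤ finrank (ZMod 3) (qPerp Q U) := by omega
  have hperp' : ∀ y ∈ qPerp Q U, (∀ z ∈ qPerp Q U, bb z y = 0) → y = 0 := by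
    intro y hy h
    apply hperp y hy
    intro z hz
    rw [polar_symm]
    exact h z hz
  obtain ⟨y, hyU, hQy⟩ := Cfsg.Agent.Lib.Spinor.exists_val_sub (Q := Q) hperp' hdim (c := -c) (neg_ne_zero.2 hc)
  have huy : bb u y = 0 := by
    rw [polar_symm]
    exact hyU u (Submodule.mem_sup_left (Submodule.mem_span_singleton_self u))
  have hvy : bb v y = 0 := by
    rw [polar_symm]
    exact hyU v (Submodule.mem_sup_right (Submodule.mem_span_singleton_self v))
  refine ⟨u + v + y, ?_, ?_, ?_⟩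
  · rw [q_add, q_add, hu, hv, hQy, he, polar_add_l, huy, hvy]
    have h3 : ∀ c : ZMod 3, c + c + 0 + -c + (0 + 0) = c := by decide
    exact h3 c
  · rw [polar_add_r, polar_add_r, he, huy, polar_self2, hu]
    simpa using h2c
  · rw [polar_add_l, polar_add_l, he, polar_symm y v, hvy, polar_self2, hv]
    simpa using h2c

/-- The reflection subgroup as a type. -/
abbrev RS (Q : QuadraticForm (ZMod 3) (ι → ZMod 3)) (c : ZMod 3) := ↥(Cfsg.reflectionSubgroup (⇑Q) c)

/-- Any two reflections of norm `c` are conjugate in the reflection subgroup. -/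
theorem exists_conj (hQ : (QuadraticMap.polarBilin Q).Nondegenerate) (hn : 5 ≤ Fintype.card ι) {c : ZMod 3} (hc : c ≠ 0)
    {u v : ι → ZMod 3} (hu : Q u = c) (hv : Q v = c) (hu0 : Q u ≠ 0) (hv0 : Q v ≠ 0) :
    ∃ g ∈ Cfsg.reflectionSubgroup (⇑Q) c, g * rf u hu0 * g⁻¹ = rf v hv0 := by
  have hmem : ∀ {y : ι → ZMod 3} (hy : Q y = c) (hy0 : Q y ≠ 0), rf y hy0 ∈ Cfsg.reflectionSubgroup (⇑Q) c :=
    fun hy hy0 => Subgroup.subset_closure (rf_mem hy hy0)
  by_cases he : bb u v = 0
  · obtain ⟨z, hz, h1, h2⟩ := exists_connect hQ hn hc hu hv he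
    have hz0 : Q z ≠ 0 := by rwa [hz]
    obtain ⟨y₁, hy₁, hy₁0, e1⟩ := conj_step hc hu hz hu0 hz0 h1
    obtain ⟨y₂, hy₂, hy₂0, e2⟩ := conj_step hc hz hv hz0 hv0 h2
    refine ⟨rf y₂ hy₂0 * rf y₁ hy₁0, mul_mem (hmem hy₂ hy₂0) (hmem hy₁ hy₁0), ?_⟩
    rw [← e2, ← e1]
    group
  · obtain ⟨y, hy, hy0, e⟩ := conj_step hc hu hv hu0 hv0 he
    exact ⟨rf y hy0, hmem hy hy0, e⟩

/-- The main theorem on 3-transpositions. -/
theorem three_transposition_class (hQ : (QuadraticMap.polarBilin Q).Nondegenerate) (hn : 5 ≤ Fintype.card ι) {c : ZMod 3}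
    (hc : c ≠ 0) : Cfsg.IsThreeTranspositionClass
      {g : ↥(Cfsg.reflectionSubgroup (⇑Q) c) | (g : ↥(Cfsg.isometryGroup (ZMod 3) (⇑Q))) ∈ Cfsg.reflectionsOfNorm (⇑Q) c} := by
  refine ⟨⟨?_, ?_⟩, ?_, ?_⟩
  · rintro ⟨g, hgR⟩ hg
    obtain ⟨v, hv, hv0, rfl⟩ := exists_rf_of_mem hc hg
    apply orderOf_eq_prime
    · apply Subtype.ext
      show (rf v hv0) ^ 2 = 1
      rw [pow_two]
      exact rf_sq v hv0
    · intro h
      exact rf_ne_one hv0 (congrArg Subtype.val h)
  · rintro ⟨g, hgR⟩ hg ⟨h, hhR⟩ hh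
    obtain ⟨u, hu, hu0, rfl⟩ := exists_rf_of_mem hc hg
    obtain ⟨v, hv, hv0, rfl⟩ := exists_rf_of_mem hc hh
    rcases rf_prod hu0 hv0 (hu.trans hv.symm) with h | h
    · left
      exact Subtype.ext h
    · right
      exact Subtype.ext h
  · obtain ⟨v₀, hv₀⟩ := exists_value two_ne hQ (by omega) c
    have hv₀0 : Q v₀ ≠ 0 := by rwa [hv₀]
    have hmem₀ : rf v₀ hv₀0 ∈ Cfsg.reflectionSubgroup (⇑Q) c := Subgroup.subset_closure (rf_mem hv₀ hv₀0)
    refine ⟨⟨rf v₀ hv₀0, hmem₀⟩, rf_mem hv₀ hv₀0, ?_⟩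
    ext ⟨x, hx⟩
    constructor
    · intro hxD
      obtain ⟨w, hw, hw0, rfl⟩ := exists_rf_of_mem hc hxD
      obtain ⟨g, hg, e⟩ := exists_conj hQ hn hc hv₀ hw hv₀0 hw0
      exact isConj_iff.2 ⟨⟨g, hg⟩, Subtype.ext e⟩
    · intro hxD
      have hxD' : IsConj _ _ := hxD
      obtain ⟨⟨g, hg⟩, e⟩ := isConj_iff.1 hxD'
      have e' : g * rf v₀ hv₀0 * g⁻¹ = x := congrArg Subtype.val e
      show x ∈ Cfsg.reflectionsOfNorm (⇑Q) c
      rw [← e', rf_conj]
      exact rf_mem (by rw [oM_Q, hv₀]) _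
  · exact Subgroup.closure_closure_coe_preimage

end three

end Cfsg.Agent.Lib.ThreeTrans.RM
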