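import Cfsg.Agent.Lib.ThreeTrans.TTPrim

/-!
# Primitive 3-transposition groups

Modules in the commuting graph of a primitive 3-transposition group are trivial, and the subgroup
generated by the members commuting with `d` is a maximal `D`-subgroup.
-/

set_option autoImplicit false
set_option linter.style.haveILetI false
set_option linter.unusedSectionVars false
open Cfsg Subgroup

namespace Cfsg.Agent.Lib.ThreeTrans.TL

variable {G : Type*} [Group G]

/-- Orbits of a normal subgroup. -/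
def orb (N : Subgroup G) (a : G) : Set G := {x | ∃ n ∈ N, x = n * a * n⁻¹}

theorem orb_block {N : Subgroup G} (hN : N.Normal) (a : G) : IsBlock (orb N a) := by
  intro g
  by_cases hm : ∃ x, x ∈ cset g (orb N a) ∧ x ∈ orb N a
  · left
    obtain ⟨x, hx1, n', hn', rfl⟩ := hm
    rw [mem_cset] at hx1
    obtain ⟨n, hn, he⟩ := hx1
    -- `g a g⁻¹ = m a m⁻¹` with `m ∈ N`
    have hgn : g * n * g⁻¹ ∈ N := hN.conj_mem n hn g
    set m := (g * n * g⁻¹)⁻¹ * n' with hm
    have hmN : m ∈ N := mul_mem (inv_mem hgn) hn'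
    have hga : g * a * g⁻¹ = m * a * m⁻¹ := by
      have h1 : n' * a * n'⁻¹ = g * (n * a * n⁻¹) * g⁻¹ := by
        rw [← he]; group
      have h2 : m * a * m⁻¹ = (g * n * g⁻¹)⁻¹ * (n' * a * n'⁻¹) * (g * n * g⁻¹) := by
        rw [hm]; group
      rw [h2, h1]; group
    ext y
    constructor
    · rintro ⟨_, ⟨k, hk, rfl⟩, rfl⟩
      refine ⟨(g * k * g⁻¹) * m, mul_mem (hN.conj_mem k hk g) hmN, ?_⟩
      show g * (k * a * k⁻¹) * g⁻¹ = _
      have : g * (k * a * k⁻¹) * g⁻¹ = (g * k * g⁻¹) * (g * a * g⁻¹) * (g * k * g⁻¹)⁻¹ := by group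
      rw [this, hga]; group
    · rintro ⟨k, hk, rfl⟩
      rw [mem_cset]
      refine ⟨g⁻¹ * (k * m⁻¹) * g, ?_, ?_⟩
      · have := hN.conj_mem (k * m⁻¹) (mul_mem hk (inv_mem hmN)) g⁻¹
        rwa [inv_inv] at this
      · have h3 : a = m⁻¹ * (g * a * g⁻¹) * m := by rw [hga]; group
        calc g⁻¹ * (k * a * k⁻¹) * g = g⁻¹ * (k * (m⁻¹ * (g * a * g⁻¹) * m) * k⁻¹) * g := by
              rw [← h3]
          _ = _ := by group
  · right
    rw [Set.disjoint_left]
    intro x h1 h2
    exact hm ⟨x, h1, h2⟩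

/-- Modules of the commuting graph. -/
def IsModule (D M : Set G) : Prop :=
  M ⊆ D ∧ ∀ z ∈ D, z ∉ M → (∀ m ∈ M, Commute z m) ∨ (∀ m ∈ M, ¬ Commute z m)

theorem IsModule.union {D M M' : Set G} (h1 : IsModule D M) (h2 : IsModule D M') {x : G} (hx : x ∈ M)
    (hx' : x ∈ M') : IsModule D (M ∪ M') := by
  refine ⟨Set.union_subset h1.1 h2.1, ?_⟩
  intro z hz hn
  have hn1 : z ∉ M := fun h => hn (Or.inl h)
  have hn2 : z ∉ M' := fun h => hn (Or.inr h)
  rcases h1.2 z hz hn1 with a1 | a1 <;> rcases h2.2 z hz hn2 with a2 | a2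
  · left
    rintro m (hm | hm)
    · exact a1 m hm
    · exact a2 m hm
  · exact absurd (a1 x hx) (a2 x hx')
  · exact absurd (a2 x hx') (a1 x hx)
  · right
    rintro m (hm | hm)
    · exact a1 m hm
    · exact a2 m hm

theorem IsModule.conj {D M : Set G} (h : CD D) (hM : IsModule D M) (g : G) :
    IsModule D (cset g M) := by
  refine ⟨?_, ?_⟩
  · rintro _ ⟨m, hm, rfl⟩
    exact h.cj g m (hM.1 hm)
  · intro z hz hn
    have hz' : g⁻¹ * z * g ∈ D := by
      have := h.cj g⁻¹ z hz
      rwa [inv_inv] at this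
    have hn' : g⁻¹ * z * g ∉ M := fun hh => hn (mem_cset.mpr hh)
    have key : ∀ m, Commute (g⁻¹ * z * g) m ↔ Commute z (g * m * g⁻¹) := by
      intro m
      have e : z = g * (g⁻¹ * z * g) * g⁻¹ := by group
      conv_rhs => rw [e]
      exact (commute_conj_iff g _ m).symm
    rcases hM.2 _ hz' hn' with a1 | a1
    · left
      rintro _ ⟨m, hm, rfl⟩
      exact (key m).mp (a1 m hm)
    · right
      rintro _ ⟨m, hm, rfl⟩
      exact fun hc => a1 m hm ((key m).mpr hc)

/-- The commuting graph has no split. -/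
theorem no_commuting_split {D : Set G} (h : CD D) {P R : Set G} (hPR : D = P ∪ R)
    (hdis : Disjoint P R) {p r : G} (hp : p ∈ P) (hr : r ∈ R)
    (hc : ∀ x ∈ P, ∀ y ∈ R, Commute x y) : False := by
  have hpD : p ∈ D := hPR ▸ Or.inl hp
  have hrD : r ∈ D := hPR ▸ Or.inr hr
  -- `closure P` is normal
  have hnorm : ∀ g : G, ∀ t ∈ closure P, g * t * g⁻¹ ∈ closure P := by
    have hle : closure D ≤ normalizer ((closure P : Subgroup G) : Set G) := by
      rw [closure_le]
      intro x hx
      rw [SetLike.mem_coe, mem_normalizer_iff]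
      have hxD : x ⁻¹ ∈ D := by rw [h.inv_eq hx]; exact hx
      rcases hPR ▸ hx with hxP | hxR
      · intro t
        have hxc : x ∈ closure P := subset_closure hxP
        constructor
        · intro ht
          exact mul_mem (mul_mem hxc ht) (inv_mem hxc)
        · intro ht
          have := mul_mem (mul_mem (inv_mem hxc) ht) hxc
          have e : x⁻¹ * (x * t * x⁻¹) * x = t := by group
          rwa [e] at this
      · have hcen : closure P ≤ centralizer ({x} : Set G) := by
          rw [closure_le]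
          intro y hy
          rw [SetLike.mem_coe, Subgroup.mem_centralizer_singleton_iff]
          exact hc y hy x hxR
        have key : ∀ t ∈ closure P, x * t * x⁻¹ = t := by
          intro t ht
          have := Subgroup.mem_centralizer_singleton_iff.mp (hcen ht)
          rw [← this]; group
        intro t
        constructor
        · intro ht
          rwa [key t ht]
        · intro ht
          have h2 := key _ ht
          have h3 : x * (x * t * x⁻¹) * x⁻¹ = t := by
            calc x * (x * t * x⁻¹) * x⁻¹ = (x * x) * t * (x * x)⁻¹ := by group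
              _ = t := by rw [h.inv x hx]; group
          rw [h3] at h2
          rw [h2]
          exact ht
    rw [h.gen] at hle
    intro g t ht
    exact (mem_normalizer_iff.mp (hle (mem_top g)) t).mp ht
  obtain ⟨g, rfl⟩ := h.tr p hpD r hrD
  have hrc : g * p * g⁻¹ ∈ closure P := hnorm g p (subset_closure hp)
  have hz : g * p * g⁻¹ ∈ center G := by
    apply h.mem_center
    intro d hd
    rcases hPR ▸ hd with hdP | hdR
    · exact (hc d hdP _ hr).eq
    · have hcen : closure P ≤ centralizer ({d} : Set G) := by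
        rw [closure_le]
        intro y hy
        rw [SetLike.mem_coe, Subgroup.mem_centralizer_singleton_iff]
        exact hc y hy d hdR
      exact (Subgroup.mem_centralizer_singleton_iff.mp (hcen hrc)).symm
  have hpr : p = g * p * g⁻¹ := by
    have hz2 := mem_center_iff.mp hz g⁻¹
    have e : g⁻¹ * (g * p * g⁻¹) = p * g⁻¹ := by group
    rw [e] at hz2
    have := mul_right_cancel hz2
    exact this
  rw [← hpr] at hr
  exact Set.disjoint_left.mp hdis hp hr

variable [Finite G]

/-- Modules with two members are everything when `G` is primitive and the graph is connected. -/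
theorem module_eq {D : Set G} (h : CD D)
    (hprim : ∀ B : Set G, B ⊆ D → IsBlock B → B.Subsingleton ∨ B = D)
    (hconn : ∀ P : Set G, P ⊆ D → P.Nonempty → (∀ p ∈ P, ∀ y ∈ D, Commute p y → y ∈ P) → P = D)
    {A : Set G} (hA : IsModule D A) {a b : G} (ha : a ∈ A) (hb : b ∈ A) (hab : a ≠ b) : A = D := by
  classical
  by_contra hne
  let S : Set (Set G) := {M | IsModule D M ∧ A ⊆ M ∧ M ≠ D}
  have hSne : S.Nonempty := ⟨A, hA, subset_rfl, hne⟩
  obtain ⟨M, hM⟩ := S.toFinite.exists_maximal hSne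
  obtain ⟨⟨hMm, hAM, hMD⟩, hmax⟩ := hM
  have hblock : IsBlock M := by
    intro g
    by_cases hm : ∃ x, x ∈ cset g M ∧ x ∈ M
    swap
    · right
      rw [Set.disjoint_left]
      intro x h1 h2
      exact hm ⟨x, h1, h2⟩
    left
    obtain ⟨x, hx1, hx2⟩ := hm
    set M' := cset g M with hM'
    have hM'm : IsModule D M' := hMm.conj h g
    have hcard : M'.ncard = M.ncard := Set.ncard_image_of_injective _ (by
      intro u v huv
      exact mul_left_cancel (mul_right_cancel huv))
    by_contra hneq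
    have h1 : ¬ M' ⊆ M := fun hsub =>
      hneq (Set.eq_of_subset_of_ncard_le hsub (le_of_eq hcard.symm) (Set.toFinite _))
    have h2 : ¬ M ⊆ M' := fun hsub =>
      hneq (Set.eq_of_subset_of_ncard_le hsub (le_of_eq hcard) (Set.toFinite _)).symm
    have hU : M ∪ M' = D := by
      by_contra hU
      have hUS : M ∪ M' ∈ S := ⟨hMm.union hM'm hx2 hx1, hAM.trans Set.subset_union_left, hU⟩
      have := hmax hUS Set.subset_union_left
      exact h1 (Set.union_subset_iff.mp this).2
    obtain ⟨p, hp, hpn⟩ := Set.not_subset.mp h2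
    obtain ⟨q, hq, hqn⟩ := Set.not_subset.mp h1
    have hpD : p ∈ D := hMm.1 hp
    have hqD : q ∈ D := hM'm.1 hq
    by_cases hpq : Commute p q
    · -- `M ∖ M'` commutes with `M'`
      have hq1 : ∀ m ∈ M, Commute q m :=
        (hMm.2 q hqD hqn).resolve_right fun hh => hh p hp hpq.symm
      have hall : ∀ u ∈ M \ M', ∀ v ∈ M', Commute u v := by
        rintro u ⟨hu, hun⟩ v hv
        have hu' : ∀ m ∈ M', Commute u m :=
          (hM'm.2 u (hMm.1 hu) hun).resolve_right fun hh => hh q hq (hq1 u hu).symm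
        exact hu' v hv
      refine no_commuting_split h (P := M \ M') (R := M') ?_ Set.disjoint_sdiff_left
        (p := p) (r := q) ⟨hp, hpn⟩ hq hall
      rw [Set.sdiff_union_self, hU]
    · -- `M ∖ M'` has no commuting partners in `M'`
      have hq1 : ∀ m ∈ M, ¬ Commute q m :=
        (hMm.2 q hqD hqn).resolve_left fun hh => hpq (hh p hp).symm
      have hall : ∀ u ∈ M \ M', ∀ v ∈ M', ¬ Commute u v := by
        rintro u ⟨hu, hun⟩ v hv
        have hu' : ∀ m ∈ M', ¬ Commute u m :=
          (hM'm.2 u (hMm.1 hu) hun).resolve_left fun hh => hq1 u hu (hh q hq).symm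
        exact hu' v hv
      have hP := hconn (M \ M') (fun u hu => hMm.1 hu.1) ⟨p, hp, hpn⟩ (by
        intro u hu y hy huy
        by_contra hyn
        have hy' : y ∈ M' := by
          rw [← hU] at hy
          rcases hy with hy1 | hy1
          · by_contra hh
            exact hyn ⟨hy1, hh⟩
          · exact hy1
        exact hall u hu y hy' huy)
      have : q ∈ M \ M' := hP ▸ hqD
      exact this.2 hq
  rcases hprim M hMm.1 hblock with h1 | h1
  · exact hab (h1 (hAM ha) (hAM hb))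
  · exact hMD h1

theorem perm_aux1 : Commute (Equiv.swap 1 2 : Equiv.Perm (Fin 4))
    ((Equiv.swap 1 2 * Equiv.swap 0 1 * (Equiv.swap 1 2)⁻¹) * Equiv.swap 2 3 *
        (Equiv.swap 1 2 * Equiv.swap 0 1 * (Equiv.swap 1 2)⁻¹)⁻¹) := by
  show _ = _
  decide +kernel

/-- The statement on `C_D(d)`. -/
theorem closure_max {D : Set G} (h : CD D) (hset : IsThreeTranspositionSet D)
    (hprim : ∀ B : Set G, B ⊆ D → IsBlock B → B.Subsingleton ∨ B = D)
    (hconn : ∀ P : Set G, P ⊆ D → P.Nonempty → (∀ p ∈ P, ∀ y ∈ D, Commute p y → y ∈ P) → P = D)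
    {d : G} (hd : d ∈ D) {H : Subgroup G} (hH : IsDSubgroup D H)
    (hle : closure {y : G | y ∈ D ∧ Commute d y} ≤ H) :
    H = closure {y : G | y ∈ D ∧ Commute d y} ∨ H = ⊤ := by
  set E : Set G := {y : G | y ∈ D ∧ y ∈ H} with hE
  have hHE : closure E = H := hH
  have hCE : ∀ y ∈ D, Commute d y → y ∈ E := fun y hy hc => ⟨hy, hle (subset_closure ⟨hy, hc⟩)⟩
  by_cases hsub : E ⊆ {y : G | y ∈ D ∧ Commute d y}
  · left
    have h1 : E = {y : G | y ∈ D ∧ Commute d y} :=
      Set.Subset.antisymm hsub fun y hy => hCE y hy.1 hy.2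
    rw [← hHE, h1]
  right
  obtain ⟨x₀, hx₀, hnc⟩ := Set.not_subset.mp hsub
  have hdx₀ : ¬ Commute d x₀ := fun hc => hnc ⟨hx₀.1, hc⟩
  set A : Set G := {e : G | e ∈ E ∧ ∀ y ∈ D, Commute e y → y ∈ E} with hA
  have hdA : d ∈ A := ⟨hCE d hd (Commute.refl d), hCE⟩
  have hnext : ∀ e ∈ A, ∀ x ∈ E, ¬ Commute e x → x ∈ A := by
    rintro e ⟨heE, heC⟩ x hx hex
    refine ⟨hx, ?_⟩
    intro y hy hxy
    by_cases hey : Commute e y
    · exact heC y hy hey
    by_cases hxe : x = y
    · rw [← hxe]; exact hx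
    obtain ⟨φ, -, h01, h12, h23⟩ := Cfsg.Agent.S5344.result hset hx.1 heE.1 hy hxe hxy
      (fun hc => hex hc.symm) hey
    set f := e * x * e⁻¹ with hf
    have hfφ : f = φ (Equiv.swap 1 2 * Equiv.swap 0 1 * (Equiv.swap 1 2)⁻¹) := by
      rw [map_mul, map_mul, map_inv, h01, h12]
    have hy' : f * y * f⁻¹ = φ ((Equiv.swap 1 2 * Equiv.swap 0 1 * (Equiv.swap 1 2)⁻¹) * Equiv.swap 2 3 *
        (Equiv.swap 1 2 * Equiv.swap 0 1 * (Equiv.swap 1 2)⁻¹)⁻¹) := by
      rw [map_mul, map_mul, map_inv, ← hfφ, h23]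
    have hcomm : Commute e (f * y * f⁻¹) := by
      rw [hy', ← h12]
      exact (perm_aux1.map φ)
    have hy'D : f * y * f⁻¹ ∈ D := h.cj f y hy
    have hy'E := heC _ hy'D hcomm
    have hfH : f ∈ H := mul_mem (mul_mem heE.2 hx.2) (inv_mem heE.2)
    refine ⟨hy, ?_⟩
    have := mul_mem (mul_mem (inv_mem hfH) hy'E.2) hfH
    have e : f⁻¹ * (f * y * f⁻¹) * f = y := by group
    rwa [e] at this
  have hx₀A : x₀ ∈ A := hnext d hdA x₀ hx₀ hdx₀
  have hmod : IsModule D A := by
    refine ⟨fun u hu => hu.1.1, ?_⟩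
    intro z hz hn
    by_cases hzE : z ∈ E
    · left
      intro m hm
      by_contra hc
      exact hn (hnext m hm z hzE (fun hh => hc hh.symm))
    · right
      intro m hm hc
      exact hzE (hm.2 z hz hc.symm)
  have hne : d ≠ x₀ := fun he => hdx₀ (he ▸ Commute.refl d)
  have hAD := module_eq h hprim hconn hmod hdA hx₀A hne
  rw [← hHE, eq_top_iff, ← h.gen]
  apply Subgroup.closure_mono
  rw [← hAD]
  exact fun u hu => hu.1

omit [Finite G] in
/-- Adjacency in the commuting graph. -/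
theorem adj_commute {D : Set G} {u v : D} (hadj : (commutingGraph D).Adj u v) :
    Commute (u : G) (v : G) := by
  have := (SimpleGraph.fromRel_adj _ _ _).mp hadj
  rcases this.2 with h1 | h1
  · exact h1
  · exact h1.symm

omit [Finite G] in
theorem adj_of_commute {D : Set G} {u v : D} (hne : (u : G) ≠ v) (hc : Commute (u : G) (v : G)) :
    (commutingGraph D).Adj u v :=
  (SimpleGraph.fromRel_adj _ _ _).mpr ⟨fun he => hne (congrArg Subtype.val he), Or.inl hc⟩

omit [Finite G] in
/-- Reachability is preserved by conjugation. -/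
theorem reach_conj {D : Set G} (h : CD D) (g : G) {u v : D}
    (hr : (commutingGraph D).Reachable u v) :
    (commutingGraph D).Reachable ⟨g * u * g⁻¹, h.cj g u u.2⟩ ⟨g * v * g⁻¹, h.cj g v v.2⟩ := by
  obtain ⟨w⟩ := hr
  induction w with
  | nil => exact SimpleGraph.Reachable.refl _
  | @cons u v t hadj _ ih =>
    refine SimpleGraph.Reachable.trans (SimpleGraph.Adj.reachable ?_) ih
    apply adj_of_commute
    · intro he
      have h1 := mul_left_cancel (mul_right_cancel he)
      exact hadj.ne (Subtype.ext h1)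
    · exact (ThreeTrans.commute_conj_iff g _ _).mpr (adj_commute hadj)

omit [Finite G] in
/-- The connected component of `a` is a block. -/
theorem comp_block {D : Set G} (h : CD D) {a : G} (ha : a ∈ D) :
    IsBlock {x : G | ∃ hx : x ∈ D, (commutingGraph D).Reachable ⟨a, ha⟩ ⟨x, hx⟩} := by
  intro g
  set B : Set G := {x : G | ∃ hx : x ∈ D, (commutingGraph D).Reachable ⟨a, ha⟩ ⟨x, hx⟩} with hB
  by_cases hm : ∃ x, x ∈ cset g B ∧ x ∈ B
  swap
  · right
    rw [Set.disjoint_left]
    intro x h1 h2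
    exact hm ⟨x, h1, h2⟩
  left
  obtain ⟨x, ⟨w, ⟨hw, hrw⟩, rfl⟩, hx, hrx⟩ := hm
  have hr1 := reach_conj h g hrw
  have hag : (commutingGraph D).Reachable ⟨a, ha⟩ ⟨g * a * g⁻¹, h.cj g a ha⟩ :=
    hrx.trans hr1.symm
  have hag' : (commutingGraph D).Reachable ⟨g⁻¹ * a * g, by
      have := h.cj g⁻¹ a ha
      rwa [inv_inv] at this⟩ ⟨a, ha⟩ := by
    have := reach_conj h g⁻¹ hag
    simp only [inv_inv] at this
    convert this using 2
    group
  ext y
  constructor
  · rintro ⟨w', ⟨hw', hr'⟩, rfl⟩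
    exact ⟨h.cj g _ hw', hag.trans (reach_conj h g hr')⟩
  · rintro ⟨hy, hry⟩
    rw [mem_cset]
    have hy' : g⁻¹ * y * g ∈ D := by
      have := h.cj g⁻¹ y hy
      rwa [inv_inv] at this
    refine ⟨hy', ?_⟩
    have := reach_conj h g⁻¹ hry
    simp only [inv_inv] at this
    exact hag'.symm.trans this

/-- The full statement on primitive 3-transposition groups. -/
theorem prim_main {D : Set G} (hD : IsThreeTranspositionGroup D) (hprim : IsPrimitiveUnderConj D)
    (hw : ∃ a ∈ D, ∃ b ∈ D, a ≠ b ∧ Commute a b) :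
    (∃ L : Subgroup G, L.Normal ∧ IsQuasisimple L ∧ L.index ≤ 2 ∧
      generalizedFittingSubgroup G = L ⊔ center G) ∧ (commutingGraph D).Connected ∧
    ∀ d ∈ D, closure {y : G | y ∈ D ∧ Commute d y} ≠ ⊤ ∧ ∀ H : Subgroup G, IsDSubgroup D H →
      closure {y : G | y ∈ D ∧ Commute d y} ≤ H → H = closure {y : G | y ∈ D ∧ Commute d y} ∨ H = ⊤ := by
  haveI : Fact (Nat.Prime 2) := ⟨Nat.prime_two⟩
  haveI : Fact (Nat.Prime 3) := ⟨Nat.prime_three⟩
  obtain ⟨htr, ⟨a₀, ha₀, b₀, hb₀, hne₀⟩, hblock⟩ := hprim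
  have hclass : IsThreeTranspositionClass D := by
    refine ⟨hD.1, ⟨a₀, ha₀, ?_⟩, hD.2.2⟩
    ext x
    constructor
    · intro hx
      obtain ⟨g, hg⟩ := htr a₀ ha₀ x hx
      exact isConj_iff.mpr ⟨g, hg⟩
    · intro hx
      obtain ⟨g, rfl⟩ := isConj_iff.mp (show IsConj a₀ x from hx)
      exact hD.2.1 g a₀ ha₀
  have h := CD.of_class hclass
  have hset := hD.1
  have hprim' : ∀ B : Set G, B ⊆ D → IsBlock B → B.Subsingleton ∨ B = D :=
    fun B hBD hB => hblock B hBD hB
  have hnorm : ∀ N : Subgroup G, N.Normal → ¬ N ≤ center G → ∀ a ∈ D, orb N a = D := by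
    intro N hN hnc a ha
    have hsub : orb N a ⊆ D := by
      rintro _ ⟨n, -, rfl⟩
      exact h.cj n a ha
    refine (hprim' _ hsub (orb_block hN a)).resolve_left fun hs => hnc ?_
    refine h.le_center hN ha fun n hn => ?_
    have h1 : n * a * n⁻¹ = a := hs ⟨n, hn, rfl⟩ ⟨1, one_mem _, by simp⟩
    calc a * n = n * a * n⁻¹ * n := by rw [h1]
      _ = n * a := by group
  have hnotcentral : ∀ a ∈ D, a ∉ center G := by
    intro a ha hz
    apply hne₀
    obtain ⟨g, hg⟩ := htr a ha a₀ ha₀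
    obtain ⟨g', hg'⟩ := htr a ha b₀ hb₀
    have h1 := mem_center_iff.mp hz g
    have h2 := mem_center_iff.mp hz g'
    rw [← hg, ← hg', h1, h2, mul_inv_cancel_right, mul_inv_cancel_right]
  have hO2 : pCore 2 G ≤ center G := by
    by_contra hnc
    have hex : ∃ x ∈ D, ∃ y ∈ D, ¬ Commute x y := by
      by_contra hall
      push Not at hall
      exact hnotcentral a₀ ha₀ (h.mem_center fun d hd => (hall a₀ ha₀ d hd).symm.eq)
    obtain ⟨x, hx, y, hy, hxy⟩ := hex
    have hyo : y ∈ orb (pCore 2 G) x := by rw [hnorm _ (Basic.pCore_normal 2) hnc x hx]; exact hy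
    obtain ⟨n, hn, rfl⟩ := hyo
    have hm : x * (n * x * n⁻¹) ∈ pCore 2 G := by
      have e : x * (n * x * n⁻¹) = (x * n * x⁻¹) * n⁻¹ := by
        rw [h.inv_eq hx]; group
      rw [e]
      exact mul_mem ((Basic.pCore_normal 2).conj_mem n hn x) (inv_mem hn)
    have h2 := h.pair2 hx hy hm
    apply hxy
    exact comm_of_sq (h.inv x hx) (h.inv _ hy) (by rw [pow_two]; exact h2)
  have hO3 : pCore 3 G ≤ center G := by
    by_contra hnc
    obtain ⟨a, ha, b, hb, hab, hcab⟩ := hw
    have hyo : b ∈ orb (pCore 3 G) a := by rw [hnorm _ (Basic.pCore_normal 3) hnc a ha]; exact hb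
    obtain ⟨n, hn, hb'⟩ := hyo
    have hm : a * b ∈ pCore 3 G := by
      have e : a * b = (a * n * a⁻¹) * n⁻¹ := by
        rw [hb', h.inv_eq ha]; group
      rw [e]
      exact mul_mem ((Basic.pCore_normal 3).conj_mem n hn a) (inv_mem hn)
    have h2 : (a * b) ^ 2 = 1 := by
      rw [hcab.mul_pow, pow_two, pow_two, h.inv a ha, h.inv b hb, one_mul]
    have h4 := eq_one_of_pGroup (p := 3) (q := 2) Nat.prime_three (Basic.pCore_isPGroup 3) hm h2
      (by norm_num)
    apply hab
    have := eq_inv_of_mul_eq_one_left h4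
    rwa [h.inv_eq hb] at this
  have hD2 : ∃ a ∈ D, ∃ b ∈ D, a ≠ b := ⟨a₀, ha₀, b₀, hb₀, hne₀⟩
  obtain ⟨L, hLn, hLc, -, hF⟩ := exists_component h hset hD2 hO2 hO3
  have hLper := Components.component_self hLc
  have hLnc : ¬ L ≤ center G := fun hle =>
    Components.component_ne_bot hLc (bot_of_le_center hLper hle)
  have hLorb := hnorm L hLn hLnc a₀ ha₀
  have hidx : L.index ≤ 2 := by
    refine index_le_two_of_coset h hLn ha₀ fun x hx => ?_
    have hx' : x ∈ orb L a₀ := by rw [hLorb]; exact hx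
    obtain ⟨y, hy, rfl⟩ := hx'
    have e : a₀⁻¹ * (y * a₀ * y⁻¹) = (a₀⁻¹ * y * a₀) * y⁻¹ := by group
    rw [e]
    have := hLn.conj_mem y hy a₀⁻¹
    rw [inv_inv] at this
    exact mul_mem this (inv_mem hy)
  -- connectedness
  have hconnected : (commutingGraph D).Connected := by
    obtain ⟨a, ha, b, hb, hab, hcab⟩ := hw
    have hB := comp_block h ha
    have hsub : {x : G | ∃ hx : x ∈ D, (commutingGraph D).Reachable ⟨a, ha⟩ ⟨x, hx⟩} ⊆ D :=
      fun x hx => hx.1
    have hmemA : a ∈ {x : G | ∃ hx : x ∈ D, (commutingGraph D).Reachable ⟨a, ha⟩ ⟨x, hx⟩} :=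
      ⟨ha, SimpleGraph.Reachable.refl _⟩
    have hmemB : b ∈ {x : G | ∃ hx : x ∈ D, (commutingGraph D).Reachable ⟨a, ha⟩ ⟨x, hx⟩} :=
      ⟨hb, SimpleGraph.Adj.reachable (adj_of_commute hab hcab)⟩
    have hE := (hprim' _ hsub hB).resolve_left fun hs => hab (hs hmemA hmemB)
    haveI : Nonempty D := ⟨⟨a, ha⟩⟩
    refine ⟨?_⟩
    intro u v
    have hu : (u : G) ∈ {x : G | ∃ hx : x ∈ D, (commutingGraph D).Reachable ⟨a, ha⟩ ⟨x, hx⟩} := by
      rw [hE]; exact u.2
    have hv : (v : G) ∈ {x : G | ∃ hx : x ∈ D, (commutingGraph D).Reachable ⟨a, ha⟩ ⟨x, hx⟩} := by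
      rw [hE]; exact v.2
    obtain ⟨_, hu'⟩ := hu
    obtain ⟨_, hv'⟩ := hv
    exact hu'.symm.trans hv'
  have hconn : ∀ P : Set G, P ⊆ D → P.Nonempty →
      (∀ p ∈ P, ∀ y ∈ D, Commute p y → y ∈ P) → P = D := by
    intro P hPD hne hcl
    obtain ⟨p, hp⟩ := hne
    refine Set.Subset.antisymm hPD fun x hx => ?_
    have hr : (commutingGraph D).Reachable ⟨p, hPD hp⟩ ⟨x, hx⟩ := hconnected.preconnected _ _
    obtain ⟨w⟩ := hr
    have key : ∀ {u v : D}, (commutingGraph D).Walk u v → (u : G) ∈ P → (v : G) ∈ P := by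
      intro u v w
      induction w with
      | nil => exact id
      | @cons u v t hadj _ ih =>
        intro hu
        exact ih (hcl _ hu _ v.2 (adj_commute hadj))
    exact key w hp
  refine ⟨⟨L, hLn, hLc.2, hidx, hF⟩, hconnected, fun d hd => ⟨?_, fun H hH hle => ?_⟩⟩
  · intro htop
    apply hnotcentral d hd
    have hle : closure {y : G | y ∈ D ∧ Commute d y} ≤ centralizer ({d} : Set G) := by
      rw [closure_le]
      rintro y ⟨-, hc⟩
      rw [SetLike.mem_coe, Subgroup.mem_centralizer_singleton_iff]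
      exact hc.symm.eq
    rw [htop] at hle
    rw [mem_center_iff]
    intro g
    exact Subgroup.mem_centralizer_singleton_iff.mp (hle (mem_top g))
  · exact closure_max h hset hprim' hconn hd hH hle

end Cfsg.Agent.Lib.ThreeTrans.TL
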