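import Cfsg.Agent.Lib.ThreeTrans.TTMax

/-!
# Generating classes of 3-transpositions with trivial centre: simplicity of the derived group
-/

set_option autoImplicit false
set_option linter.style.haveILetI false
set_option linter.unusedSectionVars false
open Cfsg Subgroup
open scoped commutatorElement

namespace Cfsg.Agent.Lib.ThreeTrans.TL

variable {G : Type*} [Group G] [Finite G]

/-- In a primitive group the cores `O₂`, `O₃` are central. -/
theorem prim_cores {D : Set G} (hD : IsThreeTranspositionClass D) (hprim : IsPrimitiveUnderConj D)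
    (hw : ∃ a ∈ D, ∃ b ∈ D, a ≠ b ∧ Commute a b) : pCore 2 G ≤ center G ∧ pCore 3 G ≤ center G := by
  haveI : Fact (Nat.Prime 2) := ⟨Nat.prime_two⟩
  haveI : Fact (Nat.Prime 3) := ⟨Nat.prime_three⟩
  obtain ⟨htr, ⟨a₀, ha₀, b₀, hb₀, hne₀⟩, hblock⟩ := hprim
  have h := CD.of_class hD
  have hprim' : ∀ B : Set G, B ⊆ D → IsBlock B → B.Subsingleton ∨ B = D :=
    fun B hBD hB => hblock B hBD hB
  have hnorm : ∀ N : Subgroup G, N.Normal → ¬ N ≤ center G → ∀ a ∈ D, orb N a = D := by
    intro N hN hnc a ha
    have hsub : orb N a ⊆ D := by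
      rintro _ ⟨n, -, rfl⟩
      exact h.cj n a ha
    refine (hprim' _ hsub (orb_block hN a)).resolve_left fun hs => hnc ?_
    refine h.le_center hN ha fun n hn => ?_
    have h1 : n * a * n⁻¹ = a := hs ⟨n, hn, rfl⟩ ⟨1, one_mem _, by simp⟩
    calc a * n = n * a * n⁻¹ * n := by rw [h1]
      _ = n * a := by group
  have hnotcentral : ∀ a ∈ D, a ∉ center G := by
    intro a ha hz
    apply hne₀
    obtain ⟨g, hg⟩ := htr a ha a₀ ha₀
    obtain ⟨g', hg'⟩ := htr a ha b₀ hb₀
    have h1 := mem_center_iff.mp hz g
    have h2 := mem_center_iff.mp hz g'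
    rw [← hg, ← hg', h1, h2, mul_inv_cancel_right, mul_inv_cancel_right]
  constructor
  · by_contra hnc
    have hex : ∃ x ∈ D, ∃ y ∈ D, ¬ Commute x y := by
      by_contra hall
      push Not at hall
      exact hnotcentral a₀ ha₀ (h.mem_center fun d hd => (hall a₀ ha₀ d hd).symm.eq)
    obtain ⟨x, hx, y, hy, hxy⟩ := hex
    have hyo : y ∈ orb (pCore 2 G) x := by rw [hnorm _ (Basic.pCore_normal 2) hnc x hx]; exact hy
    obtain ⟨n, hn, rfl⟩ := hyo
    have hm : x * (n * x * n⁻¹) ∈ pCore 2 G := by
      have e : x * (n * x * n⁻¹) = (x * n * x⁻¹) * n⁻¹ := by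
        rw [h.inv_eq hx]; group
      rw [e]
      exact mul_mem ((Basic.pCore_normal 2).conj_mem n hn x) (inv_mem hn)
    have h2 := h.pair2 hx hy hm
    apply hxy
    exact comm_of_sq (h.inv x hx) (h.inv _ hy) (by rw [pow_two]; exact h2)
  · by_contra hnc
    obtain ⟨a, ha, b, hb, hab, hcab⟩ := hw
    have hyo : b ∈ orb (pCore 3 G) a := by rw [hnorm _ (Basic.pCore_normal 3) hnc a ha]; exact hb
    obtain ⟨n, hn, hb'⟩ := hyo
    have hm : a * b ∈ pCore 3 G := by
      have e : a * b = (a * n * a⁻¹) * n⁻¹ := by
        rw [hb', h.inv_eq ha]; group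
      rw [e]
      exact mul_mem ((Basic.pCore_normal 3).conj_mem n hn a) (inv_mem hn)
    have h2 : (a * b) ^ 2 = 1 := by
      rw [hcab.mul_pow, pow_two, pow_two, h.inv a ha, h.inv b hb, one_mul]
    have h4 := eq_one_of_pGroup (p := 3) (q := 2) Nat.prime_three (Basic.pCore_isPGroup 3) hm h2
      (by norm_num)
    apply hab
    have := eq_inv_of_mul_eq_one_left h4
    rwa [h.inv_eq hb] at this

/-- Index two: the derived group lies in the subgroup. -/
theorem commutator_le_of_index {L : Subgroup G} (hLn : L.Normal) (hi : L.index ≤ 2) :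
    commutator G ≤ L := by
  rw [_root_.commutator_def, Subgroup.commutator_le]
  intro g₁ _ g₂ _
  rw [commutatorElement_def]
  by_cases h1 : g₁ ∈ L
  · have := hLn.conj_mem _ (inv_mem h1) g₂
    have e : g₁ * g₂ * g₁⁻¹ * g₂⁻¹ = g₁ * (g₂ * g₁⁻¹ * g₂⁻¹) := by group
    rw [e]; exact mul_mem h1 this
  by_cases h2 : g₂ ∈ L
  · exact mul_mem (hLn.conj_mem _ h2 g₁) (inv_mem h2)
  have hi2 : L.index = 2 := by
    have h0 : L.index ≠ 0 := Subgroup.index_ne_zero_of_finite
    have h3 : L.index ≠ 1 := by
      intro h3
      rw [Subgroup.index_eq_one] at h3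
      exact h1 (h3 ▸ mem_top g₁)
    omega
  have h4 : g₁ * g₂ ∈ L := (Subgroup.mul_mem_iff_of_index_two hi2).mpr (iff_of_false h1 h2)
  have h5 : g₁⁻¹ * g₂⁻¹ ∈ L := (Subgroup.mul_mem_iff_of_index_two hi2).mpr
    (iff_of_false (fun h => h1 (by simpa using inv_mem h)) (fun h => h2 (by simpa using inv_mem h)))
  have e : g₁ * g₂ * g₁⁻¹ * g₂⁻¹ = (g₁ * g₂) * (g₁⁻¹ * g₂⁻¹) := by group
  rw [e]; exact mul_mem h4 h5

/-- The quasisimple normal subgroup of index at most two is the derived group. -/
theorem eq_commutator {L : Subgroup G} (hLn : L.Normal) (hq : IsQuasisimple L) (hi : L.index ≤ 2) :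
    commutator G = L := by
  apply le_antisymm (commutator_le_of_index hLn hi)
  rw [← show ⁅L, L⁆ = L from Components.qs_self hq, _root_.commutator_def]
  exact Subgroup.commutator_mono le_top le_top

/-- A quasisimple subgroup with trivial centre is simple. -/
theorem simple_of_qs {X : Type*} [Group X] (hq : IsQuasisimple X) (hz : center X = ⊥) :
    IsSimpleGroup X := by
  haveI := Components.qs_nontrivial hq
  refine ⟨fun N hN => ?_⟩
  rcases Components.qs_normal hq N with h | h
  · exact Or.inr h
  · exact Or.inl (le_bot_iff.mp (hz ▸ h))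

/-- The main theorem. -/
theorem simple_main {D : Set G} (hD : IsThreeTranspositionClass D) (hZ : center G = ⊥)
    (hw : ∃ a ∈ D, ∃ b ∈ D, a ≠ b ∧ Commute a b) :
    (IsSimpleGroup (commutator G) ↔ IsPrimitiveUnderConj D) ∧
    (IsPrimitiveUnderConj D ↔ (pCore 2 G = ⊥ ∧ pCore 3 G = ⊥ ∧ (commutingGraph D).Connected)) := by
  haveI : Fact (Nat.Prime 2) := ⟨Nat.prime_two⟩
  haveI : Fact (Nat.Prime 3) := ⟨Nat.prime_three⟩
  have h := CD.of_class hD
  have hset := hD.1
  have hD' : IsThreeTranspositionGroup D := ⟨hD.1, h.cj, h.gen⟩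
  have hD2 : ∃ a ∈ D, ∃ b ∈ D, a ≠ b := by
    obtain ⟨a, ha, b, hb, hab, -⟩ := hw
    exact ⟨a, ha, b, hb, hab⟩
  -- from `F* = L Z` with `|G : L| ≤ 2` to primitivity
  have hprimOf : ∀ L : Subgroup G, L.Normal → IsQuasisimple L → L.index ≤ 2 →
      generalizedFittingSubgroup G = L ⊔ center G → pCore 2 G ≤ center G →
      pCore 3 G ≤ center G → IsPrimitiveUnderConj D := by
    intro L hLn hq hi hF h2 h3
    refine ⟨?_, hD2, ?_⟩
    · intro a ha b hb
      obtain ⟨g, rfl⟩ := h.tr a ha b hb
      exact ⟨g, rfl⟩
    · intro B hBD hB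
      exact block_trivial h hset h2 h3 hLn hq hF (orbit_of_index h hLn hi) hBD hB
  have hprim_conn : IsPrimitiveUnderConj D ↔
      (pCore 2 G = ⊥ ∧ pCore 3 G = ⊥ ∧ (commutingGraph D).Connected) := by
    constructor
    · intro hp
      obtain ⟨h2, h3⟩ := prim_cores hD hp hw
      obtain ⟨-, hc, -⟩ := prim_main hD' hp hw
      rw [hZ] at h2 h3
      exact ⟨le_bot_iff.mp h2, le_bot_iff.mp h3, hc⟩
    · rintro ⟨h2, h3, hc⟩
      have h2' : pCore 2 G ≤ center G := by rw [h2]; exact bot_le
      have h3' : pCore 3 G ≤ center G := by rw [h3]; exact bot_le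
      obtain ⟨L, hLn, hLc, -, hF⟩ := exists_component h hset hD2 h2' h3'
      obtain ⟨a, ha, -⟩ := hD2
      have hi : L.index ≤ 2 := index_le_two_of_coset h hLn ha fun x hx =>
        coset_of_connected h hLn hLc.2 hc ⟨a, ha⟩ ⟨x, hx⟩
      exact hprimOf L hLn hLc.2 hi hF h2' h3'
  refine ⟨?_, hprim_conn⟩
  constructor
  · intro hS
    -- the derived group `S` has index at most two
    have hSn : (commutator G).Normal := inferInstance
    set S := commutator G with hSdef
    obtain ⟨a, ha, b, hb, hab, hcab⟩ := hw
    have hiS : S.index ≤ 2 := by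
      refine index_le_two_of_coset h hSn ha fun x hx => ?_
      obtain ⟨g, rfl⟩ := h.tr a ha x hx
      have e : a⁻¹ * (g * a * g⁻¹) = ⁅a⁻¹, g⁆ := by
        rw [commutatorElement_def, inv_inv]; group
      rw [e]
      exact Subgroup.commutator_mem_commutator (mem_top _) (mem_top _)
    -- `S` is not abelian
    have habS : a * b ∈ S := by
      obtain ⟨g, rfl⟩ := h.tr a ha b hb
      have e : a * (g * a * g⁻¹) = ⁅a⁻¹, g⁆ := by
        rw [commutatorElement_def, inv_inv, h.inv_eq ha]; group
      rw [e]
      exact Subgroup.commutator_mem_commutator (mem_top _) (mem_top _)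
    have hab1 : a * b ≠ 1 := h.mul_ne_one hb hab
    have hnab : ¬ ∀ x ∈ S, ∀ y ∈ S, x * y = y * x := by
      intro hcomm
      -- then `S` has order two and is central
      have hsq : (a * b) * (a * b) = 1 := by
        have : (a * b) ^ 2 = 1 := by
          rw [hcab.mul_pow, pow_two, pow_two, h.inv a ha, h.inv b hb, one_mul]
        rwa [pow_two] at this
      let t : S := ⟨a * b, habS⟩
      have hzt : (zpowers t).Normal := by
        refine ⟨fun n hn g => ?_⟩
        have e : g * n * g⁻¹ = n := by
          apply Subtype.ext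
          have := hcomm g g.2 n n.2
          show (g : G) * n * (g : G)⁻¹ = n
          rw [this]; group
        rwa [e]
      have htop : zpowers t = ⊤ := by
        rcases IsSimpleGroup.eq_bot_or_eq_top_of_normal _ hzt with h0 | h0
        · exfalso
          rw [zpowers_eq_bot] at h0
          exact hab1 (congrArg Subtype.val h0)
        · exact h0
      have hSall : ∀ x ∈ S, x = 1 ∨ x = a * b := by
        intro x hx
        have hx' : (⟨x, hx⟩ : S) ∈ zpowers t := by rw [htop]; exact mem_top _
        obtain ⟨k, hk⟩ := Subgroup.mem_zpowers_iff.mp hx'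
        have hk' : (a * b) ^ k = x := by
          have := congrArg Subtype.val hk
          simpa [t] using this
        rcases Int.even_or_odd k with he | ho
        · left
          obtain ⟨m, rfl⟩ := he
          rw [← hk', ← two_mul, zpow_mul]
          have : (a * b) ^ (2 : ℤ) = 1 := by
            rw [zpow_two]; exact hsq
          rw [this, one_zpow]
        · right
          obtain ⟨m, rfl⟩ := ho
          rw [← hk', zpow_add, zpow_mul]
          have : (a * b) ^ (2 : ℤ) = 1 := by
            rw [zpow_two]; exact hsq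
          rw [this, one_zpow, one_mul, zpow_one]
      have hcen : a * b ∈ center G := by
        rw [mem_center_iff]
        intro g
        have h5 : g * (a * b) * g⁻¹ ∈ S := hSn.conj_mem _ habS g
        rcases hSall _ h5 with h6 | h6
        · exfalso
          apply hab1
          have : a * b = g⁻¹ * (g * (a * b) * g⁻¹) * g := by group
          rw [this, h6]; group
        · calc g * (a * b) = g * (a * b) * g⁻¹ * g := by group
            _ = a * b * g := by rw [h6]
      rw [hZ, mem_bot] at hcen
      exact hab1 hcen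
    -- `S` is quasisimple with trivial centre
    have hq : IsQuasisimple S := by
      haveI : Nontrivial S := hS.toNontrivial
      have hperf : Group.IsPerfect S := by
        refine ⟨?_⟩
        rcases IsSimpleGroup.eq_bot_or_eq_top_of_normal (commutator S) inferInstance with h0 | h0
        · exfalso
          apply hnab
          intro x hx y hy
          have h1 := (commutator_eq_bot_iff_center_eq_top S).mp h0
          have h2 : (⟨x, hx⟩ : S) ∈ center S := by rw [h1]; exact mem_top _
          exact congrArg Subtype.val (mem_center_iff.mp h2 ⟨y, hy⟩).symm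
        · exact h0
      refine Components.qs_of_forall_normal hperf fun N hN => ?_
      rcases IsSimpleGroup.eq_bot_or_eq_top_of_normal N hN with h0 | h0
      · right; rw [h0]; exact bot_le
      · left; exact h0
    have hSc : IsComponent S := ⟨hSn.isSubnormal, hq⟩
    -- the centralizer of `S` is trivial
    have hCS : ∀ c, c ∈ centralizer (S : Set G) → c = 1 := by
      intro c hc
      have hcz : c ∈ center G := by
        rw [mem_center_iff]
        intro g
        have h1 : ⁅g, c⁆ ∈ S := Subgroup.commutator_mem_commutator (mem_top _) (mem_top _)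
        have h2 : ⁅g, c⁆ ∈ centralizer (S : Set G) := by
          rw [commutatorElement_def]
          refine mul_mem ?_ (inv_mem hc)
          haveI := hSn
          exact (inferInstance : (centralizer (S : Set G)).Normal).conj_mem c hc g
        have h3 : (⟨⁅g, c⁆, h1⟩ : S) ∈ center S := by
          rw [mem_center_iff]
          intro u
          exact Subtype.ext ((mem_centralizer_iff.mp h2) u u.2)
        have h4 : center S ≠ ⊤ := Components.qs_center_ne_top hq
        have h5 : center S = ⊥ := (IsSimpleGroup.eq_bot_or_eq_top_of_normal _ inferInstance).resolve_right h4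
        rw [h5, mem_bot] at h3
        have h6 : ⁅g, c⁆ = 1 := congrArg Subtype.val h3
        rw [commutatorElement_eq_one_iff_mul_comm] at h6
        exact h6
      rw [hZ, mem_bot] at hcz
      exact hcz
    -- normal `p`-subgroups are trivial
    have hcore : ∀ p : ℕ, [Fact p.Prime] → pCore p G = ⊥ := by
      intro p _
      have hpn := Basic.pCore_normal (G := G) p
      have hNL : ((pCore p G ⊓ S).subgroupOf S).Normal := by
        refine ⟨fun x hx g => ?_⟩
        rw [mem_subgroupOf] at hx ⊢
        have hx' := Subgroup.mem_inf.mp hx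
        rw [Subgroup.coe_mul, Subgroup.coe_mul, Subgroup.coe_inv]
        exact Subgroup.mem_inf.mpr ⟨hpn.conj_mem _ hx'.1 g, S.mul_mem (S.mul_mem g.2 hx'.2) (S.inv_mem g.2)⟩
      rcases Components.qs_normal_in hq (inf_le_right : pCore p G ⊓ S ≤ S) hNL with h1 | h1
      · -- `S` would be a `p`-group
        exfalso
        have hle : S ≤ pCore p G := inf_eq_right.mp h1
        have hpg : IsPGroup p S := (Basic.pCore_isPGroup p).to_le hle
        haveI : Nontrivial S := hS.toNontrivial
        have hc := hpg.center_nontrivial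
        apply Components.qs_center_ne_top hq
        exact (IsSimpleGroup.eq_bot_or_eq_top_of_normal _ inferInstance).resolve_left fun h0 => by
          rw [h0] at hc
          exact not_nontrivial_iff_subsingleton.mpr (inferInstance : Subsingleton (⊥ : Subgroup S)) hc
      · rw [eq_bot_iff]
        intro n hn
        rw [mem_bot]
        apply hCS
        rw [mem_centralizer_iff]
        intro u hu
        have h2 : n * u * n⁻¹ * u⁻¹ ∈ pCore p G ⊓ S := by
          refine Subgroup.mem_inf.mpr ⟨?_, S.mul_mem (hSn.conj_mem _ hu n) (S.inv_mem hu)⟩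
          have e : n * u * n⁻¹ * u⁻¹ = n * (u * n⁻¹ * u⁻¹) := by group
          rw [e]
          exact mul_mem hn (hpn.conj_mem _ (inv_mem hn) u)
        have h3 := hCS _ (h1 h2)
        have h4 : n * u = u * n := by
          calc n * u = (n * u * n⁻¹ * u⁻¹) * (u * n) := by group
            _ = u * n := by rw [h3, one_mul]
        exact h4.symm
    have h2' : pCore 2 G ≤ center G := by rw [hcore 2]; exact bot_le
    have h3' : pCore 3 G ≤ center G := by rw [hcore 3]; exact bot_le
    obtain ⟨L, hLn, hLc, -, hF⟩ := exists_component h hset hD2 h2' h3'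
    have hSL : S = L := component_unique h hSc hLc
    rw [← hSL] at hF
    exact hprimOf S hSn hq hiS hF h2' h3'
  · intro hp
    obtain ⟨⟨L, hLn, hq, hi, -⟩, -⟩ := prim_main hD' hp hw
    obtain ⟨h2, h3⟩ := prim_cores hD hp hw
    rw [eq_commutator hLn hq hi]
    -- trivial centre of `L`
    refine simple_of_qs hq ?_
    rw [eq_bot_iff]
    intro z hz
    haveI := hLn
    have hT : (L ⊓ centralizer (L : Set G)).Normal := inferInstance
    have hTnil : Group.IsNilpotent (L ⊓ centralizer (L : Set G) : Subgroup G) :=
      nilp_of_comm fun x hx y hy => (mem_centralizer_iff.mp (Subgroup.mem_inf.mp hy).2 x (Subgroup.mem_inf.mp hx).1)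
    have hTF := Components.le_fitting hT hTnil
    rw [fitting_eq_center h hset h2 h3, hZ] at hTF
    have hm : (z : G) ∈ L ⊓ centralizer (L : Set G) := by
      refine Subgroup.mem_inf.mpr ⟨z.2, ?_⟩
      rw [mem_centralizer_iff]
      intro u hu
      exact congrArg Subtype.val (mem_center_iff.mp hz ⟨u, hu⟩)
    have := hTF hm
    rw [mem_bot] at this
    rw [mem_bot]
    exact Subtype.ext this

end Cfsg.Agent.Lib.ThreeTrans.TL
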