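import Mathlib
import Cfsg.Agent.Lib.ThreeTrans.ReflMod3
import Cfsg.Agent.Lib.ThreeTrans.TTMax
import Cfsg.Agent.Lib.ThreeTrans.TTSimple

/-!
# Primitivity of the reflection group over the field with three elements

The reflections of norm `c` in dimension at least five form a primitive class of 3-transpositions
of the group they generate.
-/

set_option autoImplicit false
set_option linter.unusedSimpArgs false
set_option linter.unusedVariables false
set_option linter.unusedSectionVars false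
set_option linter.style.haveILetI false

namespace Cfsg.Agent.Lib.ThreeTrans.RP

open Matrix Module Cfsg.Agent.Lib.Classical Cfsg.Agent.Lib.ThreeTrans.RM

variable {ι : Type} [Fintype ι] [DecidableEq ι] {Q : QuadraticForm (ZMod 3) (ι → ZMod 3)}

local notation "bb" => QuadraticMap.polar (DFunLike.coe Q)

/-- A perpendicular vector of prescribed non-zero norm. -/
theorem exists_perp_val (hn : (Module.finrank (ZMod 3) (ι → ZMod 3)) = Fintype.card ι)
    (hQ : (QuadraticMap.polarBilin Q).Nondegenerate) {P : Submodule (ZMod 3) (ι → ZMod 3)} (hP : QND Q P)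
    (hd : finrank (ZMod 3) P + 2 ≤ Fintype.card ι) {d : ZMod 3} (h0 : d ≠ 0) :
    ∃ y ∈ qPerp Q P, Q y = d := by
  have hperp : QND Q (qPerp Q P) := by
    have := qnd_inf_perp (qnd_top hQ) hP le_top
    rwa [top_inf_eq] at this
  have hfr := qnd_finrank (W := ⊤) hP le_top
  rw [top_inf_eq, finrank_top, hn] at hfr
  have hdim : 2 ≤ finrank (ZMod 3) (qPerp Q P) := by omega
  have hperp' : ∀ y ∈ qPerp Q P, (∀ z ∈ qPerp Q P, bb z y = 0) → y = 0 := by
    intro y hy h
    apply hperp y hy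
    intro z hz
    rw [polar_symm]
    exact h z hz
  exact Cfsg.Agent.Lib.Spinor.exists_val_sub (Q := Q) hperp' hdim h0

theorem two_ne' : (2 : ZMod 3) ≠ 0 := by decide

/-- A non-zero isotropic vector perpendicular to two orthogonal vectors of norm `c`. -/
theorem exists_iso (hQ : (QuadraticMap.polarBilin Q).Nondegenerate) (hn : 5 ≤ Fintype.card ι) {c : ZMod 3} (hc : c ≠ 0)
    {u v : ι → ZMod 3} (hu : Q u = c) (hv : Q v = c) (he : bb u v = 0) :
    ∃ y : ι → ZMod 3, y ≠ 0 ∧ Q y = 0 ∧ bb u y = 0 ∧ bb v y = 0 := by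
  have hfr0 : Module.finrank (ZMod 3) (ι → ZMod 3) = Fintype.card ι := Module.finrank_fintype_fun_eq_card _
  have hu0 : Q u ≠ 0 := by rwa [hu]
  have hv0 : Q v ≠ 0 := by rwa [hv]
  have huz : u ≠ 0 := by
    rintro rfl
    exact hu0 q_zero
  have hvz : v ≠ 0 := by
    rintro rfl
    exact hv0 q_zero
  have h2c : (2 : ZMod 3) * c ≠ 0 := mul_ne_zero two_ne' hc
  have huu : bb u u ≠ 0 := by
    rw [polar_self2, hu]; exact h2c
  have hvv : bb v v ≠ 0 := by
    rw [polar_self2, hv]; exact h2c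
  let P : Submodule (ZMod 3) (ι → ZMod 3) := Submodule.span (ZMod 3) {u}
  have hPnd : QND Q P := by
    intro x hx h
    obtain ⟨α, rfl⟩ := Submodule.mem_span_singleton.1 hx
    have h1 := h u (Submodule.mem_span_singleton_self u)
    rw [polar_smul_l] at h1
    rw [(mul_eq_zero.1 h1).resolve_right huu, zero_smul]
  have hPr : finrank (ZMod 3) P = 1 := finrank_span_singleton huz
  have hvP : v ∈ qPerp Q P := by
    intro y hy
    obtain ⟨α, rfl⟩ := Submodule.mem_span_singleton.1 hy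
    rw [polar_smul_r, polar_symm, he, mul_zero]
  have hUnd := Cfsg.Agent.Lib.Classical.qnd_sup_span hPnd hvP hvv
  have hUr := Cfsg.Agent.Lib.Classical.finrank_sup_span hPnd hvP hvz
  obtain ⟨U, hU⟩ : ∃ U, U = P ⊔ Submodule.span (ZMod 3) {v} := ⟨_, rfl⟩
  rw [← hU] at hUnd hUr
  obtain ⟨y₁, hy₁U, hQy₁⟩ := exists_perp_val hfr0 hQ hUnd (by omega) (d := 1) one_ne_zero
  have hy₁z : y₁ ≠ 0 := by
    rintro rfl
    rw [q_zero] at hQy₁
    exact zero_ne_one hQy₁
  have hy₁y₁ : bb y₁ y₁ ≠ 0 := by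
    rw [polar_self2, hQy₁]; exact mul_ne_zero two_ne' one_ne_zero
  have hU'nd := Cfsg.Agent.Lib.Classical.qnd_sup_span hUnd hy₁U hy₁y₁
  have hU'r := Cfsg.Agent.Lib.Classical.finrank_sup_span hUnd hy₁U hy₁z
  obtain ⟨y₂, hy₂U, hQy₂⟩ := exists_perp_val hfr0 hQ hU'nd (by omega) (d := -1) (by decide)
  have huU : u ∈ U := by
    rw [hU]; exact Submodule.mem_sup_left (Submodule.mem_span_singleton_self u)
  have hvU : v ∈ U := by
    rw [hU]; exact Submodule.mem_sup_right (Submodule.mem_span_singleton_self v)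
  have huy₁ : bb u y₁ = 0 := by
    rw [polar_symm]; exact hy₁U u huU
  have hvy₁ : bb v y₁ = 0 := by
    rw [polar_symm]; exact hy₁U v hvU
  have huy₂ : bb u y₂ = 0 := by
    rw [polar_symm]; exact hy₂U u (Submodule.mem_sup_left huU)
  have hvy₂ : bb v y₂ = 0 := by
    rw [polar_symm]; exact hy₂U v (Submodule.mem_sup_left hvU)
  have hy₁y₂ : bb y₁ y₂ = 0 := by
    rw [polar_symm]; exact hy₂U y₁ (Submodule.mem_sup_right (Submodule.mem_span_singleton_self y₁))
  refine ⟨y₁ + y₂, ?_, ?_, ?_, ?_⟩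
  · intro h
    have h3 : y₂ = -y₁ := (eq_neg_of_add_eq_zero_right h)
    rw [h3, q_neg, hQy₁] at hQy₂
    revert hQy₂
    decide
  · rw [q_add, hQy₁, hQy₂, hy₁y₂]
    simp
  · rw [polar_add_r, huy₁, huy₂, add_zero]
  · rw [polar_add_r, hvy₁, hvy₂, add_zero]

/-- A vector perpendicular to `a`, not perpendicular to a given non-zero vector of `a⊥`. -/
theorem exists_perp_ne (hQ : (QuadraticMap.polarBilin Q).Nondegenerate) {c : ZMod 3} (hc : c ≠ 0)
    {a x : ι → ZMod 3} (ha : Q a = c) (hax : bb a x = 0) (hx : x ≠ 0) :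
    ∃ p, bb a p = 0 ∧ bb p x ≠ 0 := by
  obtain ⟨p₀, hp₀⟩ := exists_polar_eq_one hQ hx
  have h2c : (2 : ZMod 3) * c ≠ 0 := mul_ne_zero two_ne' hc
  refine ⟨p₀ - (bb a p₀ / (2 * c)) • a, ?_, ?_⟩
  · rw [polar_sub_r, polar_smul_r, polar_self2, ha, div_mul_cancel₀ _ h2c, sub_self]
  · rw [polar_sub_l, polar_smul_l, hax, mul_zero, sub_zero, polar_symm, hp₀]
    exact one_ne_zero

/-- The vector `h` of the main argument. -/
theorem exists_h (hQ : (QuadraticMap.polarBilin Q).Nondegenerate) {c : ZMod 3} (hc : c ≠ 0)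
    {a x y : ι → ZMod 3} (ha : Q a = c) (hax : bb a x = 0) (hay : bb a y = 0) (hx : x ≠ 0) (hy : y ≠ 0)
    (hQx : Q x = 0) (hxy : bb x y = 0) :
    ∃ h, Q h = c ∧ bb a h = 0 ∧ bb h x ≠ 0 ∧ bb h y ≠ 0 := by
  obtain ⟨p, hp1, hp2⟩ := exists_perp_ne hQ hc ha hax hx
  obtain ⟨q, hq1, hq2⟩ := exists_perp_ne hQ hc ha hay hy
  obtain ⟨h₀, hh₀, hh₁, hh₂⟩ : ∃ h₀, bb a h₀ = 0 ∧ bb h₀ x ≠ 0 ∧ bb h₀ y ≠ 0 := by
    by_cases h1 : bb p y = 0
    · by_cases h2 : bb q x = 0
      · refine ⟨p + q, ?_, ?_, ?_⟩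
        · rw [polar_add_r, hp1, hq1, add_zero]
        · rwa [polar_add_l, h2, add_zero]
        · rwa [polar_add_l, h1, zero_add]
      · exact ⟨q, hq1, h2, hq2⟩
    · exact ⟨p, hp1, hp2, h1⟩
  refine ⟨h₀ + ((c - Q h₀) / bb h₀ x) • x, ?_, ?_, ?_, ?_⟩
  · rw [q_add, q_smul, hQx, polar_smul_r]
    field_simp
    ring
  · rw [polar_add_r, polar_smul_r, hh₀, hax, mul_zero, add_zero]
  · rw [polar_add_l, polar_smul_l, polar_self2, hQx]
    simpa using hh₁
  · rw [polar_add_l, polar_smul_l, hxy, mul_zero, add_zero]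
    exact hh₂

/-- An element of the reflection subgroup. -/
noncomputable def el {c : ZMod 3} (v : ι → ZMod 3) (hc : c ≠ 0) (hv : Q v = c) : RS Q c :=
  ⟨rf v (by rwa [hv]), Subgroup.subset_closure (rf_mem hv _)⟩

theorem el_coe {c : ZMod 3} (v : ι → ZMod 3) (hc : c ≠ 0) (hv : Q v = c) :
    ((el v hc hv : RS Q c) : OG Q) = rf v (by rwa [hv]) := rfl

theorem el_congr {c : ZMod 3} {v w : ι → ZMod 3} (hc : c ≠ 0) (hv : Q v = c) (hw : Q w = c) (h : v = w) :
    el v hc hv = el w hc hw := by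
  subst h; rfl

theorem el_smul {c : ZMod 3} {v : ι → ZMod 3} (hc : c ≠ 0) (hv : Q v = c) {e : ZMod 3} (he : e ≠ 0)
    (hw : Q (e • v) = c) : el (e • v) hc hw = el v hc hv := by
  apply Subtype.ext
  exact rf_smul (by rwa [hv]) he (by rwa [hw])

theorem el_conj {c : ZMod 3} {t u : ι → ZMod 3} (hc : c ≠ 0) (ht : Q t = c) (hu : Q u = c) :
    el t hc ht * el u hc hu * (el t hc ht)⁻¹ =
      el (oM (rf t (by rwa [ht])) *ᵥ u) hc (by rw [oM_Q, hu]) := by
  apply Subtype.ext
  have ht0 : Q t ≠ 0 := by rwa [ht]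
  have hu0 : Q u ≠ 0 := by rwa [hu]
  exact rf_conj (rf t ht0) u hu0

theorem el_fix {c : ZMod 3} {t u : ι → ZMod 3} (hc : c ≠ 0) (ht : Q t = c) (hu : Q u = c) (h : bb t u = 0) :
    el t hc ht * el u hc hu * (el t hc ht)⁻¹ = el u hc hu := by
  rw [el_conj]
  exact el_congr hc _ _ (rf_fix t _ h)

theorem el_self {c : ZMod 3} {t : ι → ZMod 3} (hc : c ≠ 0) (ht : Q t = c) :
    el t hc ht * el t hc ht * (el t hc ht)⁻¹ = el t hc ht := by
  group

section block

variable {c : ZMod 3} (hc : c ≠ 0) {B : Set (RS Q c)}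
  (hB : ∀ g : RS Q c, (fun x => g * x * g⁻¹) '' B = B ∨ Disjoint ((fun x => g * x * g⁻¹) '' B) B)

include hB in
theorem stab_of_mem {x g : RS Q c} (hx : x ∈ B) (h : g * x * g⁻¹ ∈ B) : (fun x => g * x * g⁻¹) '' B = B := by
  rcases hB g with h1 | h1
  · exact h1
  · exact absurd (Set.disjoint_left.1 h1 (Set.mem_image_of_mem _ hx)) (by simpa using h)

include hB in
theorem stab_of_perp {t u : ι → ZMod 3} (ht : Q t = c) (hu : Q u = c) (hm : el u hc hu ∈ B) (h : bb t u = 0) :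
    (fun x => el t hc ht * x * (el t hc ht)⁻¹) '' B = B := by
  apply stab_of_mem hB hm
  rw [el_fix hc ht hu h]
  exact hm

theorem mem_of_stab {t u : ι → ZMod 3} (ht : Q t = c) (hu : Q u = c) (hm : el u hc hu ∈ B)
    (h : (fun x => el t hc ht * x * (el t hc ht)⁻¹) '' B = B) :
    el (oM (rf t (by rwa [ht])) *ᵥ u) hc (by rw [oM_Q, hu]) ∈ B := by
  rw [← el_conj hc ht hu, ← h]
  exact Set.mem_image_of_mem (fun x => el t hc ht * x * (el t hc ht)⁻¹) hm

/-- A normalized pair. -/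
structure NP (a b : ι → ZMod 3) (ha : Q a = c) (hb : Q b = c) : Prop where
  ab : bb a b = c
  ne : a + b ≠ 0
  ma : el a hc ha ∈ B
  mb : el b hc hb ∈ B

variable {hc hB}

include hB in
theorem NP.stab_a {a b : ι → ZMod 3} {ha : Q a = c} {hb : Q b = c} (h : NP (B := B) hc a b ha hb) :
    (fun x => el a hc ha * x * (el a hc ha)⁻¹) '' B = B := by
  apply stab_of_mem hB h.ma
  rw [el_self]
  exact h.ma

include hB in
theorem NP.third {a b : ι → ZMod 3} {ha : Q a = c} {hb : Q b = c} (h : NP (B := B) hc a b ha hb)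
    (hf : Q (b - a) = c) : el (b - a) hc hf ∈ B := by
  have h1 := mem_of_stab hc ha hb h.mb (h.stab_a (hB := hB))
  convert h1 using 1
  apply el_congr
  rw [rf_apply, ha, h.ab, inv_mul_cancel₀ hc, one_smul]

theorem q_third {a b : ι → ZMod 3} (ha : Q a = c) (hb : Q b = c) (hab : bb a b = c) : Q (b - a) = c := by
  rw [q_sub, ha, hb, polar_symm, hab]
  ring

include hB in
/-- The easy cases. -/
theorem NP.easy {a b g : ι → ZMod 3} {ha : Q a = c} {hb : Q b = c} (h : NP (B := B) hc a b ha hb) (hg : Q g = c)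
    (hcases : bb g a = 0 ∨ bb g b = 0 ∨ bb g a = bb g b) :
    (fun x => el g hc hg * x * (el g hc hg)⁻¹) '' B = B := by
  rcases hcases with h1 | h1 | h1
  · exact stab_of_perp hc hB hg ha h.ma h1
  · exact stab_of_perp hc hB hg hb h.mb h1
  · have hf := q_third ha hb h.ab
    apply stab_of_perp hc hB hg hf (h.third (hB := hB) hf)
    rw [polar_sub_r, h1, sub_self]

theorem z3_cases : ∀ α β : ZMod 3, α ≠ 0 → β ≠ 0 → α ≠ β → α + β = 0 := by decide

theorem z3_sq : ∀ e : ZMod 3, e ≠ 0 → e ^ 2 = 1 := by decide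

include hB in
/-- Every reflection stabilizes the block. -/
theorem NP.stab (hQ : (QuadraticMap.polarBilin Q).Nondegenerate) {a b g : ι → ZMod 3} {ha : Q a = c} {hb : Q b = c}
    (h : NP (B := B) hc a b ha hb) (hg : Q g = c) :
    (fun x => el g hc hg * x * (el g hc hg)⁻¹) '' B = B := by
  by_cases h1 : bb g a = 0 ∨ bb g b = 0 ∨ bb g a = bb g b
  · exact h.easy (hB := hB) hg h1
  push Not at h1
  obtain ⟨hα, hβ, hαβ⟩ := h1
  have hsum : bb g a + bb g b = 0 := z3_cases _ _ hα hβ hαβ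
  -- the projection of `g`
  obtain ⟨κ, hκ⟩ : ∃ κ : ZMod 3, κ = (bb g a) / c := ⟨_, rfl⟩
  have hκ0 : κ ≠ 0 := by
    rw [hκ]; exact div_ne_zero hα hc
  have hgab : bb g a = κ * c := by
    rw [hκ]; field_simp
  have haa : bb a a = 2 * c := by rw [polar_self2, ha]
  have h3c : (3 : ZMod 3) = 0 := by decide
  by_cases hg' : g + κ • a = 0
  · -- `g` is a multiple of `a`
    have hge : g = (-κ) • a := by
      rw [neg_smul]; exact eq_neg_of_add_eq_zero_left hg'
    have e1 : el g hc hg = el a hc ha := by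
      have hw : Q ((-κ) • a) = c := by rw [← hge]; exact hg
      rw [el_congr hc hg hw hge]
      exact el_smul hc ha (neg_ne_zero.2 hκ0) hw
    rw [e1]
    exact h.stab_a (hB := hB)
  have hw0 : a + b ≠ 0 := h.ne
  have hQw : Q (a + b) = 0 := by
    rw [q_add, ha, hb, h.ab]
    linear_combination c * h3c
  have haw : bb a (a + b) = 0 := by
    rw [polar_add_r, haa, h.ab]
    linear_combination c * h3c
  have hag' : bb a (g + κ • a) = 0 := by
    rw [polar_add_r, polar_smul_r, haa, polar_symm, hgab]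
    linear_combination κ * c * h3c
  have hwg' : bb (a + b) (g + κ • a) = 0 := by
    rw [polar_add_r, polar_smul_r, polar_symm (a + b) a, haw, polar_symm (a + b) g, polar_add_r, hsum]
    ring
  obtain ⟨t, hQt, hat, ht1, ht2⟩ := exists_h hQ hc ha haw hag' hw0 hg' hQw hwg'
  have htb : bb t b ≠ 0 := by
    have : bb t (a + b) = bb t b := by
      rw [polar_add_r, polar_symm t a, hat, zero_add]
    rwa [this] at ht1
  have htg : bb t g ≠ 0 := by
    have : bb t (g + κ • a) = bb t g := by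
      rw [polar_add_r, polar_smul_r, polar_symm t a, hat, mul_zero, add_zero]
    rwa [this] at ht2
  have hts := stab_of_perp hc hB hQt ha h.ma (by rw [polar_symm]; exact hat)
  have hmb' := mem_of_stab hc hQt hb h.mb hts
  obtain ⟨γ, hγ⟩ : ∃ γ : ZMod 3, γ = (Q t)⁻¹ * bb t b := ⟨_, rfl⟩
  have hγ0 : γ ≠ 0 := by
    rw [hγ, hQt]
    exact mul_ne_zero (inv_ne_zero hc) htb
  have hb'e : oM (rf t (by rwa [hQt])) *ᵥ b = b - γ • t := by
    rw [rf_apply, hγ]
  have hQb' : Q (b - γ • t) = c := by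
    rw [← hb'e, oM_Q, hb]
  have hmb'' : el (b - γ • t) hc hQb' ∈ B := by
    convert hmb' using 1
    exact el_congr hc _ _ hb'e.symm
  have hab' : bb a (b - γ • t) = c := by
    rw [polar_sub_r, polar_smul_r, hat, mul_zero, sub_zero, h.ab]
  have hne' : a + (b - γ • t) ≠ 0 := by
    intro h0
    have : Q (a + (b - γ • t)) = 0 := by rw [h0, q_zero]
    rw [q_add, ha, hQb', hab'] at this
    have h5 : (3 : ZMod 3) * c = 0 := by rw [h3c, zero_mul]
    -- this is consistent, compare with the perpendicularity to `a`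
    have h7 : bb t (a + (b - γ • t)) = 0 := by rw [h0]; simp [QuadraticMap.polar]
    rw [polar_add_r, polar_sub_r, polar_smul_r, polar_self2, hQt, polar_symm t a, hat] at h7
    rw [hγ, hQt] at h7
    have h8 : bb t b - (c⁻¹ * bb t b) * (2 * c) = - bb t b := by
      field_simp
      ring
    have h9 : 0 + (bb t b - (c⁻¹ * bb t b) * (2 * c)) = 0 := h7
    rw [zero_add, h8] at h9
    exact htb (neg_eq_zero.1 h9)
  have hnp : NP (B := B) hc a (b - γ • t) ha hQb' := ⟨hab', hne', h.ma, hmb''⟩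
  apply hnp.easy (hB := hB) hg
  -- compute
  have hβ' : bb g (b - γ • t) = bb g b - γ * bb g t := by
    rw [polar_sub_r, polar_smul_r]
  have hgt : bb g t ≠ 0 := by rwa [polar_symm]
  have hne : γ * bb g t ≠ 0 := mul_ne_zero hγ0 hgt
  have hfin : ∀ α β δ : ZMod 3, α ≠ 0 → α + β = 0 → δ ≠ 0 → (α = 0 ∨ β - δ = 0 ∨ α = β - δ) := by decide
  rw [hβ']
  exact hfin _ _ _ hα hsum hne

end block

section main

variable {c : ZMod 3}

/-- The class of reflections of norm `c`. -/
abbrev DD (Q : QuadraticForm (ZMod 3) (ι → ZMod 3)) (c : ZMod 3) : Set (RS Q c) :=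
  {g : RS Q c | (g : OG Q) ∈ Cfsg.reflectionsOfNorm (⇑Q) c}

theorem el_mem (hc : c ≠ 0) (v : ι → ZMod 3) (hv : Q v = c) : el v hc hv ∈ DD Q c :=
  rf_mem hv (by rwa [hv])

theorem exists_el (hc : c ≠ 0) {g : RS Q c} (hg : g ∈ DD Q c) : ∃ v, ∃ hv : Q v = c, g = el v hc hv := by
  obtain ⟨v, hv, hv0, e⟩ := exists_rf_of_mem hc hg
  exact ⟨v, hv, Subtype.ext e⟩

theorem z3_inv (c e : ZMod 3) (hc : c ≠ 0) (he : e ≠ 0) : (c⁻¹ * e) * e = c := by
  have h1 : e ^ 2 = 1 := z3_sq e he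
  have h2 : c * c = 1 := by rw [← pow_two]; exact z3_sq c hc
  calc (c⁻¹ * e) * e = c⁻¹ * e ^ 2 := by ring
    _ = c⁻¹ := by rw [h1, mul_one]
    _ = c := (eq_inv_of_mul_eq_one_left h2).symm

theorem z3_triple (x : ι → ZMod 3) : x + x + x = 0 := by
  funext i
  simp only [Pi.add_apply, Pi.zero_apply]
  generalize x i = w
  revert w
  decide

/-- A normalized pair from a non-perpendicular pair. -/
theorem np_of_nonperp (hc : c ≠ 0) {B : Set (RS Q c)} {a b : ι → ZMod 3} (ha : Q a = c) (hb : Q b = c) (he : bb a b ≠ 0)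
    (hne : el a hc ha ≠ el b hc hb) (hma : el a hc ha ∈ B) (hmb : el b hc hb ∈ B) :
    ∃ (b' : ι → ZMod 3) (hb' : Q b' = c), NP (B := B) hc a b' ha hb' := by
  have hε0 : c⁻¹ * bb a b ≠ 0 := mul_ne_zero (inv_ne_zero hc) he
  have hQ' : Q ((c⁻¹ * bb a b) • b) = c := by
    rw [q_smul, hb, z3_sq _ hε0, one_mul]
  refine ⟨(c⁻¹ * bb a b) • b, hQ', ?_, ?_, hma, ?_⟩
  · rw [polar_smul_r]
    exact z3_inv c _ hc he
  · intro h0
    apply hne
    have h1 : a = (-(c⁻¹ * bb a b)) • b := by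
      rw [neg_smul]; exact eq_neg_of_add_eq_zero_left h0
    have hQ'' : Q ((-(c⁻¹ * bb a b)) • b) = c := by rw [← h1]; exact ha
    rw [el_congr hc ha hQ'' h1]
    exact el_smul hc hb (neg_ne_zero.2 hε0) hQ''
  · rw [el_smul hc hb hε0 hQ']
    exact hmb

theorem z3_two : (-(2 : ZMod 3)) = 1 := by decide

/-- A normalized pair from two different members of a block. -/
theorem exists_np (hQ : (QuadraticMap.polarBilin Q).Nondegenerate) (hn : 5 ≤ Fintype.card ι) (hc : c ≠ 0) {B : Set (RS Q c)}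
    (hB : ∀ g : RS Q c, (fun x => g * x * g⁻¹) '' B = B ∨ Disjoint ((fun x => g * x * g⁻¹) '' B) B)
    {a b : ι → ZMod 3} (ha : Q a = c) (hb : Q b = c)
    (hne : el a hc ha ≠ el b hc hb) (hma : el a hc ha ∈ B) (hmb : el b hc hb ∈ B) :
    ∃ (a' b' : ι → ZMod 3) (ha' : Q a' = c) (hb' : Q b' = c), NP (B := B) hc a' b' ha' hb' := by
  by_cases he : bb a b = 0
  swap
  · obtain ⟨b', hb', h⟩ := np_of_nonperp hc ha hb he hne hma hmb
    exact ⟨a, b', ha, hb', h⟩
  obtain ⟨y, hy0, hQy, hay, hby⟩ := exists_iso hQ hn hc ha hb he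
  have hQg : Q (b + y) = c := by
    rw [q_add, hb, hQy, hby]
    ring
  have hga : bb (b + y) a = 0 := by
    rw [polar_add_l, polar_symm b a, he, polar_symm y a, hay, add_zero]
  have hst := stab_of_perp hc hB hQg ha hma hga
  have hm := mem_of_stab hc hQg hb hmb hst
  have hbb2 : bb b b = 2 * c := by rw [polar_self2, hb]
  have h1 : oM (rf (b + y) (by rwa [hQg])) *ᵥ b = y - b := by
    rw [rf_apply, hQg, polar_add_l, hbb2, polar_symm y b, hby, add_zero]
    have e1 : c⁻¹ * (2 * c) = 2 := by field_simp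
    rw [e1]
    have e2 : (2 : ZMod 3) = -1 := by decide
    rw [e2, neg_one_smul, sub_neg_eq_add, eq_sub_iff_add_eq]
    calc b + (b + y) + b = (b + b + b) + y := by abel
      _ = y := by rw [z3_triple, zero_add]
  have hQb' : Q (y - b) = c := by
    rw [← h1, oM_Q, hb]
  have hm' : el (y - b) hc hQb' ∈ B := by
    convert hm using 1
    exact el_congr hc _ _ h1.symm
  have hbb' : bb b (y - b) = c := by
    rw [polar_sub_r, hby, hbb2]
    have e4 : ∀ c : ZMod 3, 0 - 2 * c = c := by decide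
    exact e4 c
  have hb'b : bb (y - b) b = c := by rw [polar_symm, hbb']
  have hne' : el b hc hb ≠ el (y - b) hc hQb' := by
    intro h0
    have h2 : rf b (by rwa [hb]) = rf (y - b) (by rwa [hQb']) := congrArg Subtype.val h0
    have h3 := rf_self (Q := Q) b (by rwa [hb])
    rw [h2, rf_apply, hQb', hb'b, inv_mul_cancel₀ hc, one_smul] at h3
    apply hy0
    have e5 : b - (y - b) = - b → y = 0 := by
      intro h4
      have e6 : (3 : ZMod 3) = 0 := by decide
      have e7 : y = (3 : ZMod 3) • b := by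
        have : b - (y - b) + b = 0 := by rw [h4]; abel
        have h8 : y = b + b + b := by
          have h9 : b + b + b - y = 0 := by
            rw [← this]; abel
          exact (sub_eq_zero.1 h9).symm
        rw [h8]
        have e8 : (3 : ZMod 3) = 1 + 1 + 1 := by decide
        rw [e8, add_smul, add_smul, one_smul]
      rw [e7, e6, zero_smul]
    exact e5 h3
  obtain ⟨b'', hb'', h⟩ := np_of_nonperp hc hb hQb' (by rw [hbb']; exact hc) hne' hmb hm'
  exact ⟨b, b'', hb, hb'', h⟩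

/-- The blocks are trivial. -/
theorem block_main (hQ : (QuadraticMap.polarBilin Q).Nondegenerate) (hn : 5 ≤ Fintype.card ι) (hc : c ≠ 0)
    {B : Set (RS Q c)} (hBD : B ⊆ DD Q c)
    (hB : ∀ g : RS Q c, (fun x => g * x * g⁻¹) '' B = B ∨ Disjoint ((fun x => g * x * g⁻¹) '' B) B) :
    B.Subsingleton ∨ B = DD Q c := by
  by_cases hs : B.Subsingleton
  · exact Or.inl hs
  right
  rw [Set.not_subsingleton_iff] at hs
  obtain ⟨x, hx, y, hy, hxy⟩ := hs
  obtain ⟨a, ha, rfl⟩ := exists_el hc (hBD hx)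
  obtain ⟨b, hb, rfl⟩ := exists_el hc (hBD hy)
  obtain ⟨a', b', ha', hb', h⟩ := exists_np hQ hn hc hB ha hb hxy hx hy
  have hall : ∀ g : RS Q c, (fun x => g * x * g⁻¹) '' B = B := by
    have hgen : Subgroup.closure (DD Q c) = ⊤ := (three_transposition_class hQ hn hc).2.2
    intro g
    have hg : g ∈ Subgroup.closure (DD Q c) := by rw [hgen]; exact Subgroup.mem_top g
    induction hg using Subgroup.closure_induction with
    | mem g hg =>
      obtain ⟨v, hv, rfl⟩ := exists_el hc hg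
      exact h.stab (hB := hB) hQ hv
    | one => simp
    | mul g₁ g₂ _ _ h1 h2 =>
      have e : (fun x => (g₁ * g₂) * x * (g₁ * g₂)⁻¹) '' B =
          (fun x => g₁ * x * g₁⁻¹) '' ((fun x => g₂ * x * g₂⁻¹) '' B) := by
        rw [Set.image_image]
        apply Set.image_congr
        intro x _
        group
      rw [e, h2, h1]
    | inv g _ h1 =>
      have e : (fun x => g⁻¹ * x * g⁻¹⁻¹) '' B =
          (fun x => g⁻¹ * x * g⁻¹⁻¹) '' ((fun x => g * x * g⁻¹) '' B) := by rw [h1]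
      rw [e, Set.image_image]
      simp only [inv_inv]
      have : ∀ x, g⁻¹ * (g * x * g⁻¹) * g = x := by intro x; group
      simp only [this, Set.image_id']
  apply Set.Subset.antisymm hBD
  intro d hd
  obtain ⟨v, hv, rfl⟩ := exists_el hc hd
  obtain ⟨g, hg, e⟩ := exists_conj hQ hn hc ha' hv (by rwa [ha']) (by rwa [hv])
  have hm := h.ma
  rw [← hall ⟨g, hg⟩] at hm
  obtain ⟨z, hz, e2⟩ := hm
  rw [← hall ⟨g, hg⟩]
  refine ⟨el a' hc ha', h.ma, ?_⟩
  apply Subtype.ext
  exact e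

/-- A commuting pair. -/
theorem exists_comm (hQ : (QuadraticMap.polarBilin Q).Nondegenerate) (hn : 5 ≤ Fintype.card ι) (hc : c ≠ 0) :
    ∃ a ∈ DD Q c, ∃ b ∈ DD Q c, a ≠ b ∧ Commute a b := by
  have hfr0 : Module.finrank (ZMod 3) (ι → ZMod 3) = Fintype.card ι := Module.finrank_fintype_fun_eq_card _
  obtain ⟨u, hu⟩ := exists_value two_ne hQ (by omega) c
  have hu0 : Q u ≠ 0 := by rwa [hu]
  have huz : u ≠ 0 := by
    rintro rfl
    exact hu0 q_zero
  have h2c : (2 : ZMod 3) * c ≠ 0 := mul_ne_zero two_ne' hc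
  have huu : bb u u ≠ 0 := by
    rw [polar_self2, hu]; exact h2c
  let P : Submodule (ZMod 3) (ι → ZMod 3) := Submodule.span (ZMod 3) {u}
  have hPnd : QND Q P := by
    intro x hx h
    obtain ⟨α, rfl⟩ := Submodule.mem_span_singleton.1 hx
    have h1 := h u (Submodule.mem_span_singleton_self u)
    rw [polar_smul_l] at h1
    rw [(mul_eq_zero.1 h1).resolve_right huu, zero_smul]
  have hPr : finrank (ZMod 3) P = 1 := finrank_span_singleton huz
  obtain ⟨v, hvP, hv⟩ := exists_perp_val hfr0 hQ hPnd (by omega) hc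
  have hvu : bb v u = 0 := hvP u (Submodule.mem_span_singleton_self u)
  refine ⟨el u hc hu, el_mem hc u hu, el v hc hv, el_mem hc v hv, ?_, ?_⟩
  · intro h0
    have h2 : rf u (by rwa [hu]) = rf v (by rwa [hv]) := congrArg Subtype.val h0
    have h3 := rf_self (Q := Q) u (by rwa [hu])
    rw [h2, rf_fix _ _ hvu] at h3
    have h4 : (2 : ZMod 3) • u = 0 := by
      rw [two_smul]
      nth_rewrite 1 [h3]
      simp
    rcases smul_eq_zero.1 h4 with h5 | h5
    · exact two_ne' h5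
    · exact huz h5
  · have := el_fix hc hv hu hvu
    rw [mul_inv_eq_iff_eq_mul] at this
    exact this.symm

/-- Primitivity. -/
theorem primitive (hQ : (QuadraticMap.polarBilin Q).Nondegenerate) (hn : 5 ≤ Fintype.card ι) (hc : c ≠ 0) :
    Cfsg.IsPrimitiveUnderConj (DD Q c) := by
  refine ⟨?_, ?_, ?_⟩
  · intro x hx y hy
    obtain ⟨u, hu, rfl⟩ := exists_el hc hx
    obtain ⟨v, hv, rfl⟩ := exists_el hc hy
    obtain ⟨g, hg, e⟩ := exists_conj hQ hn hc hu hv (by rwa [hu]) (by rwa [hv])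
    exact ⟨⟨g, hg⟩, Subtype.ext e⟩
  · obtain ⟨a, ha, b, hb, hab, -⟩ := exists_comm hQ hn hc
    exact ⟨a, ha, b, hb, hab⟩
  · intro B hBD hB
    exact block_main hQ hn hc hBD hB

/-- The three-transposition group. -/
theorem tt_group (hQ : (QuadraticMap.polarBilin Q).Nondegenerate) (hn : 5 ≤ Fintype.card ι) (hc : c ≠ 0) :
    Cfsg.IsThreeTranspositionGroup (DD Q c) := by
  have h := three_transposition_class hQ hn hc
  refine ⟨h.1, ?_, h.2.2⟩
  intro g d hd
  obtain ⟨v, hv, rfl⟩ := exists_el hc hd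
  have hv0 : Q v ≠ 0 := by rwa [hv]
  show (g : OG Q) * rf v hv0 * (g : OG Q)⁻¹ ∈ Cfsg.reflectionsOfNorm (⇑Q) c
  rw [rf_conj]
  exact rf_mem (by rw [oM_Q, hv]) _

/-- The structure theorem. -/
theorem structure_main (hQ : (QuadraticMap.polarBilin Q).Nondegenerate) (hn : 5 ≤ Fintype.card ι) (hc : c ≠ 0) :
    Cfsg.IsQuasisimple (commutator (RS Q c)) ∧ (commutator (RS Q c)).index ≤ 2 ∧
      Cfsg.generalizedFittingSubgroup (RS Q c) = Subgroup.center (RS Q c) ⊔ commutator (RS Q c) ∧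
      Cfsg.IsPrimitiveUnderConj (DD Q c) := by
  have hp := primitive hQ hn hc
  obtain ⟨⟨L, hLn, hq, hi, hF⟩, -⟩ := TL.prim_main (tt_group hQ hn hc) hp (exists_comm hQ hn hc)
  have e := TL.eq_commutator hLn hq hi
  rw [e]
  refine ⟨hq, hi, ?_, hp⟩
  rw [hF, sup_comm]

end main

end Cfsg.Agent.Lib.ThreeTrans.RP
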