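import Cfsg.Agent.Lib.ThreeTrans.Sim
import Cfsg.Agent.Lib.ThreeTrans.CoxeterS4
import Cfsg.Agent.Lib.ThreeTrans.CoxeterS5
import Cfsg.Agent.Lib.Basic.Core

/-!
# Sets of 3-transpositions in which the commuting members of each `d` generate `S₃`

Under the additional hypothesis that `O₃(C(d))` has order 3, `⟨D⟩` is `S₅` or `S₃ × S₃`.
-/

set_option autoImplicit false
set_option linter.style.haveILetI false
set_option linter.unusedSectionVars false
set_option linter.unusedVariables false

namespace Cfsg.Agent.Lib.ThreeTrans.SL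

open Cfsg Subgroup Equiv

variable {G : Type*} [Group G]

/-- The members of `D` other than `d` commuting with `d`. -/
def NN (D : Set G) (d : G) : Set G := {y | y ∈ D ∧ y ≠ d ∧ Commute d y}

/-- The local hypothesis. -/
structure HH (D : Set G) : Prop where
  tt : TT D
  ne : ∀ d ∈ D, d ≠ 1
  loc : ∀ d ∈ D, ∃ a b, a ∈ NN D d ∧ b ∈ NN D d ∧ ¬ Commute a b ∧
    ∀ y, y ∈ NN D d ↔ (y = a ∨ y = b ∨ y = a * b * a)

/-! ### The plane relations -/

section Words

variable {a b e : G}

/-- The central element of the plane is centralized by `b`. -/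
theorem zeta_b (ha : a * a = 1) (hb : b * b = 1) (he : e * e = 1) (hab : a * b * a = b * a * b)
    (hae : a * e * a = e * a * e) (hbe : b * e * b = e * b * e) :
    a * b * (e * (a * b) * e) * b = b * (a * b * (e * (a * b) * e)) := by
  calc a * b * (e * (a * b) * e) * b = a * b * e * a * (b * e * b) := by group
    _ = a * b * e * a * (e * b * e) := by rw [hbe]
    _ = a * b * (e * a * e) * b * e := by group
    _ = a * b * (a * e * a) * b * e := by rw [hae]
    _ = (a * b * a) * e * a * b * e := by group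
    _ = (b * a * b) * e * a * b * e := by rw [hab]
    _ = b * (a * b * (e * (a * b) * e)) := by group

/-- The central element of the plane is centralized by `a`. -/
theorem zeta_a (ha : a * a = 1) (hb : b * b = 1) (he : e * e = 1) (hab : a * b * a = b * a * b)
    (hae : a * e * a = e * a * e) (hbe : b * e * b = e * b * e)
    (hce : (a * b * a) * e * (a * b * a) = e * (a * b * a) * e) :
    a * b * (e * (a * b) * e) * a = a * (a * b * (e * (a * b) * e)) := by
  have h1 : e * a = a * e * a * e := by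
    calc e * a = e * a * e * e := by rw [mul_assoc (e * a), he, mul_one]
      _ = a * e * a * e := by rw [hae]
  have h2 : a * (a * b * (e * (a * b) * e)) = b * e * a * b * e := by
    calc a * (a * b * (e * (a * b) * e)) = (a * a) * b * e * a * b * e := by group
      _ = b * e * a * b * e := by rw [ha, one_mul]
  rw [h2]
  have h3 : a * b * a * b * a = b := by
    calc a * b * a * b * a = (a * b * a) * (b * a) := by group
      _ = (b * a * b) * (b * a) := by rw [hab]
      _ = b * a * (b * b) * a := by group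
      _ = b * (a * a) := by rw [hb]; group
      _ = b := by rw [ha, mul_one]
  calc a * b * (e * (a * b) * e) * a = a * b * e * a * b * (e * a) := by group
    _ = a * b * e * a * b * (a * e * a * e) := by rw [h1]
    _ = a * b * (e * (a * b * a) * e) * a * e := by group
    _ = a * b * ((a * b * a) * e * (a * b * a)) * a * e := by rw [hce]
    _ = (a * b * a * b * a) * e * a * b * (a * a) * e := by group
    _ = b * e * a * b * e := by rw [h3, ha]; group

/-- `e ρ e` commutes with `ρ = ab`. -/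
theorem rho_e_comm (ha : a * a = 1) (hb : b * b = 1) (he : e * e = 1) (hab : a * b * a = b * a * b)
    (hae : a * e * a = e * a * e) (hbe : b * e * b = e * b * e)
    (hce : (a * b * a) * e * (a * b * a) = e * (a * b * a) * e) :
    (a * b) * (e * (a * b) * e) = (e * (a * b) * e) * (a * b) := by
  have h1 := zeta_a ha hb he hab hae hbe hce
  have h2 := zeta_b ha hb he hab hae hbe
  set r := e * (a * b) * e with hr
  -- `ζ = (ab) r` commutes with `a`, `b`
  have h3 : a * b * r * (a * b) = a * b * (a * b * r) := by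
    calc a * b * r * (a * b) = (a * b * r * a) * b := by group
      _ = a * (a * b * r) * b := by rw [h1]
      _ = a * (a * b * r * b) := by group
      _ = a * (b * (a * b * r)) := by rw [h2]
      _ = a * b * (a * b * r) := by group
  have h4 : a * b * (r * (a * b)) = a * b * (a * b * r) := by
    rw [← h3]; group
  exact (mul_left_cancel h4).symm

/-- The `S₄`-relation. -/
theorem s4_comm {d a y : G} (hd : d * d = 1) (ha : a * a = 1) (hy : y * y = 1) (hda : a * d = d * a)
    (hdy : y * d * y = d * y * d) (hay : a * y * a = y * a * y) :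
    y * (a * (d * y * d) * a) = (a * (d * y * d) * a) * y := by
  obtain ⟨φ, h1, h2, h3⟩ := exists_hom_perm_four hd hy ha hda hdy hay
  have key : (swap (1 : Fin 4) 2) * ((swap (2 : Fin 4) 3) * ((swap (0 : Fin 4) 1) * (swap 1 2) * (swap 0 1)) * (swap 2 3))
      = ((swap (2 : Fin 4) 3) * ((swap (0 : Fin 4) 1) * (swap 1 2) * (swap 0 1)) * (swap 2 3)) * (swap 1 2) := by
    decide
  have := congrArg φ key
  simpa only [map_mul, h1, h2, h3] using this

/-- If `r` is inverted by two commuting different members, `r = 1`. -/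
theorem no_inv {d a r : G} (hd : d * d = 1) (ha : a * a = 1) (hda : d * a = a * d) (hne : d ≠ a)
    (hr3 : r * r * r = 1) (h1 : d * r * d = r⁻¹) (h2 : a * r * a = r⁻¹)
    (hp : (d * (r * a * r⁻¹)) ^ 2 = 1 ∨ (d * (r * a * r⁻¹)) ^ 3 = 1) : r = 1 := by
  have hdi : d⁻¹ = d := inv_eq_of_mul_eq_one_left hd
  have hai : a⁻¹ = a := inv_eq_of_mul_eq_one_left ha
  have e1 : r * a * r⁻¹ = r * r * a := by
    have : a * r⁻¹ * a = r := by
      have h3 : a * r⁻¹ * a = (a * r * a)⁻¹ := by
        simp only [mul_inv_rev, hai, mul_assoc]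
      rw [h3, h2, inv_inv]
    calc r * a * r⁻¹ = r * (a * r⁻¹ * a) * a := by
          simp only [mul_assoc, ha, mul_one]
      _ = r * r * a := by rw [this]
  -- `t = d a` commutes with `r`
  have hcom : (d * a) * r = r * (d * a) := by
    have h3 : d * a * r * (d * a)⁻¹ = r := by
      calc d * a * r * (d * a)⁻¹ = d * (a * r * a) * d := by
            rw [mul_inv_rev, hdi, hai]; group
        _ = d * r⁻¹ * d := by rw [h2]
        _ = (d * r * d)⁻¹ := by simp only [mul_inv_rev, hdi, mul_assoc]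
        _ = r := by rw [h1, inv_inv]
    rw [mul_inv_eq_iff_eq_mul] at h3
    exact h3
  have h3' : d * r * r = r⁻¹ * r⁻¹ * d := by
    have e0 : (d * r * d) * (d * r * d) * d = d * r * (d * d) * r * (d * d) := by group
    calc d * r * r = d * r * (d * d) * r * (d * d) := by rw [hd]; group
      _ = (d * r * d) * (d * r * d) * d := e0.symm
      _ = r⁻¹ * r⁻¹ * d := by rw [h1]
  have hrinv : r⁻¹ = r * r := by
    apply inv_eq_of_mul_eq_one_left
    exact hr3
  have e2 : d * (r * a * r⁻¹) = r * (d * a) := by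
    rw [e1]
    calc d * (r * r * a) = (d * r * r) * a := by group
      _ = r⁻¹ * r⁻¹ * d * a := by rw [h3']
      _ = (r * r) * (r * r) * d * a := by rw [hrinv]
      _ = (r * r * r) * r * d * a := by group
      _ = r * (d * a) := by rw [hr3]; group
  rw [e2] at hp
  have hda1 : (d * a) * (d * a) = 1 := by
    calc (d * a) * (d * a) = d * (a * d) * a := by group
      _ = d * (d * a) * a := by rw [hda]
      _ = (d * d) * (a * a) := by group
      _ = 1 := by rw [hd, ha, one_mul]
  rcases hp with hp | hp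
  · have h4 : (r * (d * a)) ^ 2 = r * r := by
      calc (r * (d * a)) ^ 2 = r * (d * a * r) * (d * a) := by rw [pow_two]; group
        _ = r * (r * (d * a)) * (d * a) := by rw [hcom]
        _ = r * r * ((d * a) * (d * a)) := by group
        _ = r * r := by rw [hda1, mul_one]
    rw [h4] at hp
    calc r = (r * r * r) * r⁻¹ * r⁻¹ := by group
      _ = r⁻¹ * r⁻¹ := by rw [hr3, one_mul]
      _ = (r * r)⁻¹ := by group
      _ = 1 := by rw [hp, inv_one]
  · exfalso
    have h4 : (r * (d * a)) ^ 3 = d * a := by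
      have hc : Commute r (d * a) := hcom.symm
      rw [hc.mul_pow 3]
      have e3 : r ^ 3 = 1 := by
        rw [← hr3]; simp only [pow_succ, pow_zero, one_mul]
      have e4 : (d * a) ^ 3 = d * a := by
        rw [pow_succ, pow_two, hda1, one_mul]
      rw [e3, e4, one_mul]
    rw [h4] at hp
    apply hne
    rw [mul_eq_one_iff_eq_inv] at hp
    rw [hp, hai]

end Words

/-! ### An abstract lemma on commuting involutory automorphisms -/

theorem inv_action {K : Type*} [Group K] (hc : ∀ x y : K, x * y = y * x) (h3 : ∀ x : K, x ^ 3 = 1)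
    (σ τ : K →* K) (hσ : ∀ x, σ (σ x) = x) (hτ : ∀ x, τ (τ x) = x) (hst : ∀ x, σ (τ x) = τ (σ x))
    (h1 : ∀ w, σ w = w → τ w = w⁻¹) (h2 : ∀ v, σ v = v⁻¹ → τ v = v⁻¹ → v = 1) (w : K) : σ (τ w) = w⁻¹ := by
  letI : CommGroup K := { (inferInstance : Group K) with mul_comm := hc }
  set A := σ w with hA
  set B := τ w with hB
  set X := σ (τ w) with hX
  have hτA : τ A = X := by rw [hA, ← hst]
  have hσX : σ X = B := by rw [hX, hσ]
  have hτX : τ X = A := by rw [hX, hst, hτ]
  have F1 : B * X = w⁻¹ * A⁻¹ := by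
    have h4 : σ (w * A) = w * A := by
      rw [map_mul, hA, hσ, mul_comm]
    have h5 := h1 _ h4
    rw [map_mul, hτA, mul_inv_rev] at h5
    rw [mul_comm w⁻¹]
    exact h5
  have F2 : B * X⁻¹ = w * A⁻¹ := by
    set m := w * A⁻¹ with hm
    have hσm : σ m = m⁻¹ := by
      rw [hm, map_mul, map_inv, hA, hσ, mul_inv_rev, inv_inv]
    have hτm : τ m = B * X⁻¹ := by
      rw [hm, map_mul, map_inv, hτA]
    have hinv : (m * (τ m)⁻¹)⁻¹ = τ m * m⁻¹ := by group
    have hv := h2 (m * (τ m)⁻¹) (by
        have e : σ (m * (τ m)⁻¹) = m⁻¹ * τ m := by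
          rw [map_mul, map_inv, hst, hσm, map_inv, inv_inv]
        rw [e, hinv]
        exact hc _ _) (by
        have e : τ (m * (τ m)⁻¹) = τ m * m⁻¹ := by
          rw [map_mul, map_inv, hτ]
        rw [e, hinv])
    rw [mul_inv_eq_one] at hv
    rw [← hτm, ← hv]
  have hX2 : X * X = w⁻¹ * w⁻¹ := by
    have e1 : (B * X) * (B * X⁻¹)⁻¹ = X * X := by
      rw [mul_inv_rev, inv_inv]
      calc B * X * (X * B⁻¹) = X * X * (B * B⁻¹) := by
            simp only [mul_assoc, mul_comm, mul_left_comm]
        _ = X * X := by rw [mul_inv_cancel, mul_one]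
    rw [← e1, F1, F2, mul_inv_rev, inv_inv]
    calc w⁻¹ * A⁻¹ * (A * w⁻¹) = w⁻¹ * w⁻¹ * (A⁻¹ * A) := by
          simp only [mul_assoc, mul_comm, mul_left_comm]
      _ = w⁻¹ * w⁻¹ := by rw [inv_mul_cancel, mul_one]
  have hX3 := h3 X
  have hw3 := h3 w
  have e1 : X = (X * X) * (X * X) := by
    calc X = X ^ 3 * X := by rw [hX3, one_mul]
      _ = (X * X) * (X * X) := by
        simp only [pow_succ, pow_zero, one_mul, mul_assoc]
  rw [e1, hX2]
  have e2 : w⁻¹ * w⁻¹ * (w⁻¹ * w⁻¹) = w⁻¹ * (w⁻¹) ^ 3 := by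
    simp only [pow_succ, pow_zero, one_mul, mul_assoc]
  rw [e2, inv_pow, hw3, inv_one, mul_one]

/-- The contradiction from a point not commuting with either member of a commuting pair. -/
theorem iter_contra {W : Subgroup G} (hW : W.Normal) (hW3 : ∀ w ∈ W, w ^ 3 = 1) {g t : G}
    (hg : g ^ 3 = 1) (hgt : (g * t) ^ 3 = 1) (ht : ∀ w ∈ W, t * w * t⁻¹ = w⁻¹) {w : G} (hw : w ∈ W) : w = 1 := by
  have step : ∀ v ∈ W, (g * t) * v * (g * t)⁻¹ = (g * v * g⁻¹)⁻¹ := by
    intro v hv
    calc (g * t) * v * (g * t)⁻¹ = g * (t * v * t⁻¹) * g⁻¹ := by group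
      _ = g * v⁻¹ * g⁻¹ := by rw [ht v hv]
      _ = (g * v * g⁻¹)⁻¹ := by group
  have hv1 : g * w * g⁻¹ ∈ W := hW.conj_mem w hw g
  have hv2 : g * (g * w * g⁻¹) * g⁻¹ ∈ W := hW.conj_mem _ hv1 g
  have c1 := step w hw
  have c2 : (g * t) * ((g * t) * w * (g * t)⁻¹) * (g * t)⁻¹ = g * (g * w * g⁻¹) * g⁻¹ := by
    rw [c1]
    have e2 : (g * t) * (g * w * g⁻¹)⁻¹ * (g * t)⁻¹ = ((g * t) * (g * w * g⁻¹) * (g * t)⁻¹)⁻¹ := by group
    rw [e2, step _ hv1, inv_inv]
  have c3 : (g * t) * ((g * t) * ((g * t) * w * (g * t)⁻¹) * (g * t)⁻¹) * (g * t)⁻¹ = w⁻¹ := by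
    rw [c2, step _ hv2]
    have e3 : g * (g * (g * w * g⁻¹) * g⁻¹) * g⁻¹ = g ^ 3 * w * (g ^ 3)⁻¹ := by
      simp only [pow_succ, pow_zero, one_mul]; group
    rw [e3, hg]; group
  have c4 : (g * t) * ((g * t) * ((g * t) * w * (g * t)⁻¹) * (g * t)⁻¹) * (g * t)⁻¹ = w := by
    have e4 : (g * t) * ((g * t) * ((g * t) * w * (g * t)⁻¹) * (g * t)⁻¹) * (g * t)⁻¹
        = (g * t) ^ 3 * w * ((g * t) ^ 3)⁻¹ := by
      simp only [pow_succ, pow_zero, one_mul]; group
    rw [e4, hgt]; group
  have h5 : w = w⁻¹ := c4.symm.trans c3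
  have h6 := hW3 w hw
  have h7 : w * w = 1 := by
    nth_rw 1 [h5]; exact inv_mul_cancel w
  calc w = w ^ 3 * w⁻¹ * w⁻¹ := by group
    _ = w⁻¹ * w⁻¹ := by rw [h6, one_mul]
    _ = (w * w)⁻¹ := by group
    _ = 1 := by rw [h7, inv_one]

/-! ### Elementary facts on `NN` -/

section NN

variable {D : Set G}

omit [Group G] in
theorem third_trivial : True := trivial

theorem mem_NN_conj (hT : TT D) (g x w : G) : w ∈ NN D (g * x * g⁻¹) ↔ g⁻¹ * w * g ∈ NN D x := by
  constructor
  · rintro ⟨h1, h2, h3⟩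
    refine ⟨?_, ?_, ?_⟩
    · have := hT.conj g⁻¹ w h1
      rwa [inv_inv] at this
    · intro h4
      apply h2
      rw [← h4]; group
    · have e : w = g * (g⁻¹ * w * g) * g⁻¹ := by group
      rw [e] at h3
      exact (commute_conj_iff g _ _).mp h3
  · rintro ⟨h1, h2, h3⟩
    refine ⟨?_, ?_, ?_⟩
    · have := hT.conj g _ h1
      have e : g * (g⁻¹ * w * g) * g⁻¹ = w := by group
      rwa [e] at this
    · intro h4
      apply h2
      rw [h4]; group
    · have e : w = g * (g⁻¹ * w * g) * g⁻¹ := by group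
      rw [e]
      exact (commute_conj_iff g _ _).mpr h3

theorem NN_sym {d x : G} (hd : d ∈ D) (hx : x ∈ NN D d) : d ∈ NN D x :=
  ⟨hd, hx.2.1.symm, hx.2.2.symm⟩

end NN

section HHfacts

variable {D : Set G} (h : HH D)
include h

theorem HH.inv {d : G} (hd : d ∈ D) : d * d = 1 := h.tt.inv d hd

theorem HH.inv' {d : G} (hd : d ∈ D) : d⁻¹ = d := inv_eq_of_mul_eq_one_left (h.inv hd)

theorem HH.third_mem {a b : G} (ha : a ∈ D) (hb : b ∈ D) : a * b * a ∈ D := by
  have := h.tt.conj a b hb
  rwa [h.inv' ha] at this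

omit h in
/-- The relations on a line. -/
theorem tri (hT : TT D) {a b : G} (ha : a ∈ D) (hb : b ∈ D) (hab : ¬ Commute a b) :
    a * b * a = b * a * b ∧ a * (a * b * a) * a = b ∧ (a * b * a) * a * (a * b * a) = b ∧
    b * (a * b * a) * b = a ∧ (a * b * a) * b * (a * b * a) = a ∧
    ¬ Commute a (a * b * a) ∧ ¬ Commute b (a * b * a) := by
  have ha2 := hT.inv a ha
  have hb2 := hT.inv b hb
  have hbr : a * b * a = b * a * b := by
    rcases hT.commute_or_braid ha hb with h1 | h1
    · exact absurd h1 hab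
    · exact h1
  have hcD : a * b * a ∈ D := by
    have := hT.conj a b hb
    rwa [inv_eq_of_mul_eq_one_left ha2] at this
  have hac : a * (a * b * a) * a = b := by
    calc a * (a * b * a) * a = (a * a) * b * (a * a) := by group
      _ = b := by rw [ha2]; group
  have hbc : b * (a * b * a) * b = a := by
    rw [hbr]
    calc b * (b * a * b) * b = (b * b) * a * (b * b) := by group
      _ = a := by rw [hb2]; group
  have hnc1 : ¬ Commute a (a * b * a) := by
    intro h1
    apply hab
    have h2 : a * (a * b * a) = (a * b * a) * a := h1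
    have h3 : b * a = a * b := by
      calc b * a = (a * a) * (b * a) := by rw [ha2, one_mul]
        _ = a * (a * b * a) := by group
        _ = (a * b * a) * a := h2
        _ = a * b * (a * a) := by group
        _ = a * b := by rw [ha2, mul_one]
    exact h3.symm
  have hnc2 : ¬ Commute b (a * b * a) := by
    intro h1
    apply hab
    have h2 : b * (a * b * a) = (a * b * a) * b := h1
    rw [hbr] at h2
    have h3 : a * b = b * a := by
      calc a * b = (b * b) * (a * b) := by rw [hb2, one_mul]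
        _ = b * (b * a * b) := by group
        _ = (b * a * b) * b := h2
        _ = b * a * (b * b) := by group
        _ = b * a := by rw [hb2, mul_one]
    exact h3
  have hca : (a * b * a) * a * (a * b * a) = b := by
    rcases hT.commute_or_braid hcD ha with h1 | h1
    · exact absurd h1.symm hnc1
    · rw [h1, hac]
  have hcb : (a * b * a) * b * (a * b * a) = a := by
    rcases hT.commute_or_braid hcD hb with h1 | h1
    · exact absurd h1.symm hnc2
    · rw [h1, hbc]
  exact ⟨hbr, hac, hca, hbc, hcb, hnc1, hnc2⟩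

/-- The line structure of `NN`. -/
theorem HH.line {d x y : G} (hd : d ∈ D) (hx : x ∈ NN D d) (hy : y ∈ NN D d) (hxy : x ≠ y) :
    ¬ Commute x y ∧ ∀ w, w ∈ NN D d ↔ (w = x ∨ w = y ∨ w = x * y * x) := by
  obtain ⟨a, b, ha, hb, hab, hN⟩ := h.loc d hd
  obtain ⟨hbr, hac, hca, hbc, hcb, hnc1, hnc2⟩ := tri h.tt ha.1 hb.1 hab
  have hba : ¬ Commute b a := fun h' => hab h'.symm
  have hx' := (hN x).mp hx
  have hy' := (hN y).mp hy
  rcases hx' with e1 | e1 | e1 <;> rcases hy' with e2 | e2 | e2 <;> rw [e1, e2] at hxy ⊢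
  · exact absurd rfl hxy
  · exact ⟨hab, hN⟩
  · refine ⟨hnc1, fun w => ?_⟩
    rw [hN, hac]; tauto
  · refine ⟨hba, fun w => ?_⟩
    rw [hN, ← hbr]; tauto
  · exact absurd rfl hxy
  · refine ⟨hnc2, fun w => ?_⟩
    rw [hN, hbc]; tauto
  · refine ⟨fun h' => hnc1 h'.symm, fun w => ?_⟩
    rw [hN, hca]; tauto
  · refine ⟨fun h' => hnc2 h'.symm, fun w => ?_⟩
    rw [hN, hcb]; tauto
  · exact absurd rfl hxy

/-- Two different points of a `NN` determine it. -/
theorem HH.eq_of_two {d d' x y : G} (hd : d ∈ D) (hd' : d' ∈ D) (hx : x ∈ NN D d) (hy : y ∈ NN D d)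
    (hx' : x ∈ NN D d') (hy' : y ∈ NN D d') (hxy : x ≠ y) : NN D d = NN D d' := by
  ext w
  rw [(h.line hd hx hy hxy).2, (h.line hd' hx' hy' hxy).2]

/-- Each `NN` has another point. -/
theorem HH.exists_other {d v : G} (hd : d ∈ D) : ∃ v' ∈ NN D d, v' ≠ v := by
  obtain ⟨a, b, ha, hb, hab, -⟩ := h.loc d hd
  by_cases e : a = v
  · refine ⟨b, hb, ?_⟩
    rintro rfl
    exact hab (e ▸ Commute.refl _)
  · exact ⟨a, ha, e⟩

/-- A pair of points of a line has one of two products. -/
theorem HH.pair_prod {d x y a b : G} (hd : d ∈ D) (hx : x ∈ NN D d) (hy : y ∈ NN D d) (hxy : x ≠ y)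
    (ha : a ∈ NN D d) (hb : b ∈ NN D d) (hab : a ≠ b) : x * y = a * b ∨ x * y = (a * b)⁻¹ := by
  obtain ⟨hnc, hN⟩ := h.line hd ha hb hab
  obtain ⟨hbr, hac, hca, hbc, hcb, hnc1, hnc2⟩ := tri h.tt ha.1 hb.1 hnc
  have ha2 := h.inv ha.1
  have hb2 := h.inv hb.1
  have hai := h.inv' ha.1
  have hbi := h.inv' hb.1
  have hinv : (a * b)⁻¹ = b * a := by rw [mul_inv_rev, hai, hbi]
  rw [hinv]
  have e1 : a * (a * b * a) = b * a := by
    calc a * (a * b * a) = (a * a) * (b * a) := by group
      _ = b * a := by rw [ha2, one_mul]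
  have e2 : (a * b * a) * a = a * b := by
    calc (a * b * a) * a = a * b * (a * a) := by group
      _ = a * b := by rw [ha2, mul_one]
  have e3 : b * (a * b * a) = a * b := by
    rw [hbr]
    calc b * (b * a * b) = (b * b) * (a * b) := by group
      _ = a * b := by rw [hb2, one_mul]
  have e4 : (a * b * a) * b = b * a := by
    rw [hbr]
    calc (b * a * b) * b = b * a * (b * b) := by group
      _ = b * a := by rw [hb2, mul_one]
  rcases (hN x).mp hx with e5 | e5 | e5 <;> rcases (hN y).mp hy with e6 | e6 | e6 <;>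
    rw [e5, e6] at hxy ⊢
  · exact absurd rfl hxy
  · exact Or.inl rfl
  · exact Or.inr e1
  · exact Or.inr rfl
  · exact absurd rfl hxy
  · exact Or.inl e3
  · exact Or.inl e2
  · exact Or.inr e4
  · exact absurd rfl hxy

/-- Type I at `z`. -/
def T1 (D : Set G) (z : G) : Prop := ∀ x ∈ NN D z, ∀ x' ∈ NN D z, NN D x = NN D x'

theorem HH.T1_of_pair {z x x' : G} (hz : z ∈ D) (hx : x ∈ NN D z) (hx' : x' ∈ NN D z) (hne : x ≠ x')
    (he : NN D x = NN D x') : T1 D z := by
  obtain ⟨hnc, hN⟩ := h.line hz hx hx' hne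
  have hcN : x * x' * x ∈ NN D z := (hN _).mpr (Or.inr (Or.inr rfl))
  obtain ⟨hbr, hac, hca, hbc, hcb, hnc1, hnc2⟩ := tri h.tt hx.1 hx'.1 hnc
  obtain ⟨v, hv, hvz⟩ := h.exists_other (v := z) hx.1
  have hv' : v ∈ NN D x' := he ▸ hv
  have hvc : v ∈ NN D (x * x' * x) := by
    refine ⟨hv.1, ?_, ?_⟩
    · rintro rfl
      exact hnc1 hv.2.2
    · have h1 : Commute (x * x' * x) v :=
        ((hv.2.2.mul_left hv'.2.2).mul_left hv.2.2)
      exact h1
  have hzx : z ∈ NN D x := NN_sym hz hx
  have hzc : z ∈ NN D (x * x' * x) := NN_sym hz hcN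
  have hc : NN D x = NN D (x * x' * x) := h.eq_of_two hx.1 hcN.1 hzx hv hzc hvc hvz.symm
  intro u hu u' hu'
  have key : ∀ t ∈ NN D z, NN D t = NN D x := by
    intro t ht
    rcases (hN t).mp ht with e | e | e
    · rw [e]
    · rw [e, he]
    · rw [e, hc]
  rw [key u hu, key u' hu']

theorem HH.T1_conj {z : G} (hT : T1 D z) (g : G) : T1 D (g * z * g⁻¹) := by
  intro x hx x' hx'
  have h1 := hT _ ((mem_NN_conj h.tt g z x).mp hx) _ ((mem_NN_conj h.tt g z x').mp hx')
  have ex : x = g * (g⁻¹ * x * g) * g⁻¹ := by group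
  have ex' : x' = g * (g⁻¹ * x' * g) * g⁻¹ := by group
  ext w
  rw [ex, ex', mem_NN_conj h.tt, mem_NN_conj h.tt, h1]

theorem HH.T1_of_mem {z x : G} (hz : z ∈ D) (hT : T1 D z) (hx : x ∈ NN D z) : T1 D x := by
  obtain ⟨x', hx', hne⟩ := h.exists_other (v := x) hz
  have key : ∀ u ∈ NN D x, NN D u = NN D z := by
    intro u hu
    have hu1 : x ∈ NN D u := NN_sym hx.1 hu
    have hu2 : u ∈ NN D x' := by
      rw [← hT x hx x' hx']; exact hu
    have hu3 : x' ∈ NN D u := NN_sym hx'.1 hu2
    exact (h.eq_of_two hz hu.1 hx hx' hu1 hu3 hne.symm).symm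
  intro u hu u' hu'
  rw [key u hu, key u' hu']

theorem HH.T1_noncomm {z y : G} (hz : z ∈ D) (hy : y ∈ D) (hT : T1 D z) (hc : ¬ Commute z y) : T1 D y := by
  obtain ⟨hbr, hac, hca, hbc, hcb, hnc1, hnc2⟩ := tri h.tt hz hy hc
  have ht : z * y * z ∈ D := h.third_mem hz hy
  have e : y = (z * y * z) * z * (z * y * z)⁻¹ := by
    rw [h.inv' ht]; exact hca.symm
  rw [e]
  exact h.T1_conj hT _

theorem HH.T1_all {z : G} (hz : z ∈ D) (hT : T1 D z) {y : G} (hy : y ∈ D) : T1 D y := by
  by_cases e : y = z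
  · rw [e]; exact hT
  by_cases hc : Commute z y
  · exact h.T1_of_mem hz hT ⟨hy, e, hc⟩
  · exact h.T1_noncomm hz hy hT hc

omit h in
/-- If `d` commutes with `u`, then `u` commutes with `d y d` iff it commutes with `y`. -/
theorem comm_e_iff {d u y : G} (hd : d * d = 1) (hu : Commute d u) :
    Commute u (d * y * d) ↔ Commute u y := by
  have hdi : d⁻¹ = d := inv_eq_of_mul_eq_one_left hd
  have e : d * u * d⁻¹ = u := by
    rw [hu.eq]; group
  have := commute_conj_iff d u y
  rwa [e, hdi] at this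

/-- The contradiction in type II. -/
theorem HH.caseB_II {d a b y : G} (hd : d ∈ D) (ha : a ∈ NN D d) (hb : b ∈ NN D d) (hab : a ≠ b) (hy : y ∈ D)
    (h1 : ¬ Commute d y) (h2 : ¬ Commute a y) (h3 : ¬ Commute b y) (h4 : ¬ Commute (a * b * a) y)
    (hI : ∀ w, w ∈ NN D a → w ∈ NN D b → w = d) : False := by
  obtain ⟨hnc, hN⟩ := h.line hd ha hb hab
  obtain ⟨hbr, hac, hca, hbc, hcb, hnc1, hnc2⟩ := tri h.tt ha.1 hb.1 hnc
  have hd2 := h.inv hd
  have ha2 := h.inv ha.1
  have hb2 := h.inv hb.1
  have hy2 := h.inv hy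
  have hdi := h.inv' hd
  have hda : Commute d a := ha.2.2
  have hdb : Commute d b := hb.2.2
  have hcN : a * b * a ∈ NN D d := (hN _).mpr (Or.inr (Or.inr rfl))
  set e := d * y * d with he
  have heD : e ∈ D := h.third_mem hd hy
  have he2 := h.inv heD
  have brd : ∀ {u : G}, u ∈ D → ¬ Commute u y → u * y * u = y * u * y := by
    intro u hu hn
    rcases h.tt.commute_or_braid hu hy with h5 | h5
    · exact absurd h5 hn
    · exact h5
  have bre : ∀ {u : G}, u ∈ NN D d → ¬ Commute u y → u * e * u = e * u * e := by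
    intro u hu hn
    rcases h.tt.commute_or_braid hu.1 heD with h5 | h5
    · exact absurd ((comm_e_iff hd2 hu.2.2).mp h5) hn
    · exact h5
  have hae := bre ha h2
  have hbe := bre hb h3
  have hce := bre hcN h4
  have hza := zeta_a ha2 hb2 he2 hbr hae hbe hce
  have hzb := zeta_b ha2 hb2 he2 hbr hae hbe
  set ρ := a * b with hρ
  set ζ := ρ * (e * ρ * e) with hζ
  have hconj : ∀ {u : G}, ζ * u = u * ζ → ζ * u * ζ⁻¹ = u := by
    intro u hu
    rw [hu]; group
  have hd' : ζ * d * ζ⁻¹ = d := by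
    apply hI
    · refine ⟨h.tt.conj ζ d hd, ?_, ?_⟩
      · intro h5
        apply ha.2.1
        have h6 : ζ * a * ζ⁻¹ = ζ * d * ζ⁻¹ := by rw [hconj hza, h5]
        have h7 : a = d := by
          have := congrArg (fun t => ζ⁻¹ * t * ζ) h6
          simpa [mul_assoc] using this
        exact h7
      · have := (commute_conj_iff ζ a d).mpr hda.symm
        rwa [hconj hza] at this
    · refine ⟨h.tt.conj ζ d hd, ?_, ?_⟩
      · intro h5
        apply hb.2.1
        have h6 : ζ * b * ζ⁻¹ = ζ * d * ζ⁻¹ := by rw [hconj hzb, h5]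
        have h7 : b = d := by
          have := congrArg (fun t => ζ⁻¹ * t * ζ) h6
          simpa [mul_assoc] using this
        exact h7
      · have := (commute_conj_iff ζ b d).mpr hdb.symm
        rwa [hconj hzb] at this
  have hdζ : ζ * d = d * ζ := by
    rw [mul_inv_eq_iff_eq_mul] at hd'
    exact hd'
  have hdρ : d * ρ = ρ * d := by
    have h5 : Commute d ρ := hda.mul_right hdb
    exact h5
  have hded : d * e * d = y := by
    rw [he]
    calc d * (d * y * d) * d = (d * d) * y * (d * d) := by group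
      _ = y := by rw [hd2]; group
  have hdρd : d * ρ * d = ρ := by
    rw [hdρ, mul_assoc, hd2, mul_one]
  have e1 : d * ζ * d = ρ * (y * ρ * y) := by
    calc d * ζ * d = d * ρ * e * ρ * e * d := by rw [hζ]; group
      _ = ρ * d * e * ρ * e * d := by rw [hdρ]
      _ = ρ * (d * e * d) * (d * ρ) * e * d := by
          calc ρ * d * e * ρ * e * d = ρ * d * e * (d * d) * ρ * e * d := by rw [hd2]; group
            _ = ρ * (d * e * d) * (d * ρ) * e * d := by group
      _ = ρ * (d * e * d) * (ρ * d) * e * d := by rw [hdρ]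
      _ = ρ * (d * e * d) * ρ * (d * e * d) := by group
      _ = ρ * (y * ρ * y) := by rw [hded]; group
  have e2 : d * ζ * d = ζ := by
    rw [← hdζ, mul_assoc, hd2, mul_one]
  have e3 : y * ρ * y = e * ρ * e := by
    have h5 : ρ * (y * ρ * y) = ρ * (e * ρ * e) := by rw [← e1, e2]
    exact mul_left_cancel h5
  have hby : y * d * y = d * y * d := (brd hd h1).symm
  have hye : y * e = d * y := by
    rw [he]
    calc y * (d * y * d) = (y * d * y) * d := by group
      _ = (d * y * d) * d := by rw [hby]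
      _ = d * y * (d * d) := by group
      _ = d * y := by rw [hd2, mul_one]
  have hey : e * y = y * d := by
    have h5 : (y * e)⁻¹ = e⁻¹ * y⁻¹ := by group
    rw [hye, h.inv' heD, h.inv' hy, mul_inv_rev, hdi, h.inv' hy] at h5
    exact h5.symm
  have e4 : y * ρ * y = ρ := by
    have h5 : (d * y) * ρ * (y * d) = ρ := by
      rw [← hye, ← hey]
      calc (y * e) * ρ * (e * y) = y * (e * ρ * e) * y := by group
        _ = y * (y * ρ * y) * y := by rw [e3]
        _ = (y * y) * ρ * (y * y) := by group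
        _ = ρ := by rw [hy2]; group
    calc y * ρ * y = d * ((d * y) * ρ * (y * d)) * d := by
          calc y * ρ * y = (d * d) * y * ρ * y * (d * d) := by rw [hd2]; group
            _ = d * ((d * y) * ρ * (y * d)) * d := by group
      _ = d * ρ * d := by rw [h5]
      _ = ρ := hdρd
  have e5 : a * y * a = b * y * b := by
    have h5 : ρ * y * ρ⁻¹ = y := by
      rw [mul_inv_eq_iff_eq_mul]
      have h6 : y * ρ * y * y = ρ * y := by rw [e4]
      rw [mul_assoc (y * ρ), hy2, mul_one] at h6
      exact h6.symm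
    rw [hρ, mul_inv_rev, h.inv' ha.1, h.inv' hb.1] at h5
    calc a * y * a = a * (a * b * y * (b * a)) * a := by rw [h5]
      _ = (a * a) * (b * y * b) * (a * a) := by group
      _ = b * y * b := by rw [ha2]; group
  rw [brd ha.1 h2, brd hb.1 h3] at e5
  have e6 : y * (a * y) = y * (b * y) := by
    rw [← mul_assoc, ← mul_assoc]; exact e5
  exact hab (mul_right_cancel (mul_left_cancel e6))

/-- The products of two points on a line `NN`. -/
def R0 (D : Set G) : Set G := {r | ∃ z ∈ D, ∃ x ∈ NN D z, ∃ x' ∈ NN D z, x ≠ x' ∧ r = x * x'}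

theorem HH.R0_conj {r : G} (hr : r ∈ R0 D) (g : G) : g * r * g⁻¹ ∈ R0 D := by
  obtain ⟨z, hz, x, hx, x', hx', hne, rfl⟩ := hr
  refine ⟨g * z * g⁻¹, h.tt.conj g z hz, g * x * g⁻¹, ?_, g * x' * g⁻¹, ?_, ?_, by group⟩
  · rw [mem_NN_conj h.tt]
    have : g⁻¹ * (g * x * g⁻¹) * g = x := by group
    rwa [this]
  · rw [mem_NN_conj h.tt]
    have : g⁻¹ * (g * x' * g⁻¹) * g = x' := by group
    rwa [this]
  · intro h1
    apply hne
    have := congrArg (fun t => g⁻¹ * t * g) h1
    simpa [mul_assoc] using this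

theorem HH.R0_cube {r : G} (hr : r ∈ R0 D) : r ^ 3 = 1 := by
  obtain ⟨z, hz, x, hx, x', hx', hne, rfl⟩ := hr
  obtain ⟨hnc, -⟩ := h.line hz hx hx' hne
  rcases h.tt.prod x hx.1 x' hx'.1 with h1 | h1
  · exact absurd (commute_of_sq (h.inv hx.1) (h.inv hx'.1) h1) hnc
  · exact h1

/-- A neighbour of a point at distance at least three. -/
theorem HH.mem_NN_far {z u y : G} (hz : z ∈ D) (hu : u ∈ NN D z) (hy : y ∈ D) (h1 : ¬ Commute z y)
    (h2 : ¬ Commute u y) : u * (z * y * z) * u ∈ NN D y := by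
  have hz2 := h.inv hz
  have hu2 := h.inv hu.1
  have hy2 := h.inv hy
  have heD : z * y * z ∈ D := h.third_mem hz hy
  have hbz : y * z * y = z * y * z := by
    rcases h.tt.commute_or_braid hy hz with h5 | h5
    · exact absurd h5.symm h1
    · exact h5
  have hbu : y * u * y = u * y * u := by
    rcases h.tt.commute_or_braid hy hu.1 with h5 | h5
    · exact absurd h5.symm h2
    · exact h5
  refine ⟨h.third_mem hu.1 heD, ?_, ?_⟩
  · intro h5
    have h6 : z * y * z = u * y * u := by
      calc z * y * z = u * (u * (z * y * z) * u) * u := by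
            calc z * y * z = (u * u) * (z * y * z) * (u * u) := by rw [hu2]; group
              _ = u * (u * (z * y * z) * u) * u := by group
        _ = u * y * u := by rw [h5]
    rw [← hbz, ← hbu] at h6
    have h7 : z = u := by
      have h8 : y * (z * y) = y * (u * y) := by
        rw [← mul_assoc, ← mul_assoc]; exact h6
      exact mul_right_cancel (mul_left_cancel h8)
    exact hu.2.1 h7.symm
  · exact s4_comm hz2 hu2 hy2 hu.2.2.symm.eq hbz hbu.symm

/-- In type I, the elements of `R0` commute. -/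
theorem HH.R0_comm (hall : ∀ z ∈ D, T1 D z) {r r' : G} (hr : r ∈ R0 D) (hr' : r' ∈ R0 D) : r * r' = r' * r := by
  obtain ⟨z, hz, a, ha, b, hb, hab, rfl⟩ := hr
  obtain ⟨y, hy, x, hx, x', hx', hxx, rfl⟩ := hr'
  have hT := hall z hz
  by_cases hN : NN D z = NN D y
  · have hx1 : x ∈ NN D z := hN ▸ hx
    have hx2 : x' ∈ NN D z := hN ▸ hx'
    rcases h.pair_prod hz hx1 hx2 hxx ha hb hab with e | e
    · rw [e]
    · rw [e]; simp
  · by_cases hc : y ∈ NN D z
    · have key : ∀ u ∈ NN D z, ∀ v ∈ NN D y, Commute u v := by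
        intro u hu v hv
        have h1 : v ∈ NN D u := by rw [hT u hu y hc]; exact hv
        exact h1.2.2
      have h1 : Commute (a * b) (x * x') :=
        Commute.mul_left ((key a ha x hx).mul_right (key a ha x' hx'))
          ((key b hb x hx).mul_right (key b hb x' hx'))
      exact h1
    · have hzy : z ≠ y := fun e => hN (by rw [e])
      have h1 : ¬ Commute z y := fun hh => hc ⟨hy, hzy.symm, hh⟩
      have hu : ∀ u ∈ NN D z, ¬ Commute u y := by
        intro u hu hcu
        have hy1 : y ≠ u := fun e => hc (e ▸ hu)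
        have hy2 : y ∈ NN D u := ⟨hy, hy1, hcu⟩
        have hall1 : ∀ v ∈ NN D z, y ∈ NN D v := fun v hv => by
          rw [hT v hv u hu]; exact hy2
        apply hN
        have ha' : a ∈ NN D y := NN_sym ha.1 (hall1 a ha)
        have hb' : b ∈ NN D y := NN_sym hb.1 (hall1 b hb)
        exact h.eq_of_two hz hy ha hb ha' hb' hab
      obtain ⟨hnc, hNz⟩ := h.line hz ha hb hab
      obtain ⟨hbr, hac, hca, hbc, hcb, hnc1, hnc2⟩ := tri h.tt ha.1 hb.1 hnc
      have hcN : a * b * a ∈ NN D z := (hNz _).mpr (Or.inr (Or.inr rfl))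
      have hz2 := h.inv hz
      have ha2 := h.inv ha.1
      have hb2 := h.inv hb.1
      set e := z * y * z with he
      have heD : e ∈ D := h.third_mem hz hy
      have he2 := h.inv heD
      have bre : ∀ {u : G}, u ∈ NN D z → u * e * u = e * u * e := by
        intro u hu'
        rcases h.tt.commute_or_braid hu'.1 heD with h5 | h5
        · exact absurd ((comm_e_iff hz2 hu'.2.2).mp h5) (hu u hu')
        · exact h5
      have hae := bre ha
      have hbe := bre hb
      have hce := bre hcN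
      have hrho := rho_e_comm ha2 hb2 he2 hbr hae hbe hce
      have hw1 : a * e * a ∈ NN D y := h.mem_NN_far hz ha hy h1 (hu a ha)
      have hw2 : b * e * b ∈ NN D y := h.mem_NN_far hz hb hy h1 (hu b hb)
      have hw12 : a * e * a ≠ b * e * b := by
        rw [hae, hbe]
        intro h5
        have h6 : e * (a * e) = e * (b * e) :=
          (mul_assoc e a e).symm.trans (h5.trans (mul_assoc e b e))
        exact hab (mul_right_cancel (mul_left_cancel h6))
      have hprod : (a * e * a) * (b * e * b) = e * (a * b) * e := by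
        rw [hae, hbe]
        calc e * a * e * (e * b * e) = e * a * (e * e) * b * e := by group
          _ = e * (a * b) * e := by rw [he2]; group
      have hrho' : Commute (a * b) (e * (a * b) * e) := hrho
      rcases h.pair_prod hy hx hx' hxx hw1 hw2 hw12 with e1 | e1
      · rw [e1, hprod]; exact hrho
      · rw [e1, hprod]
        exact (hrho'.inv_right).eq

/-- The contradiction in type I. -/
theorem HH.no_y [Finite G] (hall : ∀ z ∈ D, T1 D z)
    (hO3 : ∀ d ∈ D, Nat.card (pCore 3 ↥(centralizer ({d} : Set G))) = 3) {d a y : G} (hd : d ∈ D)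
    (ha : a ∈ NN D d) (hy : y ∈ D) (h1 : ¬ Commute d y) (h2 : ¬ Commute a y) : False := by
  classical
  haveI : Fact (Nat.Prime 3) := ⟨Nat.prime_three⟩
  have hd2 := h.inv hd
  have ha2 := h.inv ha.1
  have hdi := h.inv' hd
  have hai := h.inv' ha.1
  have hy2 := h.inv hy
  let W : Subgroup G := closure (R0 D)
  have hWn : W.Normal := by
    refine ⟨fun n hn g => ?_⟩
    induction hn using Subgroup.closure_induction with
    | mem x hx => exact subset_closure (h.R0_conj hx g)
    | one => simp
    | mul x y _ _ hx hy =>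
      have : g * (x * y) * g⁻¹ = (g * x * g⁻¹) * (g * y * g⁻¹) := by group
      rw [this]
      exact mul_mem hx hy
    | inv x _ hx =>
      have : g * x⁻¹ * g⁻¹ = (g * x * g⁻¹)⁻¹ := by group
      rw [this]
      exact inv_mem hx
  have hWc1 : ∀ r ∈ R0 D, ∀ v ∈ W, r * v = v * r := by
    intro r hr v hv
    induction hv using Subgroup.closure_induction with
    | mem x hx => exact h.R0_comm hall hr hx
    | one => simp
    | mul x y _ _ hx hy => exact (Commute.mul_right hx hy)
    | inv x _ hx => exact (Commute.inv_right hx)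
  have hWc : ∀ u ∈ W, ∀ v ∈ W, u * v = v * u := by
    intro u hu v hv
    induction hu using Subgroup.closure_induction with
    | mem x hx => exact hWc1 x hx v hv
    | one => simp
    | mul x y _ _ hx hy => exact (Commute.mul_left hx hy)
    | inv x _ hx => exact (Commute.inv_left hx)
  have hW3 : ∀ w ∈ W, w ^ 3 = 1 := by
    intro w hw
    induction hw using Subgroup.closure_induction with
    | mem x hx => exact h.R0_cube hx
    | one => simp
    | mul x y hx' hy' hx hy =>
      have hc : Commute x y := hWc x hx' y hy'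
      rw [hc.mul_pow, hx, hy, one_mul]
    | inv x _ hx => rw [inv_pow, hx, inv_one]
  haveI := hWn
  obtain ⟨b, hb, hab⟩ := h.exists_other (v := a) hd
  have hab' : a ≠ b := hab.symm
  set ρ := a * b with hρ
  have hρR : ρ ∈ R0 D := ⟨d, hd, a, ha, b, hb, hab', rfl⟩
  have hρW : ρ ∈ W := subset_closure hρR
  have hρ3 : ρ ^ 3 = 1 := h.R0_cube hρR
  have hρ1 : ρ ≠ 1 := by
    intro e
    apply hab'
    have : a * b = 1 := e
    rw [mul_eq_one_iff_eq_inv, h.inv' hb.1] at this
    exact this
  have hρord : orderOf ρ = 3 := orderOf_eq_prime hρ3 hρ1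
  -- the centralizer of `d`
  let Cd : Subgroup G := centralizer ({d} : Set G)
  have hmemC : ∀ x, x ∈ Cd ↔ x * d = d * x := fun x => Subgroup.mem_centralizer_singleton_iff
  have hρC : ρ ∈ Cd := by
    rw [hmemC]
    exact (ha.2.2.symm.mul_left hb.2.2.symm)
  have hzp : ∀ w ∈ W, w * d = d * w → w ∈ zpowers ρ := by
    intro w hw hwd
    have hN' : (W.subgroupOf Cd).Normal := Subgroup.Normal.subgroupOf hWn Cd
    have hP : IsPGroup 3 (W.subgroupOf Cd) := by
      intro x
      refine ⟨1, ?_⟩
      apply Subtype.ext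
      apply Subtype.ext
      have hx : ((x : Cd) : G) ∈ W := x.2
      simpa using hW3 _ hx
    have hle := Cfsg.Agent.Lib.Basic.le_pCore hN' hP
    have hρ' : (⟨ρ, hρC⟩ : Cd) ∈ pCore 3 Cd := hle (by
      rw [Subgroup.mem_subgroupOf]; exact hρW)
    have hord : orderOf (⟨ρ, hρC⟩ : Cd) = 3 := by
      rw [← hρord]; exact Subgroup.orderOf_mk ρ hρC
    have heq : zpowers (⟨ρ, hρC⟩ : Cd) = pCore 3 Cd := by
      apply Subgroup.eq_of_le_of_card_ge
      · rw [Subgroup.zpowers_le]; exact hρ'
      · rw [hO3 d hd, Nat.card_zpowers, hord]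
    have hw' : (⟨w, (hmemC w).mpr hwd⟩ : Cd) ∈ pCore 3 Cd := hle (by
      rw [Subgroup.mem_subgroupOf]; exact hw)
    rw [← heq] at hw'
    obtain ⟨i, hi⟩ := Subgroup.mem_zpowers_iff.mp hw'
    refine Subgroup.mem_zpowers_iff.mpr ⟨i, ?_⟩
    have := congrArg Subtype.val hi
    simpa using this
  have hainv : a * ρ * a = ρ⁻¹ := by
    rw [hρ, mul_inv_rev, h.inv' ha.1, h.inv' hb.1]
    calc a * (a * b) * a = (a * a) * b * a := by group
      _ = b * a := by rw [ha2, one_mul]
  have hazp : ∀ v ∈ zpowers ρ, a * v * a = v⁻¹ := by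
    intro v hv
    obtain ⟨i, rfl⟩ := Subgroup.mem_zpowers_iff.mp hv
    have := conj_zpow (a := a) (b := ρ) (i := i)
    rw [hai, hainv, inv_zpow] at this
    exact this.symm
  -- the action on `W`
  let σ : W →* W := (MulAut.conjNormal d : MulAut W).toMonoidHom
  let τ : W →* W := (MulAut.conjNormal a : MulAut W).toMonoidHom
  have hσc : ∀ w : W, ((σ w : W) : G) = d * w * d := by
    intro w
    show ((MulAut.conjNormal d w : W) : G) = _
    rw [MulAut.conjNormal_apply, hdi]
  have hτc : ∀ w : W, ((τ w : W) : G) = a * w * a := by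
    intro w
    show ((MulAut.conjNormal a w : W) : G) = _
    rw [MulAut.conjNormal_apply, hai]
  have hda : d * a = a * d := ha.2.2
  have key := inv_action (K := W) (fun x y => Subtype.ext (hWc x x.2 y y.2))
    (fun x => Subtype.ext (by simpa using hW3 x x.2)) σ τ
    (fun x => Subtype.ext (by
      rw [hσc, hσc]
      calc d * (d * (x : G) * d) * d = (d * d) * x * (d * d) := by group
        _ = x := by rw [hd2]; group))
    (fun x => Subtype.ext (by
      rw [hτc, hτc]
      calc a * (a * (x : G) * a) * a = (a * a) * x * (a * a) := by group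
        _ = x := by rw [ha2]; group))
    (fun x => Subtype.ext (by
      rw [hσc, hτc, hτc, hσc]
      calc d * (a * (x : G) * a) * d = (d * a) * x * (a * d) := by group
        _ = (a * d) * x * (d * a) := by rw [hda]
        _ = a * (d * x * d) * a := by group))
    (fun w hw => Subtype.ext (by
      have h3 : (d * (w : G) * d) = w := by
        rw [← hσc, hw]
      have h4 : (w : G) * d = d * w := by
        calc (w : G) * d = (d * (w : G) * d) * d := by rw [h3]
          _ = d * w * (d * d) := by group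
          _ = d * w := by rw [hd2, mul_one]
      rw [hτc]
      simpa using hazp _ (hzp w w.2 h4)))
    (fun v hv1 hv2 => Subtype.ext (by
      have h3 : d * (v : G) * d = (v : G)⁻¹ := by
        rw [← hσc, hv1]; simp
      have h4 : a * (v : G) * a = (v : G)⁻¹ := by
        rw [← hτc, hv2]; simp
      have hv3 : (v : G) * v * v = 1 := by
        have := hW3 v v.2
        simpa [pow_succ] using this
      have hD' : (v : G) * a * (v : G)⁻¹ ∈ D := h.tt.conj _ a ha.1
      exact no_inv hd2 ha2 hda ha.2.1.symm hv3 h3 h4 (h.tt.prod d hd _ hD')))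
  have hinv : ∀ w ∈ W, (d * a) * w * (d * a)⁻¹ = w⁻¹ := by
    intro w hw
    have h3 := congrArg Subtype.val (key ⟨w, hw⟩)
    rw [hσc, hτc] at h3
    simp only [InvMemClass.coe_inv] at h3
    rw [mul_inv_rev, hdi, hai]
    rw [← h3]
    group
  -- the last step
  have hg : (y * d) ^ 3 = 1 := by
    rcases h.tt.prod y hy d hd with h3 | h3
    · exact absurd (commute_of_sq hy2 hd2 h3).symm h1
    · exact h3
  have hgt : ((y * d) * (d * a)) ^ 3 = 1 := by
    have e : (y * d) * (d * a) = y * a := by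
      calc (y * d) * (d * a) = y * (d * d) * a := by group
        _ = y * a := by rw [hd2, mul_one]
    rw [e]
    rcases h.tt.prod y hy a ha.1 with h3 | h3
    · exact absurd (commute_of_sq hy2 ha2 h3).symm h2
    · exact h3
  exact hρ1 (iter_contra hWn hW3 hg hgt hinv hρW)

end HHfacts

/-! ### The two isomorphisms -/

set_option maxRecDepth 10000 in
theorem s3_invol_aux : ∀ σ τ ρ : Perm (Fin 3), (σ * σ = 1 ∧ τ * τ = 1 ∧ ρ * ρ = 1 ∧ σ ≠ 1 ∧ τ ≠ 1 ∧ ρ ≠ 1 ∧ σ ≠ τ) →
    ρ = σ ∨ ρ = τ ∨ ρ = σ * τ * σ := by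
  decide

theorem s3_invol (σ τ ρ : Perm (Fin 3)) (h1 : σ * σ = 1) (h2 : τ * τ = 1) (h3 : ρ * ρ = 1) (h4 : σ ≠ 1) (h5 : τ ≠ 1)
    (h6 : ρ ≠ 1) (h7 : σ ≠ τ) : ρ = σ ∨ ρ = τ ∨ ρ = σ * τ * σ :=
  s3_invol_aux σ τ ρ ⟨h1, h2, h3, h4, h5, h6, h7⟩

theorem s3_center : ∀ σ : Perm (Fin 3), (∀ τ : Perm (Fin 3), σ * τ = τ * σ) → σ = 1 := by
  decide

/-- From the isomorphism with `S₃` to the local structure. -/
theorem loc_of_iso {D : Set G} (hT : TT D) (hne : ∀ d ∈ D, d ≠ 1) {d : G}
    (e : ↥(closure (NN D d)) ≃* Perm (Fin 3)) :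
    ∃ a b, a ∈ NN D d ∧ b ∈ NN D d ∧ ¬ Commute a b ∧ ∀ y, y ∈ NN D d ↔ (y = a ∨ y = b ∨ y = a * b * a) := by
  have hnc : ∃ a ∈ NN D d, ∃ b ∈ NN D d, ¬ Commute a b := by
    by_contra hall
    push Not at hall
    have h1 : ∀ r ∈ NN D d, ∀ v ∈ closure (NN D d), r * v = v * r := by
      intro r hr v hv
      induction hv using Subgroup.closure_induction with
      | mem x hx => exact hall r hr x hx
      | one => simp
      | mul x y _ _ hx hy => exact (Commute.mul_right hx hy)
      | inv x _ hx => exact (Commute.inv_right hx)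
    have h2 : ∀ u ∈ closure (NN D d), ∀ v ∈ closure (NN D d), u * v = v * u := by
      intro u hu v hv
      induction hu using Subgroup.closure_induction with
      | mem x hx => exact h1 x hx v hv
      | one => simp
      | mul x y _ _ hx hy => exact (Commute.mul_left hx hy)
      | inv x _ hx => exact (Commute.inv_left hx)
    have h3 : e.symm (swap 0 1) * e.symm (swap 1 2) = e.symm (swap 1 2) * e.symm (swap 0 1) :=
      Subtype.ext (h2 _ (e.symm _).2 _ (e.symm _).2)
    have h4 := congrArg e h3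
    simp only [map_mul, MulEquiv.apply_symm_apply] at h4
    revert h4
    decide
  obtain ⟨a, ha, b, hb, hab⟩ := hnc
  refine ⟨a, b, ha, hb, hab, ?_⟩
  have ha2 := hT.inv a ha.1
  have hb2 := hT.inv b hb.1
  have hdi : ∀ {x : G}, x ∈ D → x⁻¹ = x := fun hx => inv_eq_of_mul_eq_one_left (hT.inv _ hx)
  have hcD : a * b * a ∈ D := by
    have := hT.conj a b hb.1
    rwa [hdi ha.1] at this
  have hcN : a * b * a ∈ NN D d := by
    refine ⟨hcD, ?_, ?_⟩
    · intro h1
      apply hb.2.1
      have hda : d * a = a * d := ha.2.2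
      calc b = (a * a) * b * (a * a) := by rw [ha2]; group
        _ = a * (a * b * a) * a := by group
        _ = a * d * a := by rw [h1]
        _ = (d * a) * a := by rw [hda]
        _ = d * (a * a) := by group
        _ = d := by rw [ha2, mul_one]
    · exact (ha.2.2.mul_right hb.2.2).mul_right ha.2.2
  intro y
  constructor
  · intro hy
    let ah : closure (NN D d) := ⟨a, subset_closure ha⟩
    let bh : closure (NN D d) := ⟨b, subset_closure hb⟩
    let yh : closure (NN D d) := ⟨y, subset_closure hy⟩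
    have hsq : ∀ {x : closure (NN D d)}, (x : G) ∈ D → e x * e x = 1 := by
      intro x hx
      rw [← map_mul]
      have : x * x = 1 := Subtype.ext (hT.inv _ hx)
      rw [this, map_one]
    have hne1 : ∀ {x : closure (NN D d)}, (x : G) ∈ D → e x ≠ 1 := by
      intro x hx h1
      apply hne _ hx
      have : x = 1 := by
        apply e.injective
        rw [h1, map_one]
      rw [this]; rfl
    have hne2 : e ah ≠ e bh := by
      intro h1
      have h2 : ah = bh := e.injective h1
      have h3 : a = b := congrArg Subtype.val h2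
      exact hab (h3 ▸ Commute.refl _)
    rcases s3_invol (e ah) (e bh) (e yh) (hsq ha.1) (hsq hb.1) (hsq hy.1) (hne1 ha.1) (hne1 hb.1) (hne1 hy.1) hne2 with
      h1 | h1 | h1
    · left
      exact congrArg Subtype.val (e.injective h1)
    · right; left
      exact congrArg Subtype.val (e.injective h1)
    · right; right
      rw [← map_mul, ← map_mul] at h1
      exact congrArg Subtype.val (e.injective h1)
  · rintro (rfl | rfl | rfl)
    · exact ha
    · exact hb
    · exact hcN

/-- Two commuting copies of `S₃` generate their direct product. -/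
theorem prod_iso {K₁ K₂ : Subgroup G} (hc : ∀ x ∈ K₁, ∀ y ∈ K₂, x * y = y * x) (e₁ : K₁ ≃* Perm (Fin 3))
    (e₂ : K₂ ≃* Perm (Fin 3)) : Nonempty (↥(K₁ ⊔ K₂) ≃* Perm (Fin 3) × Perm (Fin 3)) := by
  have comm : ∀ (m : K₁) (n : K₂), Commute (K₁.subtype m) (K₂.subtype n) := fun m n => hc m m.2 n n.2
  let φ := MonoidHom.noncommCoprod K₁.subtype K₂.subtype comm
  have hinj : Function.Injective φ := by
    rw [injective_iff_map_eq_one]
    rintro ⟨x, y⟩ hxy
    have h1 : (x : G) * y = 1 := hxy
    have h2 : (x : G) = (y : G)⁻¹ := eq_inv_of_mul_eq_one_left h1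
    have hx2 : (x : G) ∈ K₂ := by rw [h2]; exact inv_mem y.2
    have hx1 : x = 1 := by
      have h3 : e₁ x = 1 := by
        apply s3_center
        intro τ
        obtain ⟨t, rfl⟩ := e₁.surjective τ
        rw [← map_mul, ← map_mul]
        congr 1
        apply Subtype.ext
        exact (hc t t.2 x hx2).symm
      apply e₁.injective
      rw [h3, map_one]
    have hy1 : y = 1 := by
      apply Subtype.ext
      have : (y : G)⁻¹ = 1 := by rw [← h2, hx1]; rfl
      simpa using this
    rw [hx1, hy1]; rfl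
  have hr : φ.range = K₁ ⊔ K₂ := by
    rw [MonoidHom.noncommCoprod_range]
    simp
  exact ⟨(MulEquiv.subgroupCongr hr).symm.trans
    ((MonoidHom.ofInjective hinj).symm.trans (e₁.prodCongr e₂))⟩

/-- The ten transpositions. -/
def swapsF : Finset (Perm (Fin 5)) :=
  ((Finset.univ : Finset (Fin 5 × Fin 5)).filter (fun p => p.1 < p.2)).image (fun p => swap p.1 p.2)

theorem swapsF_card : swapsF.card = 10 := by
  decide +kernel

theorem mem_swapsF {σ : Perm (Fin 5)} : σ ∈ swapsF ↔ σ.IsSwap := by
  unfold swapsF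
  simp only [Finset.mem_image, Finset.mem_filter, Finset.mem_univ, true_and, Prod.exists]
  constructor
  · rintro ⟨x, y, hxy, rfl⟩
    exact ⟨x, y, ne_of_lt hxy, rfl⟩
  · rintro ⟨x, y, hxy, rfl⟩
    rcases lt_or_gt_of_ne hxy with h1 | h1
    · exact ⟨x, y, h1, rfl⟩
    · exact ⟨y, x, h1, swap_comm _ _⟩

/-- The case `S₅`. -/
theorem case_S5 {D : Set G} (h : HH D) {d : G} (hd : d ∈ D) (hII : ∀ z ∈ D, ¬ T1 D z) :
    Nonempty (↥(closure D) ≃* Perm (Fin 5)) := by
  classical
  obtain ⟨a, b, ha, hb, hnc, hN⟩ := h.loc d hd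
  have hab : a ≠ b := fun e => hnc (e ▸ Commute.refl _)
  have hcN : a * b * a ∈ NN D d := (hN _).mpr (Or.inr (Or.inr rfl))
  have hsep : ∀ {x x' : G}, x ∈ NN D d → x' ∈ NN D d → x ≠ x' → ∀ w, w ∈ NN D x → w ∈ NN D x' → w = d := by
    intro x x' hx hx' hne w hw hw'
    by_contra hwd
    have hd1 : d ∈ NN D x := NN_sym hd hx
    have hd2 : d ∈ NN D x' := NN_sym hd hx'
    exact hII d hd (h.T1_of_pair hd hx hx' hne
      (h.eq_of_two hx.1 hx'.1 hd1 hw hd2 hw' (Ne.symm hwd)))
  have hfar : ∀ y ∈ D, y = d ∨ y ∈ NN D d ∨ ∃ u ∈ NN D d, Commute u y := by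
    intro y hy
    by_contra hall
    push Not at hall
    obtain ⟨h1, h2, h3⟩ := hall
    have h4 : ¬ Commute d y := fun hh => h2 ⟨hy, h1, hh⟩
    exact h.caseB_II hd ha hb hab hy h4 (h3 a ha) (h3 b hb) (h3 _ hcN) (hsep ha hb hab)
  obtain ⟨p, hp, hpd⟩ := h.exists_other (v := d) ha.1
  obtain ⟨q, hq, hqd⟩ := h.exists_other (v := d) hb.1
  obtain ⟨r, hr, hrd⟩ := h.exists_other (v := d) hcN.1
  have hNa := (h.line ha.1 (NN_sym hd ha) hp hpd.symm).2
  have hNb := (h.line hb.1 (NN_sym hd hb) hq hqd.symm).2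
  have hNc := (h.line hcN.1 (NN_sym hd hcN) hr hrd.symm).2
  -- `D` is small
  let l : List G := [d, a, b, a * b * a, p, d * p * d, q, d * q * d, r, d * r * d]
  have hDl : D ⊆ (l.toFinset : Set G) := by
    intro y hy
    have hmem : y ∈ l := by
      rcases hfar y hy with rfl | h1 | ⟨u, hu, hcu⟩
      · simp [l]
      · rcases (hN y).mp h1 with rfl | rfl | rfl <;> simp [l]
      · by_cases hyu : y = u
        · rw [hyu]
          rcases (hN u).mp hu with rfl | rfl | rfl <;> simp [l]
        · have hy' : y ∈ NN D u := ⟨hy, hyu, hcu⟩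
          rcases (hN u).mp hu with rfl | rfl | rfl
          · rcases (hNa y).mp hy' with rfl | rfl | rfl <;> simp [l]
          · rcases (hNb y).mp hy' with rfl | rfl | rfl <;> simp [l]
          · rcases (hNc y).mp hy' with rfl | rfl | rfl <;> simp [l]
    simpa [List.mem_toFinset] using hmem
  have hDcard : D.ncard ≤ 10 :=
    calc D.ncard ≤ (l.toFinset : Set G).ncard := Set.ncard_le_ncard hDl (Set.toFinite _)
      _ = l.toFinset.card := Set.ncard_coe_finset _
      _ ≤ l.length := List.toFinset_card_le l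
      _ = 10 := rfl
  have hDfin : D.Finite := Set.Finite.subset (Set.toFinite _) hDl
  -- the chain
  have hqa : ¬ Commute q a := by
    intro hh
    have hqa' : q ≠ a := by
      rintro rfl
      exact hnc hq.2.2.symm
    exact hqd (hsep ha hb hab q ⟨hq.1, hqa', hh.symm⟩ hq)
  have hdq : ¬ Commute d q := ((h.line hb.1 (NN_sym hd hb) hq hqd.symm).1)
  have brd : ∀ {u v : G}, u ∈ D → v ∈ D → ¬ Commute u v → v * u * v = u * v * u := by
    intro u v hu hv hn
    rcases h.tt.commute_or_braid hu hv with h5 | h5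
    · exact absurd h5 hn
    · exact h5.symm
  have hrel : L4.Rel d q a b := by
    refine ⟨h.inv hd, h.inv hq.1, h.inv ha.1, h.inv hb.1, ha.2.2.symm.eq, hb.2.2.symm.eq, hq.2.2.eq, ?_, ?_, ?_⟩
    · exact brd hd hq.1 hdq
    · exact brd hq.1 ha.1 hqa
    · exact brd ha.1 hb.1 hnc
  obtain ⟨φ, h1, h2, h3, h4⟩ := exists_hom_perm_five hrel
  have hinj : Function.Injective φ := by
    apply injective_of_map_ne_one_five
    rw [h1, h2]
    intro e
    have h5 : d = q := by
      have := eq_inv_of_mul_eq_one_left e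
      rwa [h.inv' hq.1] at this
    exact hqd h5.symm
  -- the image of the transpositions
  let T : Set (Perm (Fin 5)) := {σ | σ.IsSwap}
  have hTF : T = (swapsF : Set (Perm (Fin 5))) := by
    ext σ
    simp only [T, Set.mem_setOf_eq, Finset.mem_coe, mem_swapsF]
  have hTcard : T.ncard = 10 := by
    rw [hTF, Set.ncard_coe_finset, swapsF_card]
  have himg : φ '' T ⊆ D := by
    rintro _ ⟨σ, ⟨x, y, hxy, rfl⟩, rfl⟩
    obtain ⟨t, ht⟩ := isConj_iff.mp (Equiv.Perm.isConj_swap (w := (0 : Fin 5)) (x := 1) (by decide) hxy)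
    rw [← ht, map_mul, map_mul, map_inv, h1]
    exact h.tt.conj _ d hd
  have hcard : (φ '' T).ncard = 10 := by
    rw [Set.ncard_image_of_injective _ hinj, hTcard]
  have heq : φ '' T = D := Set.eq_of_subset_of_ncard_le himg (by omega) hDfin
  have hcl : closure D = φ.range := by
    rw [← heq, ← MonoidHom.map_closure, Equiv.Perm.closure_isSwap, MonoidHom.range_eq_map]
  exact ⟨(MulEquiv.subgroupCongr hcl).trans (MonoidHom.ofInjective hinj).symm⟩

/-- The main theorem. -/
theorem main {G : Type*} [Group G] [Finite G] {D : Set G} (hD : Cfsg.IsThreeTranspositionSet D)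
    (hconj : ∀ g : G, ∀ d ∈ D, g * d * g⁻¹ ∈ D) (hne : D.Nonempty)
    (hloc : ∀ d ∈ D, Nonempty (↥(Subgroup.closure {y : G | y ∈ D ∧ y ≠ d ∧ Commute d y}) ≃* Equiv.Perm (Fin 3)) ∧
      Nat.card (Cfsg.pCore 3 ↥(Subgroup.centralizer ({d} : Set G))) = 3) :
    Nonempty (↥(Subgroup.closure D) ≃* Equiv.Perm (Fin 5)) ∨
      Nonempty (↥(Subgroup.closure D) ≃* Equiv.Perm (Fin 3) × Equiv.Perm (Fin 3)) := by
  classical
  have hT : TT D := ⟨fun d hd => by
      have := pow_orderOf_eq_one d
      rwa [hD.1 d hd, pow_two] at this, hD.2, hconj⟩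
  have hne1 : ∀ d ∈ D, d ≠ 1 := by
    rintro d hd rfl
    have := hD.1 1 hd
    simp at this
  have h : HH D := ⟨hT, hne1, fun d hd => by
    obtain ⟨⟨e⟩, -⟩ := hloc d hd
    exact loc_of_iso hT hne1 e⟩
  obtain ⟨d, hd⟩ := hne
  by_cases hT1 : T1 D d
  · right
    have hall : ∀ z ∈ D, T1 D z := fun z hz => h.T1_all hd hT1 hz
    obtain ⟨a, b, ha, hb, hnc, hN⟩ := h.loc d hd
    have hno : ∀ y ∈ D, Commute d y ∨ Commute a y := by
      intro y hy
      by_contra hcon
      push Not at hcon
      exact h.no_y hall (fun z hz => (hloc z hz).2) hd ha hy hcon.1 hcon.2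
    have hdN : d ∈ NN D a := NN_sym hd ha
    have hDeq : D = NN D d ∪ NN D a := by
      ext y
      constructor
      · intro hy
        by_cases e1 : y = d
        · right; rw [e1]; exact hdN
        by_cases e2 : y = a
        · left; rw [e2]; exact ha
        rcases hno y hy with h1 | h1
        · exact Or.inl ⟨hy, e1, h1⟩
        · exact Or.inr ⟨hy, e2, h1⟩
      · rintro (h1 | h1)
        · exact h1.1
        · exact h1.1
    have hcomm : ∀ u ∈ NN D d, ∀ v ∈ NN D a, Commute u v := by
      intro u hu v hv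
      have h1 : v ∈ NN D u := by rw [hall d hd u hu a ha]; exact hv
      exact h1.2.2
    obtain ⟨⟨e₁⟩, -⟩ := hloc d hd
    obtain ⟨⟨e₂⟩, -⟩ := hloc a ha.1
    have hc1 : ∀ r ∈ NN D d, ∀ v ∈ closure (NN D a), r * v = v * r := by
      intro r hr v hv
      induction hv using Subgroup.closure_induction with
      | mem x hx => exact hcomm r hr x hx
      | one => simp
      | mul x y _ _ hx hy => exact (Commute.mul_right hx hy)
      | inv x _ hx => exact (Commute.inv_right hx)
    have hc2 : ∀ u ∈ closure (NN D d), ∀ v ∈ closure (NN D a), u * v = v * u := by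
      intro u hu v hv
      induction hu using Subgroup.closure_induction with
      | mem x hx => exact hc1 x hx v hv
      | one => simp
      | mul x y _ _ hx hy => exact (Commute.mul_left hx hy)
      | inv x _ hx => exact (Commute.inv_left hx)
    obtain ⟨e⟩ := prod_iso hc2 e₁ e₂
    have hcl : closure D = closure (NN D d) ⊔ closure (NN D a) := by
      have h1 : closure D = closure (NN D d ∪ NN D a) := congrArg Subgroup.closure hDeq
      rw [h1, Subgroup.closure_union]
    exact ⟨(MulEquiv.subgroupCongr hcl).trans e⟩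
  · left
    refine case_S5 h hd ?_
    intro z hz hTz
    exact hT1 (h.T1_all hz hTz hd)

end Cfsg.Agent.Lib.ThreeTrans.SL
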