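import Mathlib
import Cfsg.Agent.Lib.ThreeTrans.LargeGL

/-!
# The centralizer of a transvection in the special linear group over the field with two elements

For `G = SL_{n+2}(2)` and `z = 1 + E₀₁`, the centralizer of `z` is `Q K`, with `Q` extraspecial of order `2^(2n+1)` and
`K ≅ SL_n(2)`.
-/

set_option autoImplicit false
set_option linter.unusedSimpArgs false
set_option linter.unusedVariables false
set_option linter.unusedSectionVars false
set_option linter.style.haveILetI false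

namespace Cfsg.Agent.Lib.ThreeTrans.SLT

open Matrix Cfsg Cfsg.Agent.Lib.TwoFusion

variable {n : ℕ}

/-- Matrices. -/
abbrev MM (n : ℕ) := Matrix (Fin (n + 2)) (Fin (n + 2)) (ZMod 2)

/-- The group. -/
abbrev SS (n : ℕ) := Matrix.SpecialLinearGroup (Fin (n + 2)) (ZMod 2)

/-- The middle indices. -/
def s (i : Fin n) : Fin (n + 2) := i.succ.succ

theorem s_ne_zero (i : Fin n) : s i ≠ 0 := Fin.succ_ne_zero _

theorem s_ne_one (i : Fin n) : s i ≠ 1 := by
  intro h
  have := congrArg Fin.val h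
  simp [s] at this

theorem s_inj {i j : Fin n} : s i = s j ↔ i = j := by
  simp [s]

theorem one_ne_zero' : (1 : Fin (n + 2)) ≠ 0 := by
  intro h
  have := congrArg Fin.val h
  simp at this

theorem idx_cases (i : Fin (n + 2)) : i = 0 ∨ i = 1 ∨ ∃ k, i = s k := by
  induction i using Fin.cases with
  | zero => exact Or.inl rfl
  | succ i =>
    induction i using Fin.cases with
    | zero => exact Or.inr (Or.inl rfl)
    | succ k => exact Or.inr (Or.inr ⟨k, rfl⟩)

theorem sum_split (f : Fin (n + 2) → ZMod 2) : ∑ k, f k = f 0 + f 1 + ∑ i, f (s i) := by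
  rw [Fin.sum_univ_succ, Fin.sum_univ_succ]
  simp only [s, Fin.succ_zero_eq_one, add_assoc]

theorem mul_entry (g h : MM n) (i j : Fin (n + 2)) :
    (g * h) i j = g i 0 * h 0 j + g i 1 * h 1 j + ∑ k, g i (s k) * h (s k) j := by
  rw [Matrix.mul_apply, sum_split]

theorem z2_add_self : ∀ a : ZMod 2, a + a = 0 := by decide

/-- The centralizer condition. -/
structure CC (g : MM n) : Prop where
  col : ∀ i, g i 0 = if i = 0 then 1 else 0
  row : ∀ j, g 1 j = if j = 1 then 1 else 0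

theorem CC.one : CC (1 : MM n) where
  col := fun i => by
    rw [Matrix.one_apply]
  row := fun j => by
    rw [Matrix.one_apply]
    simp only [eq_comm]

theorem CC.zero_zero {g : MM n} (h : CC g) : g 0 0 = 1 := by rw [h.col]; simp

theorem CC.one_one {g : MM n} (h : CC g) : g 1 1 = 1 := by rw [h.row]; simp

theorem CC.one_zero {g : MM n} (h : CC g) : g 1 0 = 0 := by
  rw [h.col]; simp [one_ne_zero']

theorem CC.s_zero {g : MM n} (h : CC g) (k : Fin n) : g (s k) 0 = 0 := by
  rw [h.col]; simp [s_ne_zero]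

theorem CC.one_s {g : MM n} (h : CC g) (k : Fin n) : g 1 (s k) = 0 := by
  rw [h.row]; simp [s_ne_one]

theorem CC.mul {g h : MM n} (hg : CC g) (hh : CC h) : CC (g * h) where
  col := fun i => by
    rw [mul_entry, hh.zero_zero, hh.one_zero, hg.col]
    simp [hh.s_zero]
  row := fun j => by
    rw [mul_entry, hg.one_zero, hg.one_one, hh.row]
    simp [hg.one_s]

theorem CC.of_mul {g h : MM n} (hg : CC g) (hh : h * g = 1) (hh' : g * h = 1) : CC h where
  col := fun i => by
    have h1 := congrFun (congrFun hh i) 0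
    rw [mul_entry, hg.zero_zero, hg.one_zero, Matrix.one_apply] at h1
    simpa [hg.s_zero] using h1
  row := fun j => by
    have h1 := congrFun (congrFun hh' 1) j
    rw [mul_entry, hg.one_zero, hg.one_one, Matrix.one_apply] at h1
    simp only [hg.one_s] at h1
    simpa [eq_comm] using h1

/-- The middle block. -/
def mid (g : MM n) : Matrix (Fin n) (Fin n) (ZMod 2) := fun i j => g (s i) (s j)

theorem mid_mul {g h : MM n} (hg : CC g) (hh : CC h) : mid (g * h) = mid g * mid h := by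
  funext i j
  show (g * h) (s i) (s j) = _
  rw [mul_entry, hg.s_zero, hh.one_s, Matrix.mul_apply]
  simp [mid]

theorem mid_one : mid (1 : MM n) = 1 := by
  funext i j
  show (1 : MM n) (s i) (s j) = _
  simp [Matrix.one_apply, s_inj]

/-! ### The parametrized elements -/

/-- The element with parameters `a, b, c`. -/
def mk (a b : Fin n → ZMod 2) (c : ZMod 2) : MM n := fun i j =>
  Fin.cases (Fin.cases 1 (fun j₁ => Fin.cases c (fun j₂ => a j₂) j₁) j)
    (fun i₁ => Fin.cases (if j = 1 then 1 else 0)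
      (fun i₂ => Fin.cases 0 (fun j₁ => Fin.cases (b i₂) (fun j₂ => if i₂ = j₂ then 1 else 0) j₁) j) i₁) i

section
variable (a b : Fin n → ZMod 2) (c : ZMod 2)

theorem mk_00 : mk a b c 0 0 = 1 := rfl
theorem mk_01 : mk a b c 0 1 = c := rfl
theorem mk_0s (m : Fin n) : mk a b c 0 (s m) = a m := rfl
theorem mk_1j (j : Fin (n + 2)) : mk a b c 1 j = if j = 1 then 1 else 0 := rfl
theorem mk_s0 (l : Fin n) : mk a b c (s l) 0 = 0 := rfl
theorem mk_s1 (l : Fin n) : mk a b c (s l) 1 = b l := rfl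
theorem mk_ss (l m : Fin n) : mk a b c (s l) (s m) = if l = m then 1 else 0 := rfl

theorem mk_10 : mk a b c 1 0 = 0 := by
  rw [mk_1j]; simp [one_ne_zero'.symm]
theorem mk_11 : mk a b c 1 1 = 1 := by
  rw [mk_1j]; simp
theorem mk_1s (m : Fin n) : mk a b c 1 (s m) = 0 := by
  rw [mk_1j]; simp [s_ne_one]

end

theorem mk_mul (a b a' b' : Fin n → ZMod 2) (c c' : ZMod 2) :
    mk a b c * mk a' b' c' = mk (a + a') (b + b') (c + c' + a ⬝ᵥ b') := by
  funext i j
  rw [mul_entry]
  rcases idx_cases i with rfl | rfl | ⟨l, rfl⟩ <;> rcases idx_cases j with rfl | rfl | ⟨m, rfl⟩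
  · simp only [mk_00, mk_01, mk_0s, mk_10, mk_s0, mul_zero, mul_one, add_zero, Finset.sum_const_zero]
  · simp only [mk_00, mk_01, mk_0s, mk_11, mk_s1, mul_one, one_mul, dotProduct]
    ring
  · simp only [mk_00, mk_01, mk_0s, mk_1s, mk_ss, mul_one, one_mul, mul_zero, add_zero, mul_ite,
      Finset.sum_ite_eq', Finset.mem_univ, if_true, Pi.add_apply]
    ring
  · simp only [mk_10, mk_11, mk_1s, mk_00, mk_s0, mul_zero, zero_mul, add_zero, Finset.sum_const_zero, one_mul]
  · simp only [mk_10, mk_11, mk_1s, mk_01, mk_s1, mul_zero, zero_mul, add_zero, zero_add, Finset.sum_const_zero, one_mul]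
  · simp only [mk_10, mk_11, mk_1s, mk_0s, mk_ss, mul_zero, zero_mul, add_zero, zero_add, Finset.sum_const_zero, one_mul]
  · simp only [mk_s0, mk_s1, mk_ss, mk_00, mk_10, zero_mul, mul_zero, add_zero, Finset.sum_const_zero, zero_add]
  · simp only [mk_s0, mk_s1, mk_ss, mk_01, mk_11, zero_mul, mul_one, zero_add, ite_mul, one_mul,
      Finset.sum_ite_eq, Finset.mem_univ, if_true, Pi.add_apply]
  · simp only [mk_s0, mk_s1, mk_ss, mk_0s, mk_1s, zero_mul, mul_zero, add_zero, zero_add, ite_mul, one_mul,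
      Finset.sum_ite_eq, Finset.mem_univ, if_true, Pi.add_apply]

theorem mk_zero : mk (0 : Fin n → ZMod 2) 0 0 = 1 := by
  funext i j
  rcases idx_cases i with rfl | rfl | ⟨l, rfl⟩ <;> rcases idx_cases j with rfl | rfl | ⟨m, rfl⟩ <;>
    simp [mk_00, mk_01, mk_0s, mk_10, mk_11, mk_1s, mk_s0, mk_s1, mk_ss, Matrix.one_apply, s_ne_zero, s_ne_one,
      one_ne_zero', one_ne_zero'.symm, (s_ne_zero _).symm, (s_ne_one _).symm, s_inj]

theorem vec_add_self (v : Fin n → ZMod 2) : v + v = 0 := by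
  funext k
  exact z2_add_self _

theorem mk_mul_inv (a b : Fin n → ZMod 2) (c : ZMod 2) : mk a b c * mk a b (c + a ⬝ᵥ b) = 1 := by
  rw [mk_mul, vec_add_self, vec_add_self]
  rw [← mk_zero (n := n)]
  congr 1
  have key : ∀ x y : ZMod 2, x + (x + y) + y = 0 := by decide
  exact key _ _

/-- The parametrized elements in the group. -/
def mkS (a b : Fin n → ZMod 2) (c : ZMod 2) : SS n :=
  ⟨mk a b c, Cfsg.Agent.Lib.ThreeTrans.LGL.det_eq_one_of_mul (mk_mul_inv a b c)⟩

theorem mkS_coe (a b : Fin n → ZMod 2) (c : ZMod 2) : (mkS a b c : MM n) = mk a b c := rfl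

theorem mkS_mul (a b a' b' : Fin n → ZMod 2) (c c' : ZMod 2) :
    mkS a b c * mkS a' b' c' = mkS (a + a') (b + b') (c + c' + a ⬝ᵥ b') := by
  apply Subtype.ext
  exact mk_mul a b a' b' c c'

theorem mkS_zero : mkS (0 : Fin n → ZMod 2) 0 0 = 1 := by
  apply Subtype.ext
  exact mk_zero

theorem mkS_inv (a b : Fin n → ZMod 2) (c : ZMod 2) : (mkS a b c)⁻¹ = mkS a b (c + a ⬝ᵥ b) := by
  apply inv_eq_of_mul_eq_one_right
  apply Subtype.ext
  exact mk_mul_inv a b c

theorem mkS_inj {a b a' b' : Fin n → ZMod 2} {c c' : ZMod 2} (h : mkS a b c = mkS a' b' c') :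
    a = a' ∧ b = b' ∧ c = c' := by
  have h1 : mk a b c = mk a' b' c' := congrArg Subtype.val h
  refine ⟨?_, ?_, ?_⟩
  · funext m
    exact congrFun (congrFun h1 0) (s m)
  · funext l
    exact congrFun (congrFun h1 (s l)) 1
  · exact congrFun (congrFun h1 0) 1

/-- The subgroup `Q`. -/
def QQ (n : ℕ) : Subgroup (SS n) where
  carrier := {g | ∃ a b c, g = mkS a b c}
  mul_mem' := by
    rintro _ _ ⟨a, b, c, rfl⟩ ⟨a', b', c', rfl⟩
    exact ⟨_, _, _, mkS_mul _ _ _ _ _ _⟩
  one_mem' := ⟨0, 0, 0, mkS_zero.symm⟩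
  inv_mem' := by
    rintro _ ⟨a, b, c, rfl⟩
    exact ⟨_, _, _, mkS_inv _ _ _⟩

theorem mkS_mem (a b : Fin n → ZMod 2) (c : ZMod 2) : mkS a b c ∈ QQ n := ⟨a, b, c, rfl⟩

/-- The central element. -/
def zz (n : ℕ) : SS n := mkS 0 0 1

theorem zz_coe : ((zz n : SS n) : MM n) = Matrix.transvection 0 1 1 := by
  funext i j
  show mk 0 0 1 i j = _
  rw [Matrix.transvection, Matrix.add_apply, Matrix.single_apply]
  rcases idx_cases i with rfl | rfl | ⟨l, rfl⟩ <;> rcases idx_cases j with rfl | rfl | ⟨m, rfl⟩ <;>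
    simp [mk_00, mk_01, mk_0s, mk_10, mk_11, mk_1s, mk_s0, mk_s1, mk_ss, Matrix.one_apply, s_ne_zero, s_ne_one,
      one_ne_zero', one_ne_zero'.symm, (s_ne_zero _).symm, (s_ne_one _).symm, s_inj]

theorem zz_ne : zz n ≠ 1 := by
  intro h
  rw [zz, ← mkS_zero] at h
  have := (mkS_inj h).2.2
  exact absurd this (by decide)

/-- The elementwise description of `Q`. -/
theorem es_QQ : ES (QQ n) (zz n) where
  z_mem := mkS_mem _ _ _
  z_ne := zz_ne
  z_sq := by
    rw [zz, mkS_mul, ← mkS_zero]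
    simp only [add_zero, dotProduct_zero]
    congr 1
  z_central := by
    rintro _ ⟨a, b, c, rfl⟩
    rw [zz, mkS_mul, mkS_mul]
    simp only [add_zero, zero_add, dotProduct_zero, zero_dotProduct]
    congr 1
    exact add_comm _ _
  comm := by
    rintro _ ⟨a, b, c, rfl⟩ _ ⟨a', b', c', rfl⟩
    have hcases : ∀ x y : ZMod 2, x = y ∨ x = y + 1 := by decide
    rcases hcases (a ⬝ᵥ b') (a' ⬝ᵥ b) with h | h
    · left
      have e : mkS a b c * mkS a' b' c' = mkS a' b' c' * mkS a b c := by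
        rw [mkS_mul, mkS_mul, h, add_comm a, add_comm b, add_comm c]
      rw [e]
      group
    · right
      have e : mkS a b c * mkS a' b' c' = zz n * (mkS a' b' c' * mkS a b c) := by
        rw [zz, mkS_mul, mkS_mul, mkS_mul, h, add_comm a, add_comm b, add_comm c]
        simp only [zero_add, zero_dotProduct, add_zero]
        congr 1
        ring
      rw [e]
      group
  sq := by
    rintro _ ⟨a, b, c, rfl⟩
    rw [mkS_mul, vec_add_self, vec_add_self]
    have hcases : ∀ x : ZMod 2, x = 0 ∨ x = 1 := by decide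
    have h0 : c + c = 0 := z2_add_self c
    rw [h0, zero_add]
    rcases hcases (a ⬝ᵥ b) with h | h
    · left
      rw [h, mkS_zero]
    · right
      rw [h, zz]
  center := by
    rintro _ ⟨a, b, c, rfl⟩ h
    have hb : b = 0 := by
      funext j
      have h1 := h (mkS (Pi.single j 1) 0 0) (mkS_mem _ _ _)
      rw [mkS_mul, mkS_mul] at h1
      have h2 := (mkS_inj h1).2.2
      simp at h2
      exact h2
    have ha : a = 0 := by
      funext j
      have h1 := h (mkS 0 (Pi.single j 1) 0) (mkS_mem _ _ _)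
      rw [mkS_mul, mkS_mul] at h1
      have h2 := (mkS_inj h1).2.2
      simp at h2
      exact h2
    subst ha hb
    have hcases : ∀ x : ZMod 2, x = 0 ∨ x = 1 := by decide
    rcases hcases c with rfl | rfl
    · left; exact mkS_zero
    · right; rfl

theorem exists_noncomm (hn : 1 ≤ n) : ∃ a ∈ QQ n, ∃ b ∈ QQ n, a * b ≠ b * a := by
  let j : Fin n := ⟨0, hn⟩
  refine ⟨mkS (Pi.single j 1) 0 0, mkS_mem _ _ _, mkS 0 (Pi.single j 1) 0, mkS_mem _ _ _, ?_⟩
  intro h
  rw [mkS_mul, mkS_mul] at h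
  have h2 := (mkS_inj h).2.2
  simp at h2

/-- The parametrization of `Q`. -/
noncomputable def paramQ (n : ℕ) : ((Fin n → ZMod 2) × (Fin n → ZMod 2) × ZMod 2) ≃ QQ n :=
  Equiv.ofBijective (fun t => ⟨mkS t.1 t.2.1 t.2.2, mkS_mem _ _ _⟩) (by
    constructor
    · rintro ⟨a, b, c⟩ ⟨a', b', c'⟩ h
      obtain ⟨h1, h2, h3⟩ := mkS_inj (congrArg Subtype.val h)
      subst h1 h2 h3
      rfl
    · rintro ⟨_, a, b, c, rfl⟩
      exact ⟨(a, b, c), rfl⟩)

theorem card_QQ : Nat.card (QQ n) = 2 ^ (2 * n + 1) := by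
  rw [← Nat.card_congr (paramQ n), Nat.card_eq_fintype_card, Fintype.card_prod, Fintype.card_prod, Fintype.card_fun,
    ZMod.card, Fintype.card_fin]
  ring

/-- The elementary abelian subgroup. -/
def EE (n : ℕ) : Subgroup (SS n) where
  carrier := {g | ∃ b c, g = mkS 0 b c}
  mul_mem' := by
    rintro _ _ ⟨b, c, rfl⟩ ⟨b', c', rfl⟩
    refine ⟨b + b', c + c' + 0 ⬝ᵥ b', ?_⟩
    rw [mkS_mul, add_zero]
  one_mem' := ⟨0, 0, mkS_zero.symm⟩
  inv_mem' := by
    rintro _ ⟨b, c, rfl⟩
    refine ⟨b, c + 0 ⬝ᵥ b, mkS_inv _ _ _⟩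

theorem EE_le : EE n ≤ QQ n := by
  rintro _ ⟨b, c, rfl⟩
  exact mkS_mem _ _ _

theorem EE_ea : IsElementaryAbelian 2 (EE n) := by
  constructor
  · constructor
    constructor
    rintro ⟨_, b, c, rfl⟩ ⟨_, b', c', rfl⟩
    apply Subtype.ext
    show mkS 0 b c * mkS 0 b' c' = mkS 0 b' c' * mkS 0 b c
    rw [mkS_mul, mkS_mul]
    simp only [add_zero, zero_dotProduct]
    rw [add_comm b, add_comm c]
  · rintro _ ⟨b, c, rfl⟩
    rw [pow_two, mkS_mul, vec_add_self, vec_add_self, z2_add_self, ← mkS_zero]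
    simp

/-- The parametrization of `E`. -/
noncomputable def paramE (n : ℕ) : ((Fin n → ZMod 2) × ZMod 2) ≃ EE n :=
  Equiv.ofBijective (fun t => ⟨mkS 0 t.1 t.2, t.1, t.2, rfl⟩) (by
    constructor
    · rintro ⟨b, c⟩ ⟨b', c'⟩ h
      obtain ⟨_, h2, h3⟩ := mkS_inj (congrArg Subtype.val h)
      subst h2 h3
      rfl
    · rintro ⟨_, b, c, rfl⟩
      exact ⟨(b, c), rfl⟩)

theorem card_EE : Nat.card (EE n) = 2 ^ (n + 1) := by
  rw [← Nat.card_congr (paramE n), Nat.card_eq_fintype_card, Fintype.card_prod, Fintype.card_fun,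
    ZMod.card, Fintype.card_fin]
  ring

/-! ### The centralizer -/

/-- The centralizer as a subgroup. -/
def CG (n : ℕ) : Subgroup (SS n) where
  carrier := {g | CC (g : MM n)}
  mul_mem' := fun ha hb => CC.mul ha hb
  one_mem' := CC.one
  inv_mem' := fun {g} hg => CC.of_mul hg (congrArg Subtype.val (inv_mul_cancel g)) (congrArg Subtype.val (mul_inv_cancel g))

theorem comm_entries (g : MM n) (i j : Fin (n + 2)) :
    (g * (Matrix.single 0 1 1 : MM n)) i j = if j = 1 then g i 0 else 0 := by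
  by_cases h : j = 1
  · subst h
    simp [Matrix.mul_single_apply_same]
  · rw [if_neg h, Matrix.mul_single_apply_of_ne]
    exact h

theorem comm_entries' (g : MM n) (i j : Fin (n + 2)) :
    ((Matrix.single 0 1 1 : MM n) * g) i j = if i = 0 then g 1 j else 0 := by
  by_cases h : i = 0
  · subst h
    simp [Matrix.single_mul_apply_same]
  · rw [if_neg h, Matrix.single_mul_apply_of_ne]
    exact h

theorem comm_iff (g : SS n) : g * zz n = zz n * g ↔ CC (g : MM n) := by
  have hz : ((zz n : SS n) : MM n) = 1 + Matrix.single 0 1 1 := by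
    rw [zz_coe]; rfl
  constructor
  · intro h
    have h1 : (g : MM n) * (1 + Matrix.single 0 1 1) = (1 + Matrix.single 0 1 1) * (g : MM n) := by
      rw [← hz]
      exact congrArg Subtype.val h
    rw [mul_add, add_mul, mul_one, one_mul, add_right_inj] at h1
    have h2 : ∀ i j, (if j = 1 then (g : MM n) i 0 else 0) = if i = 0 then (g : MM n) 1 j else 0 := by
      intro i j
      rw [← comm_entries, ← comm_entries', h1]
    have hi0 : ∀ i, i ≠ 0 → (g : MM n) i 0 = 0 := by
      intro i hi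
      have := h2 i 1
      simpa [hi] using this
    have h1j : ∀ j, j ≠ 1 → (g : MM n) 1 j = 0 := by
      intro j hj
      have := h2 0 j
      simpa [hj] using this.symm
    have h00 : (g : MM n) 0 0 = 1 := by
      by_contra hne
      have h0 : (g : MM n) 0 0 = 0 := (Cfsg.Agent.Lib.ThreeTrans.LGL.z2_cases _).resolve_right hne
      have h3 : ((g⁻¹ * g : SS n) : MM n) 0 0 = 1 := by
        rw [inv_mul_cancel]; simp
      rw [Matrix.SpecialLinearGroup.coe_mul, mul_entry, h0, hi0 1 one_ne_zero'] at h3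
      simp [hi0 _ (s_ne_zero _)] at h3
    have h11 : (g : MM n) 1 1 = 1 := by
      have := h2 0 1
      simp only [if_true] at this
      rw [← this, h00]
    constructor
    · intro i
      by_cases hi : i = 0
      · subst hi; simpa using h00
      · rw [if_neg hi]; exact hi0 i hi
    · intro j
      by_cases hj : j = 1
      · subst hj; simpa using h11
      · rw [if_neg hj]; exact h1j j hj
  · intro h
    apply Subtype.ext
    show (g : MM n) * ((zz n : SS n) : MM n) = ((zz n : SS n) : MM n) * (g : MM n)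
    rw [hz, mul_add, add_mul, mul_one, one_mul, add_right_inj]
    funext i j
    rw [comm_entries, comm_entries', h.col, h.row]
    by_cases hi : i = 0 <;> by_cases hj : j = 1 <;> simp [hi, hj]

theorem mk_CC (a b : Fin n → ZMod 2) (c : ZMod 2) : CC (mk a b c) where
  col := fun i => by
    rcases idx_cases i with rfl | rfl | ⟨l, rfl⟩
    · simp [mk_00]
    · simp [mk_10, one_ne_zero']
    · simp [mk_s0, s_ne_zero]
  row := fun j => mk_1j a b c j

theorem mk_mid (a b : Fin n → ZMod 2) (c : ZMod 2) : mid (mk a b c) = 1 := by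
  funext i j
  show mk a b c (s i) (s j) = _
  rw [mk_ss, Matrix.one_apply]

theorem eq_mk_of {g : MM n} (hg : CC g) (hm : mid g = 1) :
    g = mk (fun m => g 0 (s m)) (fun l => g (s l) 1) (g 0 1) := by
  funext i j
  rcases idx_cases i with rfl | rfl | ⟨l, rfl⟩ <;> rcases idx_cases j with rfl | rfl | ⟨m, rfl⟩
  · rw [mk_00, hg.zero_zero]
  · rw [mk_01]
  · rw [mk_0s]
  · rw [mk_10, hg.one_zero]
  · rw [mk_11, hg.one_one]
  · rw [mk_1s, hg.one_s]
  · rw [mk_s0, hg.s_zero]
  · rw [mk_s1]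
  · rw [mk_ss]
    have := congrFun (congrFun hm l) m
    rw [Matrix.one_apply] at this
    exact this

theorem mem_QQ_of {g : SS n} (hg : CC (g : MM n)) (hm : mid (g : MM n) = 1) : g ∈ QQ n := by
  refine ⟨fun m => (g : MM n) 0 (s m), fun l => (g : MM n) (s l) 1, (g : MM n) 0 1, ?_⟩
  apply Subtype.ext
  exact eq_mk_of hg hm

theorem QQ_normal (c q : SS n) (hc : c ∈ CG n) (hq : q ∈ QQ n) : c * q * c⁻¹ ∈ QQ n := by
  obtain ⟨a, b, d, rfl⟩ := hq
  have hc' : CC (c : MM n) := hc
  have hci : CC ((c⁻¹ : SS n) : MM n) := (CG n).inv_mem hc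
  have hq' : CC (mk a b d) := mk_CC a b d
  apply mem_QQ_of
  · exact ((hc'.mul hq').mul hci)
  · have e : ((c * mkS a b d * c⁻¹ : SS n) : MM n) = (c : MM n) * (mk a b d) * ((c⁻¹ : SS n) : MM n) := rfl
    rw [e, mid_mul (hc'.mul hq') hci, mid_mul hc' hq', mk_mid, mul_one, ← mid_mul hc' hci]
    have e2 : (c : MM n) * ((c⁻¹ : SS n) : MM n) = 1 := congrArg Subtype.val (mul_inv_cancel c)
    rw [e2, mid_one]

/-! ### The complement -/

/-- The block embedding. -/
def blk (A : Matrix (Fin n) (Fin n) (ZMod 2)) : MM n := fun i j =>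
  Fin.cases (Fin.cases 1 (fun _ => 0) j)
    (fun i₁ => Fin.cases (if j = 1 then 1 else 0)
      (fun i₂ => Fin.cases 0 (fun j₁ => Fin.cases 0 (fun j₂ => A i₂ j₂) j₁) j) i₁) i

section
variable (A : Matrix (Fin n) (Fin n) (ZMod 2))

theorem blk_00 : blk A 0 0 = 1 := rfl
theorem blk_01 : blk A 0 1 = 0 := rfl
theorem blk_0s (m : Fin n) : blk A 0 (s m) = 0 := rfl
theorem blk_1j (j : Fin (n + 2)) : blk A 1 j = if j = 1 then 1 else 0 := rfl
theorem blk_s0 (l : Fin n) : blk A (s l) 0 = 0 := rfl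
theorem blk_s1 (l : Fin n) : blk A (s l) 1 = 0 := rfl
theorem blk_ss (l m : Fin n) : blk A (s l) (s m) = A l m := rfl

theorem blk_10 : blk A 1 0 = 0 := by
  rw [blk_1j]; simp [one_ne_zero'.symm]
theorem blk_11 : blk A 1 1 = 1 := by
  rw [blk_1j]; simp
theorem blk_1s (m : Fin n) : blk A 1 (s m) = 0 := by
  rw [blk_1j]; simp [s_ne_one]

end

theorem blk_mul (A B : Matrix (Fin n) (Fin n) (ZMod 2)) : blk A * blk B = blk (A * B) := by
  funext i j
  rw [mul_entry]
  rcases idx_cases i with rfl | rfl | ⟨l, rfl⟩ <;> rcases idx_cases j with rfl | rfl | ⟨m, rfl⟩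
  · simp only [blk_00, blk_01, blk_0s, blk_10, blk_s0, mul_zero, zero_mul, mul_one, add_zero, Finset.sum_const_zero]
  · simp only [blk_00, blk_01, blk_0s, blk_11, blk_s1, mul_one, one_mul, zero_mul, add_zero, Finset.sum_const_zero]
  · simp only [blk_00, blk_01, blk_0s, blk_1s, blk_ss, mul_one, one_mul, zero_mul, mul_zero, add_zero, Finset.sum_const_zero]
  · simp only [blk_10, blk_11, blk_1s, blk_00, blk_s0, mul_zero, zero_mul, add_zero, Finset.sum_const_zero, one_mul]
  · simp only [blk_10, blk_11, blk_1s, blk_01, blk_s1, mul_zero, zero_mul, add_zero, zero_add, Finset.sum_const_zero, one_mul]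
  · simp only [blk_10, blk_11, blk_1s, blk_0s, blk_ss, mul_zero, zero_mul, add_zero, zero_add, Finset.sum_const_zero, one_mul]
  · simp only [blk_s0, blk_s1, blk_ss, blk_00, blk_10, zero_mul, mul_zero, add_zero, Finset.sum_const_zero, zero_add]
  · simp only [blk_s0, blk_s1, blk_ss, blk_01, blk_11, zero_mul, mul_one, zero_add, mul_zero, add_zero, Finset.sum_const_zero]
  · simp only [blk_s0, blk_s1, blk_ss, blk_0s, blk_1s, zero_mul, mul_zero, add_zero, zero_add, Matrix.mul_apply]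

theorem blk_one : blk (1 : Matrix (Fin n) (Fin n) (ZMod 2)) = 1 := by
  funext i j
  rcases idx_cases i with rfl | rfl | ⟨l, rfl⟩ <;> rcases idx_cases j with rfl | rfl | ⟨m, rfl⟩ <;>
    simp [blk_00, blk_01, blk_0s, blk_10, blk_11, blk_1s, blk_s0, blk_s1, blk_ss, Matrix.one_apply, s_ne_zero, s_ne_one,
      one_ne_zero', one_ne_zero'.symm, (s_ne_zero _).symm, (s_ne_one _).symm, s_inj]

theorem blk_CC (A : Matrix (Fin n) (Fin n) (ZMod 2)) : CC (blk A) where
  col := fun i => by
    rcases idx_cases i with rfl | rfl | ⟨l, rfl⟩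
    · simp [blk_00]
    · simp [blk_10, one_ne_zero']
    · simp [blk_s0, s_ne_zero]
  row := fun j => blk_1j A j

theorem blk_mid (A : Matrix (Fin n) (Fin n) (ZMod 2)) : mid (blk A) = A := by
  funext i j
  rfl

/-- The homomorphism from the small special linear group. -/
def phi (n : ℕ) : Matrix.SpecialLinearGroup (Fin n) (ZMod 2) →* SS n :=
  MonoidHom.mk' (fun A => ⟨blk (A : Matrix (Fin n) (Fin n) (ZMod 2)),
    Cfsg.Agent.Lib.ThreeTrans.LGL.det_eq_one_of_mul
      (B := blk ((A⁻¹ : Matrix.SpecialLinearGroup (Fin n) (ZMod 2)) : Matrix (Fin n) (Fin n) (ZMod 2))) (by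
        rw [blk_mul, ← Matrix.SpecialLinearGroup.coe_mul, mul_inv_cancel, Matrix.SpecialLinearGroup.coe_one, blk_one])⟩)
    (fun A B => by
      apply Subtype.ext
      show blk _ = blk _ * blk _
      rw [blk_mul, Matrix.SpecialLinearGroup.coe_mul])

theorem phi_coe (A : Matrix.SpecialLinearGroup (Fin n) (ZMod 2)) :
    ((phi n A : SS n) : MM n) = blk (A : Matrix (Fin n) (Fin n) (ZMod 2)) := rfl

theorem phi_inj : Function.Injective (phi n) := by
  intro A B h
  apply Subtype.ext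
  have h1 : blk (A : Matrix (Fin n) (Fin n) (ZMod 2)) = blk (B : Matrix (Fin n) (Fin n) (ZMod 2)) :=
    congrArg Subtype.val h
  have h2 := congrArg mid h1
  rwa [blk_mid, blk_mid] at h2

theorem range_le : (phi n).range ≤ CG n := by
  rintro _ ⟨A, rfl⟩
  exact blk_CC _

/-- The decomposition of the centralizer. -/
theorem decomp (c : SS n) (hc : c ∈ CG n) : ∃ q ∈ QQ n, ∃ k ∈ (phi n).range, c = q * k := by
  have hc' : CC (c : MM n) := hc
  have hci : CC ((c⁻¹ : SS n) : MM n) := (CG n).inv_mem hc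
  have hm : mid (c : MM n) * mid ((c⁻¹ : SS n) : MM n) = 1 := by
    rw [← mid_mul hc' hci]
    have e2 : (c : MM n) * ((c⁻¹ : SS n) : MM n) = 1 := congrArg Subtype.val (mul_inv_cancel c)
    rw [e2, mid_one]
  let A : Matrix.SpecialLinearGroup (Fin n) (ZMod 2) := ⟨mid (c : MM n),
    Cfsg.Agent.Lib.ThreeTrans.LGL.det_eq_one_of_mul hm⟩
  refine ⟨c * (phi n A)⁻¹, ?_, phi n A, ⟨A, rfl⟩, by group⟩
  have hk : (phi n A) ∈ CG n := range_le ⟨A, rfl⟩
  have hki : CC (((phi n A)⁻¹ : SS n) : MM n) := (CG n).inv_mem hk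
  apply mem_QQ_of
  · exact hc'.mul hki
  · have e : ((c * (phi n A)⁻¹ : SS n) : MM n) = (c : MM n) * (((phi n A)⁻¹ : SS n) : MM n) := rfl
    rw [e, mid_mul hc' hki]
    have h3 : mid ((phi n A : SS n) : MM n) = mid (c : MM n) := blk_mid _
    rw [← h3, ← mid_mul hk hki]
    have e2 : ((phi n A : SS n) : MM n) * (((phi n A)⁻¹ : SS n) : MM n) = 1 :=
      congrArg Subtype.val (mul_inv_cancel (phi n A))
    rw [e2, mid_one]

theorem QQ_inf : QQ n ⊓ (phi n).range = ⊥ := by
  rw [eq_bot_iff]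
  rintro _ ⟨⟨a, b, c, h⟩, ⟨A, rfl⟩⟩
  rw [Subgroup.mem_bot]
  have h1 : blk (A : Matrix (Fin n) (Fin n) (ZMod 2)) = mk a b c := congrArg Subtype.val h
  have h2 := congrArg mid h1
  rw [blk_mid, mk_mid] at h2
  have h3 : A = 1 := Subtype.ext h2
  rw [h3, map_one]

/-- `Q` is self-centralizing. -/
theorem QQ_self : Subgroup.centralizer (QQ n : Set (SS n)) ≤ QQ n := by
  intro y hy
  have hc : CC (y : MM n) := by
    rw [← comm_iff]
    exact (Subgroup.mem_centralizer_iff.1 hy (zz n) (mkS_mem _ _ _)).symm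
  apply mem_QQ_of hc
  funext j m
  have h1 := Subgroup.mem_centralizer_iff.1 hy (mkS (Pi.single j 1) 0 0) (mkS_mem _ _ _)
  have h2 : ((mk (Pi.single j 1) 0 0 * (y : MM n)) : MM n) = (y : MM n) * mk (Pi.single j 1) 0 0 := congrArg Subtype.val h1
  have h3 := congrFun (congrFun h2 0) (s m)
  rw [mul_entry, mul_entry, mk_00, mk_01, hc.one_s, hc.zero_zero, mk_0s, mk_1s] at h3
  simp only [mk_0s, mk_ss, Pi.single_apply, ite_mul, one_mul, zero_mul, mul_ite, mul_one, mul_zero, add_zero,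
    Finset.sum_ite_eq, Finset.sum_ite_eq', Finset.mem_univ, if_true] at h3
  show (y : MM n) (s j) (s m) = (1 : Matrix (Fin n) (Fin n) (ZMod 2)) j m
  rw [Matrix.one_apply]
  by_cases hjm : j = m
  · subst hjm
    simp only [if_true] at h3 ⊢
    have key : ∀ x y : ZMod 2, y + x = 1 + y → x = 1 := by decide
    exact key _ _ h3
  · simp only [hjm, if_false, Ne.symm hjm] at h3 ⊢
    have key : ∀ x y : ZMod 2, y + x = 0 + y → x = 0 := by decide
    exact key _ _ h3

/-- The element moving the central involution inside `Q`. -/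
theorem exists_conj (hn : 1 ≤ n) : ∃ g : SS n, g * zz n * g⁻¹ ∈ QQ n ∧ g * zz n * g⁻¹ ≠ zz n := by
  let j : Fin n := ⟨0, hn⟩
  let u : Fin (n + 2) := s j
  have hu0 : u ≠ 0 := s_ne_zero j
  have hu1 : u ≠ 1 := s_ne_one j
  let g : SS n := ⟨Matrix.transvection 1 u 1, Matrix.det_transvection_of_ne _ _ hu1.symm _⟩
  have ht : mk (Pi.single j 1) 0 1 =
      (1 : MM n) + Matrix.single 0 1 1 + Matrix.single 0 u 1 := by
    funext a b
    rw [Matrix.add_apply, Matrix.add_apply, Matrix.single_apply, Matrix.single_apply, Matrix.one_apply]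
    rcases idx_cases a with rfl | rfl | ⟨l, rfl⟩ <;> rcases idx_cases b with rfl | rfl | ⟨m, rfl⟩
    · simp [mk_00, hu0, hu0.symm, one_ne_zero'.symm]
    · simp [mk_01, hu1, hu1.symm, one_ne_zero', one_ne_zero'.symm]
    · by_cases hm : j = m
      · subst hm
        simp [mk_0s, u, s_ne_zero, (s_ne_zero _).symm, s_ne_one, (s_ne_one _).symm]
      · have : u ≠ s m := fun h => hm (s_inj.1 h)
        simp [mk_0s, this, s_ne_zero, (s_ne_zero _).symm, s_ne_one, (s_ne_one _).symm, Pi.single_apply, Ne.symm hm]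
    · simp [mk_10, hu0, one_ne_zero', one_ne_zero'.symm]
    · simp [mk_11, one_ne_zero', one_ne_zero'.symm]
    · simp [mk_1s, one_ne_zero', one_ne_zero'.symm, s_ne_one, (s_ne_one _).symm]
    · simp [mk_s0, s_ne_zero, (s_ne_zero _).symm]
    · simp [mk_s1, s_ne_zero, s_ne_one, (s_ne_zero _).symm, (s_ne_one _).symm]
    · simp [mk_ss, s_ne_zero, s_inj, (s_ne_zero _).symm, (s_ne_one _).symm]
  have hkey : g * zz n = mkS (Pi.single j 1) 0 1 * g := by
    apply Subtype.ext
    show (Matrix.transvection 1 u 1 : MM n) * ((zz n : SS n) : MM n) = mk (Pi.single j 1) 0 1 * Matrix.transvection 1 u 1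
    rw [zz_coe, ht]
    have hEF : (Matrix.single 1 u 1 : MM n) * Matrix.single 0 1 1 = 0 :=
      Matrix.single_mul_single_of_ne _ _ _ _ hu0 _
    have hFE : (Matrix.single 0 1 1 : MM n) * Matrix.single 1 u 1 = Matrix.single 0 u 1 := by
      rw [Matrix.single_mul_single_same, one_mul]
    have hHE : (Matrix.single 0 u 1 : MM n) * Matrix.single 1 u 1 = 0 :=
      Matrix.single_mul_single_of_ne _ _ _ _ hu1 _
    have hHH : (Matrix.single 0 u 1 : MM n) + Matrix.single 0 u 1 = 0 := by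
      funext a b
      exact z2_add_self _
    simp only [Matrix.transvection]
    rw [mul_add, add_mul, add_mul, one_mul, one_mul, mul_one, hEF, mul_add, mul_one, add_mul, add_mul, one_mul, hFE, hHE]
    calc (1 : MM n) + Matrix.single 1 u 1 + (Matrix.single 0 1 1 + 0)
        = 1 + Matrix.single 0 1 1 + Matrix.single 0 u 1 + (Matrix.single 1 u 1 + (Matrix.single 0 u 1 + Matrix.single 0 u 1)) -
            Matrix.single 0 u 1 := by
          rw [hHH]; abel
      _ = _ := by abel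
  have e : g * zz n * g⁻¹ = mkS (Pi.single j 1) 0 1 := by
    rw [mul_inv_eq_iff_eq_mul]
    exact hkey
  refine ⟨g, ?_, ?_⟩
  · rw [e]
    exact mkS_mem _ _ _
  · rw [e]
    intro h
    rw [zz] at h
    have := congrFun (mkS_inj h).1 j
    simp at this

/-- The main theorem. -/
theorem main (hn : 1 ≤ n) (z : SS n) (hz : (z : MM n) = Matrix.transvection 0 1 1) (Q : Subgroup (SS n))
    (hQ : Q = (Cfsg.pCore 2 ↥(Subgroup.centralizer ({z} : Set (SS n)))).map
      (Subgroup.centralizer ({z} : Set (SS n))).subtype) :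
    Cfsg.IsExtraspecial 2 ↥Q ∧ Nat.card ↥Q = 2 ^ (2 * n + 1) ∧
    (∃ E : Subgroup (SS n), E ≤ Q ∧ Cfsg.IsElementaryAbelian 2 E ∧ Nat.card ↥E = 2 ^ (n + 1)) ∧
    Cfsg.IsLargeExtraspecial Q ∧
    ∃ K : Subgroup (SS n), K ≤ Subgroup.centralizer ({z} : Set (SS n)) ∧ Q ⊓ K = ⊥ ∧
      Q ⊔ K = Subgroup.centralizer ({z} : Set (SS n)) ∧
      Nonempty (↥K ≃* Matrix.SpecialLinearGroup (Fin n) (ZMod 2)) := by
  have hzz : z = zz n := Subtype.ext (hz.trans zz_coe.symm)
  subst hzz
  have hC : ∀ g : SS n, g ∈ Subgroup.centralizer ({zz n} : Set (SS n)) ↔ g * zz n = zz n * g := by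
    intro g
    rw [Subgroup.mem_centralizer_singleton_iff]
  have hCG : Subgroup.centralizer ({zz n} : Set (SS n)) = CG n := by
    ext g
    rw [hC, comm_iff]
    rfl
  have hK : ∀ P : Subgroup ↥(phi n).range, P.Normal → IsPGroup 2 P → P = ⊥ :=
    Cfsg.Agent.Lib.ThreeTrans.LGL.no_normal2_of_equiv (MonoidHom.ofInjective (phi_inj (n := n))).symm
      (fun P hP hP' => Cfsg.Agent.Lib.ThreeTrans.LGL.sl_no_normal2 P hP hP')
  obtain ⟨g, hg, hg'⟩ := exists_conj (n := n) hn
  have hmain := Cfsg.Agent.Lib.ThreeTrans.LGL.abstract_large (es_QQ (n := n)) (exists_noncomm hn) hC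
    (fun c hc q hq => QQ_normal c q (hCG ▸ hc) hq) (hCG ▸ range_le)
    (fun c hc => decomp c (hCG ▸ hc)) hK QQ_self g hg hg'
  obtain ⟨h1, h2, h3, h4⟩ := hmain
  rw [h1] at hQ
  subst hQ
  refine ⟨h2, card_QQ, ⟨EE n, EE_le, EE_ea, card_EE⟩, h3, (phi n).range, hCG ▸ range_le, QQ_inf, h4, ?_⟩
  exact ⟨(MonoidHom.ofInjective (phi_inj (n := n))).symm⟩

end Cfsg.Agent.Lib.ThreeTrans.SLT
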