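import Cfsg.Agent.Lib.ThreeTrans.TTPrim

/-!
# Generating classes of 3-transpositions with commuting partners unique: the symmetric group of degree 4
-/

set_option autoImplicit false
set_option linter.style.haveILetI false
set_option linter.unusedSectionVars false
open Cfsg Subgroup

namespace Cfsg.Agent.Lib.ThreeTrans.TL

variable {G : Type*} [Group G]

/-- `x'` is the partner of `x`. -/
structure Partner (D : Set G) (x x' : G) : Prop where
  mem : x' ∈ D
  ne : x' ≠ x
  comm : Commute x x'
  only : ∀ y ∈ D, Commute x y → y = x ∨ y = x'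
  sim : ∀ e ∈ D, Commute x' e ↔ Commute x e

theorem Partner.conj {D : Set G} (h : CD D) {x x' : G} (hp : Partner D x x') (g : G) :
    Partner D (g * x * g⁻¹) (g * x' * g⁻¹) := by
  have hgD : ∀ y ∈ D, g⁻¹ * y * g ∈ D := fun y hy => by
    have := h.cj g⁻¹ y hy
    rwa [inv_inv] at this
  have hkey : ∀ u y : G, Commute (g * u * g⁻¹) y ↔ Commute u (g⁻¹ * y * g) := by
    intro u y
    have e : y = g * (g⁻¹ * y * g) * g⁻¹ := by group
    conv_lhs => rw [e]
    exact ThreeTrans.commute_conj_iff g _ _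
  refine ⟨h.cj g x' hp.mem, ?_, (ThreeTrans.commute_conj_iff g _ _).mpr hp.comm, ?_, ?_⟩
  · intro he
    exact hp.ne (mul_left_cancel (mul_right_cancel he))
  · intro y hy hc
    have hc' := (hkey x y).mp hc
    rcases hp.only _ (hgD y hy) hc' with h1 | h1
    · left
      rw [← h1]; group
    · right
      rw [← h1]; group
  · intro e he
    rw [hkey, hkey]
    exact hp.sim _ (hgD e he)

theorem Partner.uniq {D : Set G} {x y z : G} (h1 : Partner D x y) (h2 : Partner D x z) : y = z := by
  rcases h2.only y h1.mem h1.comm with h3 | h3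
  · exact absurd h3 h1.ne
  · exact h3

theorem perm_a1 : (Equiv.swap 1 2 : Equiv.Perm (Fin 4)) * Equiv.swap 0 3 = Equiv.swap 0 3 * Equiv.swap 1 2 := by
  decide +kernel
theorem perm_a2 : ((Equiv.swap 0 1 : Equiv.Perm (Fin 4)) * Equiv.swap 1 2 * (Equiv.swap 0 1)⁻¹) = Equiv.swap 0 2 := by
  decide +kernel
theorem perm_a3 : (Equiv.swap 0 2 : Equiv.Perm (Fin 4)) * Equiv.swap 1 3 = Equiv.swap 1 3 * Equiv.swap 0 2 := by
  decide +kernel
theorem perm_a4 : ((Equiv.swap 0 1 : Equiv.Perm (Fin 4)) * Equiv.swap 2 3) * (Equiv.swap 1 2 * Equiv.swap 0 3)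
    = Equiv.swap 0 2 * Equiv.swap 1 3 := by
  decide +kernel
theorem perm_a5 : ((Equiv.swap 0 1 : Equiv.Perm (Fin 4)) * Equiv.swap 2 3) * (Equiv.swap 1 2 * Equiv.swap 0 3)
    = (Equiv.swap 1 2 * Equiv.swap 0 3) * (Equiv.swap 0 1 * Equiv.swap 2 3) := by
  decide +kernel

/-- An injective copy of the symmetric group through `u, v, u'`: all its transpositions are in `D`. -/
theorem s4_mem {D : Set G} (h : CD D) {φ : Equiv.Perm (Fin 4) →* G} {u : G} (hu : u ∈ D)
    (h01 : φ (Equiv.swap 0 1) = u) {i j : Fin 4} (hij : i ≠ j) : φ (Equiv.swap i j) ∈ D := by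
  obtain ⟨σ, hσ⟩ : ∃ σ : Equiv.Perm (Fin 4), σ * Equiv.swap 0 1 * σ⁻¹ = Equiv.swap i j := by
    revert i j
    decide +kernel
  rw [← hσ, map_mul, map_mul, map_inv, h01]
  exact h.cj _ u hu

/-- The basic relation among the products of partners. -/
theorem partner_rel {D : Set G} (h : CD D) (hset : IsThreeTranspositionSet D) {u v u' v' w' : G}
    (hu : u ∈ D) (hv : v ∈ D) (huv : ¬ Commute u v) (hpu : Partner D u u') (hpv : Partner D v v')
    (hpw : Partner D (u * v * u⁻¹) w') :
    (u * u') * (v * v') = (u * v * u⁻¹) * w' ∧ Commute (u * u') (v * v') := by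
  have hnc : ¬ Commute v u' := by
    intro hc
    exact huv ((hpu.sim v hv).mp hc.symm)
  obtain ⟨φ, hinj, h01, h12, h23⟩ := Cfsg.Agent.S5344.result hset hu hv hpu.mem hpu.ne.symm hpu.comm huv hnc
  -- the partner of `v`
  have hv' : v' = φ (Equiv.swap 0 3) := by
    rcases hpv.only (φ (Equiv.swap 0 3)) (s4_mem h hu h01 (by decide)) (by
      rw [← h12]
      show φ _ * φ _ = φ _ * φ _
      rw [← map_mul, ← map_mul, perm_a1]) with h1 | h1
    · exfalso
      rw [← h12] at h1
      have := hinj h1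
      revert this
      decide +kernel
    · exact h1.symm
  have hw : u * v * u⁻¹ = φ (Equiv.swap 0 2) := by
    rw [← perm_a2, map_mul, map_mul, map_inv, h01, h12]
  have hw' : w' = φ (Equiv.swap 1 3) := by
    rcases hpw.only (φ (Equiv.swap 1 3)) (s4_mem h hu h01 (by decide)) (by
      rw [hw]
      show φ _ * φ _ = φ _ * φ _
      rw [← map_mul, ← map_mul, perm_a3]) with h1 | h1
    · exfalso
      rw [hw] at h1
      have := hinj h1
      revert this
      decide +kernel
    · exact h1.symm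
  constructor
  · rw [hw', hw, hv', ← h01, ← h12, ← h23, ← map_mul, ← map_mul, ← map_mul, ← map_mul, perm_a4]
  · rw [hv', ← h01, ← h12, ← h23]
    show φ _ * φ _ * (φ _ * φ _) = φ _ * φ _ * (φ _ * φ _)
    rw [← map_mul, ← map_mul, ← map_mul, ← map_mul, perm_a5]

/-- The main theorem. -/
theorem s4_main [Finite G] {D : Set G} (h : CD D) (hset : IsThreeTranspositionSet D)
    (hD2 : ∃ a ∈ D, ∃ b ∈ D, a ≠ b) {d d' : G} (hd : d ∈ D) (hpd : Partner D d d') :
    Nonempty (G ≃* Equiv.Perm (Fin 4)) := by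
  have hpart : ∀ x ∈ D, ∃ x', Partner D x x' := by
    intro x hx
    obtain ⟨g, rfl⟩ := h.tr d hd x hx
    exact ⟨_, hpd.conj h g⟩
  -- `d` is not central
  have hnz : ∃ e ∈ D, ¬ Commute d e := by
    by_contra hall
    push Not at hall
    have hz : d ∈ center G := h.mem_center fun y hy => (hall y hy).symm.eq
    obtain ⟨a, ha, b, hb, hab⟩ := hD2
    apply hab
    obtain ⟨g, rfl⟩ := h.tr d hd a ha
    obtain ⟨g', rfl⟩ := h.tr d hd b hb
    rw [mem_center_iff.mp hz g, mem_center_iff.mp hz g', mul_inv_cancel_right, mul_inv_cancel_right]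
  obtain ⟨e, he, hde⟩ := hnz
  have hnc : ¬ Commute e d' := fun hc => hde ((hpd.sim e he).mp hc.symm)
  obtain ⟨φ, hinj, h01, h12, h23⟩ := Cfsg.Agent.S5344.result hset hd he hpd.mem hpd.ne.symm hpd.comm hde hnc
  obtain ⟨e', hpe⟩ := hpart e he
  set f := d * e * d⁻¹ with hf
  have hfD : f ∈ D := h.cj d e he
  obtain ⟨f', hpf⟩ := hpart f hfD
  -- the partners lie in the image
  have he' : e' = φ (Equiv.swap 0 3) := by
    rcases hpe.only (φ (Equiv.swap 0 3)) (s4_mem h hd h01 (by decide)) (by
      rw [← h12]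
      show φ _ * φ _ = φ _ * φ _
      rw [← map_mul, ← map_mul, perm_a1]) with h1 | h1
    · exfalso
      rw [← h12] at h1
      have := hinj h1
      revert this
      decide +kernel
    · exact h1.symm
  have hff : f = φ (Equiv.swap 0 2) := by
    rw [← perm_a2, map_mul, map_mul, map_inv, h01, h12]
  have hf' : f' = φ (Equiv.swap 1 3) := by
    rcases hpf.only (φ (Equiv.swap 1 3)) (s4_mem h hd h01 (by decide)) (by
      rw [hff]
      show φ _ * φ _ = φ _ * φ _
      rw [← map_mul, ← map_mul, perm_a3]) with h1 | h1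
    · exfalso
      rw [hff] at h1
      have := hinj h1
      revert this
      decide +kernel
    · exact h1.symm
  have hsub : ∀ x ∈ D, x ∈ φ.range := by
    intro x hx
    by_contra hxn
    obtain ⟨x', hpx⟩ := hpart x hx
    have hnotin : ∀ y ∈ D, ∀ y', Partner D y y' → y ∈ φ.range → y' ∈ φ.range → ¬ Commute x y := by
      intro y hy y' hpy hyr hy'r hc
      rcases hpy.only x hx hc.symm with h1 | h1
      · exact hxn (h1 ▸ hyr)
      · exact hxn (h1 ▸ hy'r)
    have hxd : ¬ Commute x d :=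
      hnotin d hd d' hpd ⟨_, h01⟩ ⟨_, h23⟩
    have hxe : ¬ Commute x e :=
      hnotin e he e' hpe ⟨_, h12⟩ ⟨_, he'.symm⟩
    have hxf : ¬ Commute x f :=
      hnotin f hfD f' hpf ⟨_, hff.symm⟩ ⟨_, hf'.symm⟩
    have r1 := partner_rel h hset hd he hde hpd hpe hpf
    have r2 := partner_rel h hset hx hfD hxf hpx hpf (hpf.conj h x)
    have r3 := partner_rel h hset hx hd hxd hpx hpd (hpd.conj h x)
    have r4 := partner_rel h hset hx he hxe hpx hpe (hpe.conj h x)
    have hxdD : x * d * x⁻¹ ∈ D := h.cj x d hd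
    have hxeD : x * e * x⁻¹ ∈ D := h.cj x e he
    have hncxx : ¬ Commute (x * d * x⁻¹) (x * e * x⁻¹) := fun hc =>
      hde ((ThreeTrans.commute_conj_iff x _ _).mp hc)
    have hw : (x * d * x⁻¹) * (x * e * x⁻¹) * (x * d * x⁻¹)⁻¹ = x * f * x⁻¹ := by
      rw [hf]; group
    have hpw : Partner D ((x * d * x⁻¹) * (x * e * x⁻¹) * (x * d * x⁻¹)⁻¹) (x * f' * x⁻¹) := by
      rw [hw]; exact hpf.conj h x
    have r5 := partner_rel h hset hxdD hxeD hncxx (hpd.conj h x) (hpe.conj h x) hpw
    rw [hw] at r5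
    -- the computation
    set A := x * x' with hA
    set B := d * d' with hB
    set C := e * e' with hC
    have hAA : A * A = 1 := by
      have hc : x' * x = x * x' := hpx.comm.eq.symm
      calc x * x' * (x * x') = x * (x' * x) * x' := by group
        _ = x * (x * x') * x' := by rw [hc]
        _ = (x * x) * (x' * x') := by group
        _ = 1 := by rw [h.inv x hx, h.inv x' hpx.mem, one_mul]
    have e1 : f * f' = B * C := r1.1.symm
    have e2 : (x * f * x⁻¹) * (x * f' * x⁻¹) = A * (f * f') := r2.1.symm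
    have e3 : (x * d * x⁻¹) * (x * d' * x⁻¹) = A * B := r3.1.symm
    have e4 : (x * e * x⁻¹) * (x * e' * x⁻¹) = A * C := r4.1.symm
    have e5 := r5.1
    rw [e3, e4, e2, e1] at e5
    have hcAB : A * B = B * A := r3.2
    have e6 : A * B * (A * C) = B * C := by
      calc A * B * (A * C) = B * A * (A * C) := by rw [hcAB]
        _ = B * (A * A) * C := by group
        _ = B * C := by rw [hAA, mul_one]
    rw [e6] at e5
    have hA1 : A = 1 := by
      have h9 : A * (B * C) = 1 * (B * C) := by rw [one_mul]; exact e5.symm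
      exact mul_right_cancel h9
    apply hpx.ne
    have := eq_inv_of_mul_eq_one_left hA1
    rw [h.inv_eq hpx.mem] at this
    exact this.symm
  have hsurj : Function.Surjective φ := by
    intro g
    have hle : closure D ≤ φ.range := by
      rw [closure_le]
      exact hsub
    rw [h.gen] at hle
    exact hle (mem_top g)
  exact ⟨(MulEquiv.ofBijective φ ⟨hinj, hsurj⟩).symm⟩

end Cfsg.Agent.Lib.ThreeTrans.TL
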