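import Cfsg.Agent.Lib.ThreeTrans.TTWidth

/-!
# Generating classes of 3-transpositions in which commuting members have the same commuting sets

Then some Sylow 3-subgroup is normalized by a given member `d` and `G = ⟨d⟩ P O₂(G)`.
-/

set_option autoImplicit false
set_option linter.style.haveILetI false
set_option linter.unusedSectionVars false
open Cfsg Subgroup

namespace Cfsg.Agent.Lib.ThreeTrans.TL

universe u

variable {G : Type*} [Group G]

/-- Commuting members of `D` have the same commuting sets. -/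
def HC (D : Set G) : Prop :=
  ∀ a ∈ D, ∀ b ∈ D, Commute a b → ∀ e ∈ D, (Commute a e ↔ Commute b e)

/-- With `HC`, a conjugation-invariant generating set is commuting or one class. -/
theorem hc_dich {D : Set G} (hD : IsThreeTranspositionGroup D) (hc : HC D) :
    (∀ a ∈ D, ∀ b ∈ D, Commute a b) ∨ IsThreeTranspositionClass D := by
  by_cases hall : ∀ a ∈ D, ∀ b ∈ D, Commute a b
  · exact Or.inl hall
  right
  push Not at hall
  obtain ⟨a, ha, b, hb, hab⟩ := hall
  have hinv : ∀ x ∈ D, x * x = 1 := fun x hx => ZS.invol_mul_self (hD.1.1 x hx)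
  -- non-commuting members are conjugate
  have hconj : ∀ x ∈ D, ∀ y ∈ D, ¬ Commute x y → IsConj x y := by
    intro x hx y hy hxy
    have h3 : (x * y) ^ 3 = 1 := by
      rcases hD.1.2 x hx y hy with h2 | h3
      · exact absurd (comm_of_sq (hinv x hx) (hinv y hy) h2) hxy
      · exact h3
    have hb := ThreeTrans.braid_of_cube (hinv x hx) (hinv y hy) h3
    refine isConj_iff.mpr ⟨x * y, ?_⟩
    have hxi : x⁻¹ = x := inv_eq_of_mul_eq_one_left (hinv x hx)
    have hyi : y⁻¹ = y := inv_eq_of_mul_eq_one_left (hinv y hy)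
    rw [mul_inv_rev, hxi, hyi, hb]
    calc y * x * y * (y * x) = y * x * (y * y) * x := by group
      _ = y := by rw [hinv y hy, mul_one, mul_assoc, hinv x hx, mul_one]
  have hall' : ∀ x ∈ D, IsConj a x := by
    intro x hx
    by_cases hax : Commute a x
    · have hxb : ¬ Commute x b := fun hc' => hab ((hc a ha x hx hax b hb).mpr hc')
      exact (hconj a ha b hb hab).trans (hconj x hx b hb hxb).symm
    · exact hconj a ha x hx hax
  refine ⟨hD.1, ⟨a, ha, ?_⟩, hD.2.2⟩
  ext x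
  constructor
  · exact hall' x
  · intro hx
    obtain ⟨g, rfl⟩ := isConj_iff.mp (show IsConj a x from hx)
    exact hD.2.1 g a ha

/-- Commuting images in a quotient. -/
theorem comm_quot {D : Set G} (h : CD D) {W : Subgroup G} [W.Normal] {a b : G} (ha : a ∈ D) (hb : b ∈ D)
    (hc : Commute (QuotientGroup.mk' W a) (QuotientGroup.mk' W b)) :
    QuotientGroup.mk' W a = QuotientGroup.mk' W b ∨ Commute a b := by
  rcases h.prod a ha b hb with h2 | h3
  · exact Or.inr (comm_of_sq (h.inv a ha) (h.inv b hb) h2)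
  left
  have hsq : QuotientGroup.mk' W a * QuotientGroup.mk' W a = 1 := by
    rw [← map_mul, h.inv a ha, map_one]
  have hsqb : QuotientGroup.mk' W b * QuotientGroup.mk' W b = 1 := by
    rw [← map_mul, h.inv b hb, map_one]
  have h1 : (QuotientGroup.mk' W a * QuotientGroup.mk' W b) ^ 2 = 1 := by
    rw [hc.mul_pow, pow_two, pow_two, hsq, hsqb, one_mul]
  have h3' : (QuotientGroup.mk' W a * QuotientGroup.mk' W b) ^ 3 = 1 := by
    rw [← map_mul, ← map_pow, h3, map_one]
  have h5 : QuotientGroup.mk' W a * QuotientGroup.mk' W b = 1 := by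
    have : (QuotientGroup.mk' W a * QuotientGroup.mk' W b) ^ 3 =
        (QuotientGroup.mk' W a * QuotientGroup.mk' W b) ^ 2 * (QuotientGroup.mk' W a * QuotientGroup.mk' W b) :=
      pow_succ _ _
    rw [this, h1, one_mul] at h3'
    exact h3'
  have h6 := eq_inv_of_mul_eq_one_left h5
  rw [h6]
  exact inv_eq_of_mul_eq_one_left hsqb

/-- `HC` passes to quotients. -/
theorem hc_quot {D : Set G} (h : CD D) (hc : HC D) {W : Subgroup G} [W.Normal] :
    HC ((QuotientGroup.mk' W) '' D) := by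
  have hkey : ∀ a ∈ D, ∀ b ∈ D, ∀ e ∈ D, Commute (QuotientGroup.mk' W a) (QuotientGroup.mk' W b) →
      Commute (QuotientGroup.mk' W a) (QuotientGroup.mk' W e) →
      Commute (QuotientGroup.mk' W b) (QuotientGroup.mk' W e) := by
    intro a ha b hb e he hab hae
    rcases comm_quot h ha hb hab with h1 | h1
    · rw [← h1]; exact hae
    rcases comm_quot h ha he hae with h2 | h2
    · rw [← h2]; exact hab.symm
    · have h3 := (hc a ha b hb h1 e he).mp h2
      exact h3.map _
  rintro _ ⟨a, ha, rfl⟩ _ ⟨b, hb, rfl⟩ hab _ ⟨e, he, rfl⟩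
  exact ⟨hkey a ha b hb e he hab, hkey b hb a ha e he hab.symm⟩

variable [Finite G]

/-- In a 2-group every element normalizes every Sylow 3-subgroup. -/
theorem sylow_trivial (hG : IsPGroup 2 G) (P : Sylow 3 G) (d : G) :
    d ∈ normalizer ((P : Subgroup G) : Set G) := by
  haveI : Fact (Nat.Prime 3) := ⟨Nat.prime_three⟩
  have hP : ∀ x ∈ (P : Subgroup G), x = 1 := by
    intro x hx
    obtain ⟨k, hk⟩ := P.isPGroup' ⟨x, hx⟩
    obtain ⟨m, hm⟩ := hG x
    have h1 : x ^ 3 ^ k = 1 := by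
      have := congrArg Subtype.val hk
      simpa using this
    have h2 : orderOf x ∣ 3 ^ k := orderOf_dvd_of_pow_eq_one h1
    have h3 : orderOf x ∣ 2 ^ m := orderOf_dvd_of_pow_eq_one hm
    have h4 : Nat.Coprime (3 ^ k) (2 ^ m) := Nat.Coprime.pow _ _ (by norm_num)
    have h5 := Nat.Coprime.eq_one_of_dvd (h4.coprime_dvd_left h2) h3
    exact orderOf_eq_one_iff.mp h5
  rw [mem_normalizer_iff]
  intro x
  constructor
  · intro hx
    rw [hP x hx]
    simp
  · intro hx
    have h1 := hP _ hx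
    have h2 : x = 1 := by
      have : x = d⁻¹ * (d * x * d⁻¹) * d := by group
      rw [this, h1]; group
    rw [h2]; exact one_mem _

/-- Preimages of Sylow 3-subgroups modulo normal 3-subgroups. -/
theorem sylow_comap {W : Subgroup G} [W.Normal] (hW : IsPGroup 3 W) {d : G}
    (P : Sylow 3 (G ⧸ W)) (hd : QuotientGroup.mk' W d ∈ normalizer ((P : Subgroup (G ⧸ W)) : Set (G ⧸ W))) :
    ∃ P' : Sylow 3 G, d ∈ normalizer ((P' : Subgroup G) : Set G) := by
  haveI : Fact (Nat.Prime 3) := ⟨Nat.prime_three⟩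
  have hk : IsPGroup 3 (QuotientGroup.mk' W).ker := by
    rw [QuotientGroup.ker_mk']; exact hW
  have hr : (P : Subgroup (G ⧸ W)) ≤ (QuotientGroup.mk' W).range := by
    rw [(QuotientGroup.mk' W).range_eq_top.mpr (QuotientGroup.mk'_surjective W)]
    exact le_top
  refine ⟨P.comapOfKerIsPGroup (QuotientGroup.mk' W) hk hr, ?_⟩
  rw [mem_normalizer_iff]
  intro x
  show x ∈ (P : Subgroup (G ⧸ W)).comap _ ↔ d * x * d⁻¹ ∈ (P : Subgroup (G ⧸ W)).comap _
  rw [mem_comap, mem_comap, map_mul, map_mul, map_inv]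
  exact mem_normalizer_iff.mp hd _

/-- A 3-subgroup of the right order, through a subgroup covering `G` modulo a normal 2-subgroup. -/
theorem sylow_of_cover {Q H : Subgroup G} [Q.Normal] (hQ : IsPGroup 2 Q)
    (hcov : ∀ g : G, ∃ n ∈ H, QuotientGroup.mk' Q n = QuotientGroup.mk' Q g) (R : Sylow 3 H) :
    Nat.card ((R : Subgroup H).map H.subtype) = 3 ^ (Nat.card G).factorization 3 := by
  haveI : Fact (Nat.Prime 3) := ⟨Nat.prime_three⟩
  have hc : Nat.card ((R : Subgroup H).map H.subtype) = Nat.card (R : Subgroup H) :=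
    Nat.card_congr (Subgroup.equivMapOfInjective _ _ H.subtype_injective).toEquiv.symm
  rw [hc, Sylow.card_eq_multiplicity R]
  congr 1
  apply le_antisymm
  · exact (Nat.factorization_le_iff_dvd Nat.card_pos.ne' Nat.card_pos.ne').mpr
      (Subgroup.card_subgroup_dvd_card H) 3
  · -- `|G| = |Ḡ| |Q|` and `|Ḡ|` divides `|H|`
    have h1 : Nat.card G = Nat.card (G ⧸ Q) * Nat.card Q := Subgroup.card_eq_card_quotient_mul_card_subgroup Q
    obtain ⟨a, ha⟩ := IsPGroup.iff_card.mp hQ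
    have h2 : Nat.card (G ⧸ Q) ∣ Nat.card H := by
      refine Subgroup.card_dvd_of_surjective (((QuotientGroup.mk' Q).comp H.subtype)) ?_
      intro q
      obtain ⟨g, rfl⟩ := QuotientGroup.mk'_surjective Q q
      obtain ⟨n, hn, he⟩ := hcov g
      exact ⟨⟨n, hn⟩, he⟩
    have h3 : (Nat.card G).factorization 3 = (Nat.card (G ⧸ Q)).factorization 3 := by
      rw [h1, ha, Nat.factorization_mul Nat.card_pos.ne' (by positivity)]
      simp [Nat.factorization_pow, Nat.Prime.factorization Nat.prime_two]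
    rw [h3]
    exact (Nat.factorization_le_iff_dvd Nat.card_pos.ne' Nat.card_pos.ne').mpr h2 3

/-- Frattini's argument for an element of order 3 normal modulo a normal 2-subgroup. -/
theorem frattini_rho {Q : Subgroup G} [hQn : Q.Normal] (hQ : IsPGroup 2 Q) {ρ : G} (h3 : ρ ^ 3 = 1)
    (hn : (zpowers (QuotientGroup.mk' Q ρ)).Normal) (g : G) :
    ∃ n ∈ normalizer ((zpowers ρ : Subgroup G) : Set G), QuotientGroup.mk' Q n = QuotientGroup.mk' Q g := by
  classical
  haveI : Fact (Nat.Prime 3) := ⟨Nat.prime_three⟩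
  set M : Subgroup G := (zpowers (QuotientGroup.mk' Q ρ)).comap (QuotientGroup.mk' Q) with hM
  haveI hMn : M.Normal := hn.comap _
  have hρM : ρ ∈ M := by
    rw [hM, mem_comap]
    exact mem_zpowers _
  let ρ' : M := ⟨ρ, hρM⟩
  have h3' : ρ' ^ 3 = 1 := Subtype.ext h3
  have hT : IsPGroup 3 (zpowers ρ') := by
    rintro ⟨t, ht⟩
    obtain ⟨k, rfl⟩ := Subgroup.mem_zpowers_iff.mp ht
    refine ⟨1, ?_⟩
    apply Subtype.ext
    show (ρ' ^ k) ^ 3 ^ 1 = 1
    rw [pow_one, ← zpow_natCast, ← zpow_mul, mul_comm, zpow_mul, zpow_natCast, h3', one_zpow]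
  obtain ⟨P₀, hP₀⟩ := hT.exists_le_sylow
  have hmap : (P₀ : Subgroup M).map M.subtype = zpowers ρ := by
    apply le_antisymm
    · rintro _ ⟨x, hx, rfl⟩
      have hxM : QuotientGroup.mk' Q (x : G) ∈ zpowers (QuotientGroup.mk' Q ρ) := x.2
      obtain ⟨k, hk⟩ := Subgroup.mem_zpowers_iff.mp hxM
      have hu : (ρ ^ k)⁻¹ * (x : G) ∈ Q := by
        rw [← QuotientGroup.ker_mk' Q, MonoidHom.mem_ker, map_mul, map_inv, map_zpow, hk, inv_mul_cancel]
      have hρx : (ρ' ^ k)⁻¹ * x ∈ (P₀ : Subgroup M) :=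
        mul_mem (inv_mem (hP₀ (zpow_mem (mem_zpowers ρ') k))) (show x ∈ (P₀ : Subgroup M) from hx)
      obtain ⟨a, ha⟩ := P₀.isPGroup' ⟨_, hρx⟩
      obtain ⟨b, hb⟩ := hQ ⟨_, hu⟩
      have h1 : ((ρ ^ k)⁻¹ * (x : G)) ^ 3 ^ a = 1 := by
        have := congrArg (fun y : (P₀ : Subgroup M) => (((y : M)) : G)) ha
        simpa [ρ'] using this
      have h2 : ((ρ ^ k)⁻¹ * (x : G)) ^ 2 ^ b = 1 := by
        have := congrArg Subtype.val hb
        simpa using this
      have h4 : Nat.Coprime (3 ^ a) (2 ^ b) := Nat.Coprime.pow _ _ (by norm_num)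
      have h5 := Nat.Coprime.eq_one_of_dvd (h4.coprime_dvd_left (orderOf_dvd_of_pow_eq_one h1))
        (orderOf_dvd_of_pow_eq_one h2)
      have h6 := orderOf_eq_one_iff.mp h5
      have h7 : (x : G) = ρ ^ k := by
        have := inv_mul_eq_one.mp h6
        exact this.symm
      show (x : G) ∈ zpowers ρ
      rw [h7]
      exact zpow_mem (mem_zpowers ρ) k
    · rw [zpowers_le]
      exact ⟨ρ', hP₀ (mem_zpowers ρ'), rfl⟩
  have hF := Sylow.normalizer_sup_eq_top P₀
  rw [show (Subgroup.map M.subtype (P₀ : Subgroup M) : Subgroup G) = zpowers ρ from hmap] at hF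
  have hg : g ∈ ((normalizer ((zpowers ρ : Subgroup G) : Set G) ⊔ M : Subgroup G) : Set G) := by
    rw [hF]; exact mem_top g
  rw [Subgroup.mul_normal] at hg
  obtain ⟨n, hn', m, hm, rfl⟩ := Set.mem_mul.mp hg
  have hm' : QuotientGroup.mk' Q (m : G) ∈ zpowers (QuotientGroup.mk' Q ρ) := hm
  obtain ⟨k, hk⟩ := Subgroup.mem_zpowers_iff.mp hm'
  refine ⟨n * ρ ^ k, mul_mem hn' (zpow_mem (Subgroup.le_normalizer (mem_zpowers ρ)) k), ?_⟩
  rw [map_mul, map_mul, map_zpow, hk]

/-- Normalizing a cyclic group. -/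
theorem mem_norm_zpowers {d ρ : G} (h1 : d * ρ * d⁻¹ ∈ zpowers ρ) (h2 : d⁻¹ * ρ * d ∈ zpowers ρ) :
    d ∈ normalizer ((zpowers ρ : Subgroup G) : Set G) := by
  rw [mem_normalizer_iff]
  intro x
  constructor
  · intro hx
    obtain ⟨k, rfl⟩ := Subgroup.mem_zpowers_iff.mp hx
    rw [show d * ρ ^ k * d⁻¹ = (d * ρ * d⁻¹) ^ k from (conj_zpow).symm]
    exact zpow_mem h1 k
  · intro hx
    obtain ⟨k, hk⟩ := Subgroup.mem_zpowers_iff.mp hx
    have e : x = (d⁻¹ * ρ * d) ^ k := by
      have h3 : (d⁻¹ * ρ * d) ^ k = d⁻¹ * ρ ^ k * d := by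
        have := conj_zpow (a := d⁻¹) (b := ρ) (i := k)
        simpa using this
      rw [h3, hk]; group
    rw [e]
    exact zpow_mem h2 k

/-- Existence of the element `ρ`. -/
theorem exists_rho {D : Set G} (hD : IsThreeTranspositionClass D) (hc : HC D) {d : G} (hd : d ∈ D)
    (hdQ : d ∉ pCore 2 G) (hX : pCore 3 (G ⧸ pCore 2 G) ≠ ⊥) :
    ∃ ρ : G, ρ ^ 3 = 1 ∧ ρ ∉ pCore 2 G ∧
      (zpowers (QuotientGroup.mk' (pCore 2 G) ρ)).Normal ∧
      d ∈ normalizer ((zpowers ρ : Subgroup G) : Set G) := by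
  classical
  haveI : Fact (Nat.Prime 2) := ⟨Nat.prime_two⟩
  haveI : Fact (Nat.Prime 3) := ⟨Nat.prime_three⟩
  have h := CD.of_class hD
  set Q := pCore 2 G with hQdef
  haveI hQn : Q.Normal := Basic.pCore_normal 2
  have hQp : IsPGroup 2 Q := Basic.pCore_isPGroup 2
  set φ := QuotientGroup.mk' Q with hφ
  set X := pCore 3 (G ⧸ Q) with hXdef
  haveI hXn : X.Normal := Basic.pCore_normal 3
  have hXp : IsPGroup 3 X := Basic.pCore_isPGroup 3
  have hnm : ∀ x ∈ D, x ∉ Q := by
    intro x hx hxQ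
    obtain ⟨g, rfl⟩ := h.tr x hx d hd
    exact hdQ (hQn.conj_mem x hxQ g)
  have hC := CD.of_class (class_quot hD (N := Q) hnm)
  -- commuting members of `D` lie in one coset of `Q`
  have hsim : ∀ a ∈ D, ∀ b ∈ D, Commute a b → φ a = φ b := by
    intro a ha b hb hab
    have hs : ThreeTrans.SimOn D a b := fun e he => hc a ha b hb hab e he
    have hm := (ThreeTrans.TT.of_class hD).sim_mul_mem_pCore ha hb hs
    have h1 : φ a * φ b = 1 := by
      rw [← map_mul]
      exact (QuotientGroup.eq_one_iff _).mpr hm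
    have h2 := eq_inv_of_mul_eq_one_left h1
    rw [h2, ← map_inv, h.inv_eq hb]
  -- products lie in `X`
  have hprod : ∀ x ∈ D, φ d * φ x ∈ X := by
    intro x hx
    have hzs := ZS.zstar_odd_prime Nat.prime_three (by norm_num) (φ d)
      (hC.ord (φ d) ⟨d, hd, rfl⟩) ?_
    · refine hzs _ (IsConj.refl _) _ ?_
      obtain ⟨g, rfl⟩ := h.tr d hd x hx
      exact isConj_iff.mpr ⟨φ g, by simp [map_mul, map_inv]⟩
    · intro a ha b hb
      obtain ⟨g, rfl⟩ := isConj_iff.mp (show IsConj (φ d) a from ha)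
      obtain ⟨g', rfl⟩ := isConj_iff.mp (show IsConj (φ d) b from hb)
      obtain ⟨u, rfl⟩ := QuotientGroup.mk'_surjective Q g
      obtain ⟨u', rfl⟩ := QuotientGroup.mk'_surjective Q g'
      have hA : u * d * u⁻¹ ∈ D := h.cj u d hd
      have hB : u' * d * u'⁻¹ ∈ D := h.cj u' d hd
      have e1 : QuotientGroup.mk' Q u * φ d * (QuotientGroup.mk' Q u)⁻¹ = φ (u * d * u⁻¹) := by
        simp [map_mul, map_inv, hφ]
      have e2 : QuotientGroup.mk' Q u' * φ d * (QuotientGroup.mk' Q u')⁻¹ = φ (u' * d * u'⁻¹) := by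
        simp [map_mul, map_inv, hφ]
      rw [e1, e2]
      have h3 : (φ (u * d * u⁻¹) * φ (u' * d * u'⁻¹)) ^ 3 = 1 := by
        rcases h.prod _ hA _ hB with h2 | h3
        · have := hsim _ hA _ hB (comm_of_sq (h.inv _ hA) (h.inv _ hB) h2)
          rw [this, ← map_mul, h.inv _ hB, map_one, one_pow]
        · rw [← map_mul, ← map_pow, h3, map_one]
      rcases (Nat.dvd_prime Nat.prime_three).mp (orderOf_dvd_of_pow_eq_one h3) with h7 | h7
      · exact ⟨0, by simpa using h7⟩
      · exact ⟨1, by simpa using h7⟩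
  -- an element of order three in the centre of `X`
  haveI : Nontrivial X := (Subgroup.nontrivial_iff_ne_bot _).mpr hX
  have hcn := hXp.center_nontrivial
  have hdvd : 3 ∣ Nat.card (center X) := by
    rcases (hXp.to_le (show (center X).map X.subtype ≤ X from map_subtype_le _)).card_eq_or_dvd with h1 | h1
    · exfalso
      have hcard : Nat.card ((center X).map X.subtype) = Nat.card (center X) :=
        Nat.card_congr (Subgroup.equivMapOfInjective _ _ X.subtype_injective).toEquiv.symm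
      rw [hcard] at h1
      have := Finite.one_lt_card (α := center X)
      omega
    · have hcard : Nat.card ((center X).map X.subtype) = Nat.card (center X) :=
        Nat.card_congr (Subgroup.equivMapOfInjective _ _ X.subtype_injective).toEquiv.symm
      rwa [hcard] at h1
  obtain ⟨c, hc3⟩ := exists_prime_orderOf_dvd_card' 3 hdvd
  set z₀ : G ⧸ Q := ((c : X) : G ⧸ Q) with hz₀
  have hz₀X : z₀ ∈ X := (c : X).2
  have hz₀com : ∀ u ∈ X, z₀ * u = u * z₀ := by
    intro u hu
    have := mem_center_iff.mp c.2 ⟨u, hu⟩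
    exact (congrArg Subtype.val this).symm
  have hz₀3 : z₀ ^ 3 = 1 := by
    have h1 : c ^ 3 = 1 := by rw [← hc3]; exact pow_orderOf_eq_one c
    have := congrArg (fun y : center X => ((y : X) : G ⧸ Q)) h1
    simpa using this
  have hz₀1 : z₀ ≠ 1 := by
    intro h1
    have h2 : c = 1 := Subtype.ext (Subtype.ext h1)
    rw [h2, orderOf_one] at hc3
    omega
  have hφd : (φ d)⁻¹ = φ d := by rw [← map_inv, h.inv_eq hd]
  have hφdd : φ d * φ d = 1 := by rw [← map_mul, h.inv d hd, map_one]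
  -- conjugation by the members of `D` on elements central in `X`
  have hconjD : ∀ w ∈ X, (∀ u ∈ X, w * u = u * w) → ∀ x ∈ D,
      φ x * w * (φ x)⁻¹ = φ d * w * (φ d)⁻¹ := by
    intro w _ hw x hx
    obtain ⟨t, ht⟩ : ∃ t, t = φ d * φ x := ⟨_, rfl⟩
    have hu : t ∈ X := ht ▸ hprod x hx
    have e : φ x = φ d * t := by rw [ht, ← mul_assoc, hφdd, one_mul]
    have hw2 := hw t hu
    rw [e]
    calc φ d * t * w * (φ d * t)⁻¹ = φ d * (t * w) * t⁻¹ * (φ d)⁻¹ := by group
      _ = φ d * (w * t) * t⁻¹ * (φ d)⁻¹ := by rw [hw2]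
      _ = φ d * w * (φ d)⁻¹ := by group
  -- the element `y`
  set w₀ := φ d * z₀ * (φ d)⁻¹ with hw₀
  have hw₀X : w₀ ∈ X := hXn.conj_mem _ hz₀X _
  have hw₀com : ∀ u ∈ X, w₀ * u = u * w₀ := by
    intro u hu
    have hu' : (φ d)⁻¹ * u * φ d ∈ X := by
      have := hXn.conj_mem u hu (φ d)⁻¹
      rwa [inv_inv] at this
    have hcm := hz₀com _ hu'
    calc w₀ * u = φ d * (z₀ * ((φ d)⁻¹ * u * φ d)) * (φ d)⁻¹ := by rw [hw₀]; group
      _ = φ d * (((φ d)⁻¹ * u * φ d) * z₀) * (φ d)⁻¹ := by rw [hcm]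
      _ = u * w₀ := by rw [hw₀]; group
  have hzw : z₀ * w₀ = w₀ * z₀ := hz₀com _ hw₀X
  by_cases hy : z₀ * w₀ = 1
  · -- `d` inverts `z₀`
    have hinv : φ d * z₀ * φ d = z₀⁻¹ := by
      have := eq_inv_of_mul_eq_one_right hy
      rw [hw₀, hφd] at this
      exact this
    obtain ⟨g, hg⟩ := QuotientGroup.mk'_surjective Q z₀
    set x := g * d * g⁻¹ with hx
    have hxD : x ∈ D := h.cj g d hd
    have hρ : φ (d * x) = z₀ := by
      have h1 : φ (d * x) = (φ d * z₀ * φ d) * z₀⁻¹ := by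
        rw [hx, map_mul, map_mul, map_mul, map_inv, hg]; group
      rw [h1, hinv]
      have h4 : z₀⁻¹ * z₀⁻¹ = z₀ := by
        have : z₀ ^ 3 = z₀ * z₀ * z₀ := by rw [pow_succ, pow_two]
        rw [hz₀3] at this
        have h5 : z₀ = (z₀ * z₀)⁻¹ := eq_inv_of_mul_eq_one_left (by rw [← mul_assoc]; exact this.symm)
        rw [mul_inv_rev] at h5
        exact h5.symm
      exact h4
    have hρ3 : (d * x) ^ 3 = 1 := by
      rcases h.prod d hd x hxD with h2 | h3
      · exfalso
        have h5 := congrArg φ h2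
        rw [map_pow, hρ, map_one] at h5
        apply hz₀1
        have : z₀ ^ 3 = z₀ ^ 2 * z₀ := pow_succ _ _
        rw [hz₀3, h5, one_mul] at this
        exact this.symm
      · exact h3
    refine ⟨d * x, hρ3, ?_, ?_, ?_⟩
    · intro hm
      apply hz₀1
      rw [← hρ]
      exact (QuotientGroup.eq_one_iff _).mpr hm
    · rw [hρ]
      -- `⟨z₀⟩` is normal
      have hle : closure (φ '' D) ≤ normalizer ((zpowers z₀ : Subgroup (G ⧸ Q)) : Set (G ⧸ Q)) := by
        rw [closure_le]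
        rintro _ ⟨x', hx', rfl⟩
        have e1 : φ x' * z₀ * (φ x')⁻¹ = z₀⁻¹ := by
          rw [hconjD z₀ hz₀X hz₀com x' hx', hφd, hinv]
        have e2 : (φ x')⁻¹ * z₀ * φ x' = z₀⁻¹ := by
          have hi : (φ x')⁻¹ = φ x' := by rw [← map_inv, h.inv_eq hx']
          rw [hi]
          have := e1
          rw [hi] at this
          exact this
        exact mem_norm_zpowers (by rw [e1]; exact inv_mem (mem_zpowers z₀))
          (by rw [e2]; exact inv_mem (mem_zpowers z₀))
      rw [hC.gen] at hle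
      exact normalizer_eq_top_iff.mp (top_le_iff.mp hle)
    · -- `d` inverts `d x`
      have e : d * (d * x) * d⁻¹ = (d * x)⁻¹ := by
        rw [mul_inv_rev, h.inv_eq hd, h.inv_eq hxD]
        rw [← mul_assoc, h.inv d hd, one_mul]
      have e' : d⁻¹ * (d * x) * d = (d * x)⁻¹ := by
        have := e
        rwa [h.inv_eq hd] at this ⊢
      exact mem_norm_zpowers (by rw [e]; exact inv_mem (mem_zpowers _))
        (by rw [e']; exact inv_mem (mem_zpowers _))
  · -- `y = z₀ w₀` is central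
    set y := z₀ * w₀ with hy'
    have hyX : y ∈ X := mul_mem hz₀X hw₀X
    have hycom : ∀ u ∈ X, y * u = u * y := by
      intro u hu
      calc y * u = z₀ * (w₀ * u) := mul_assoc _ _ _
        _ = z₀ * (u * w₀) := by rw [hw₀com u hu]
        _ = (z₀ * u) * w₀ := (mul_assoc _ _ _).symm
        _ = (u * z₀) * w₀ := by rw [hz₀com u hu]
        _ = u * y := mul_assoc _ _ _
    have hyd : φ d * y * (φ d)⁻¹ = y := by
      have e : φ d * w₀ * (φ d)⁻¹ = z₀ := by
        rw [hw₀, hφd]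
        have e3 : φ d * (φ d * z₀ * φ d) * φ d = (φ d * φ d) * z₀ * (φ d * φ d) := by group
        rw [e3, hφdd, one_mul, mul_one]
      calc φ d * y * (φ d)⁻¹ = (φ d * z₀ * (φ d)⁻¹) * (φ d * w₀ * (φ d)⁻¹) := by
            rw [hy']; group
        _ = w₀ * z₀ := by rw [e]
        _ = y := hzw.symm
    have hy3 : y ^ 3 = 1 := by
      have hc' : Commute z₀ w₀ := hzw
      have h1 : w₀ ^ 3 = 1 := by
        rw [hw₀, conj_pow, hz₀3]; group
      rw [hy', hc'.mul_pow, hz₀3, h1, one_mul]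
    have hyz : y ∈ center (G ⧸ Q) := by
      apply hC.mem_center
      rintro _ ⟨x', hx', rfl⟩
      have := hconjD y hyX hycom x' hx'
      rw [hyd] at this
      calc φ x' * y = φ x' * y * (φ x')⁻¹ * φ x' := by group
        _ = y * φ x' := by rw [this]
    -- lift to an element commuting with `d`
    obtain ⟨g, hg⟩ := QuotientGroup.mk'_surjective Q y
    have hv : g * d * g⁻¹ ∈ D := h.cj g d hd
    have hvc : d⁻¹ * (g * d * g⁻¹) ∈ Q := by
      rw [← QuotientGroup.ker_mk' Q, MonoidHom.mem_ker, map_mul, map_inv, map_mul, map_mul, map_inv]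
      show (φ d)⁻¹ * (φ g * φ d * (φ g)⁻¹) = 1
      rw [hg]
      have hz2 := mem_center_iff.mp hyz (φ d)
      rw [← hz2]
      group
    have hD2 : ∃ a ∈ D, ∃ b ∈ D, a ≠ b := by
      by_contra hno
      push Not at hno
      apply hdQ
      have hdz : d ∈ center G := by
        apply h.mem_center
        intro e he
        rw [hno e he d hd]
      have hzn : (zpowers d).Normal := by
        refine ⟨fun n hn k => ?_⟩
        obtain ⟨i, rfl⟩ := Subgroup.mem_zpowers_iff.mp hn
        have : k * d ^ i * k⁻¹ = d ^ i := by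
          have hc2 := mem_center_iff.mp (zpow_mem hdz i) k
          rw [hc2]; group
        rw [this]
        exact zpow_mem (mem_zpowers d) i
      have hzp : IsPGroup 2 (zpowers d) := by
        rintro ⟨t, ht⟩
        obtain ⟨i, rfl⟩ := Subgroup.mem_zpowers_iff.mp ht
        refine ⟨1, ?_⟩
        apply Subtype.ext
        show (d ^ i) ^ 2 ^ 1 = 1
        rw [pow_one, pow_two, ← zpow_add, ← two_mul, zpow_mul, zpow_two, h.inv d hd, one_zpow]
      exact Basic.le_pCore hzn hzp (mem_zpowers d)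
    have hV := (Cfsg.Agent.S5349.result hD hD2 hd)
    have h5 : g * d * g⁻¹ ∈ {v : G | ∃ g ∈ Q, v = g * d * g⁻¹} := by
      rw [← hV.2, hV.1]
      exact ⟨hv, hvc⟩
    obtain ⟨u, hu, hue⟩ := h5
    set z₁ := u⁻¹ * g with hz₁
    have hz₁c : z₁ * d = d * z₁ := by
      calc z₁ * d = u⁻¹ * (g * d * g⁻¹) * g := by rw [hz₁]; group
        _ = u⁻¹ * (u * d * u⁻¹) * g := by rw [hue]
        _ = d * z₁ := by rw [hz₁]; group
    have hφz₁ : φ z₁ = y := by
      have : φ u = 1 := (QuotientGroup.eq_one_iff _).mpr hu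
      rw [hz₁, map_mul, map_inv, this, inv_one, one_mul, hg]
    have hz₁3 : z₁ ^ 3 ∈ Q := by
      rw [← QuotientGroup.ker_mk' Q, MonoidHom.mem_ker, map_pow]
      show φ z₁ ^ 3 = 1
      rw [hφz₁, hy3]
    obtain ⟨a, ha⟩ := hQp ⟨_, hz₁3⟩
    have ha' : (z₁ ^ 3) ^ 2 ^ a = 1 := by
      have := congrArg Subtype.val ha
      simpa using this
    set m := 2 ^ a * 2 ^ a with hm
    have hm1 : m % 3 = 1 := by
      rw [hm, ← mul_pow, Nat.pow_mod]
      norm_num
    have hρ3 : (z₁ ^ m) ^ 3 = 1 := by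
      calc (z₁ ^ m) ^ 3 = ((z₁ ^ 3) ^ 2 ^ a) ^ 2 ^ a := by
            rw [← pow_mul, ← pow_mul, ← pow_mul, hm]; congr 1; ring
        _ = 1 := by rw [ha', one_pow]
    have hφρ : φ (z₁ ^ m) = y := by
      rw [map_pow, hφz₁]
      conv_lhs => rw [← Nat.div_add_mod m 3, hm1]
      rw [pow_add, pow_mul, hy3, one_pow, one_mul, pow_one]
    refine ⟨z₁ ^ m, hρ3, ?_, ?_, ?_⟩
    · intro hmm
      apply hy
      rw [← hφρ]
      exact (QuotientGroup.eq_one_iff _).mpr hmm
    · rw [hφρ]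
      refine ⟨fun n hn k => ?_⟩
      obtain ⟨i, rfl⟩ := Subgroup.mem_zpowers_iff.mp hn
      have : k * y ^ i * k⁻¹ = y ^ i := by
        have hc2 := mem_center_iff.mp (zpow_mem hyz i) k
        rw [hc2]; group
      rw [this]
      exact zpow_mem (mem_zpowers y) i
    · have hcomm : Commute d (z₁ ^ m) := (Commute.pow_right (show Commute d z₁ from hz₁c.symm) m)
      have e1 : d * z₁ ^ m * d⁻¹ = z₁ ^ m := by
        rw [hcomm.eq]; group
      have e2 : d⁻¹ * z₁ ^ m * d = z₁ ^ m := by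
        rw [h.inv_eq hd]
        rw [h.inv_eq hd] at e1
        exact e1
      exact mem_norm_zpowers (by rw [e1]; exact mem_zpowers _) (by rw [e2]; exact mem_zpowers _)

/-- Modulo `O₂(G)` the products of two members lie in `O₃`. -/
theorem prod_mem_X {D : Set G} (hD : IsThreeTranspositionClass D) (hc : HC D) {d : G} (hd : d ∈ D)
    (hdQ : d ∉ pCore 2 G) {x : G} (hx : x ∈ D) :
    QuotientGroup.mk' (pCore 2 G) d * QuotientGroup.mk' (pCore 2 G) x ∈ pCore 3 (G ⧸ pCore 2 G) := by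
  haveI : Fact (Nat.Prime 2) := ⟨Nat.prime_two⟩
  haveI : Fact (Nat.Prime 3) := ⟨Nat.prime_three⟩
  have h := CD.of_class hD
  set Q := pCore 2 G with hQdef
  haveI hQn : Q.Normal := Basic.pCore_normal 2
  set φ := QuotientGroup.mk' Q with hφ
  have hnm : ∀ x ∈ D, x ∉ Q := by
    intro x hx hxQ
    obtain ⟨g, rfl⟩ := h.tr x hx d hd
    exact hdQ (hQn.conj_mem x hxQ g)
  have hC := CD.of_class (class_quot hD (N := Q) hnm)
  have hsim : ∀ a ∈ D, ∀ b ∈ D, Commute a b → φ a = φ b := by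
    intro a ha b hb hab
    have hs : ThreeTrans.SimOn D a b := fun e he => hc a ha b hb hab e he
    have hm := (ThreeTrans.TT.of_class hD).sim_mul_mem_pCore ha hb hs
    have h1 : φ a * φ b = 1 := by
      rw [← map_mul]
      exact (QuotientGroup.eq_one_iff _).mpr hm
    have h2 := eq_inv_of_mul_eq_one_left h1
    rw [h2, ← map_inv, h.inv_eq hb]
  have hzs := ZS.zstar_odd_prime Nat.prime_three (by norm_num) (φ d)
    (hC.ord (φ d) ⟨d, hd, rfl⟩) ?_
  · refine hzs _ (IsConj.refl _) _ ?_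
    obtain ⟨g, rfl⟩ := h.tr d hd x hx
    exact isConj_iff.mpr ⟨φ g, by simp [map_mul, map_inv]⟩
  · intro a ha b hb
    obtain ⟨g, rfl⟩ := isConj_iff.mp (show IsConj (φ d) a from ha)
    obtain ⟨g', rfl⟩ := isConj_iff.mp (show IsConj (φ d) b from hb)
    obtain ⟨u, rfl⟩ := QuotientGroup.mk'_surjective Q g
    obtain ⟨u', rfl⟩ := QuotientGroup.mk'_surjective Q g'
    have hA : u * d * u⁻¹ ∈ D := h.cj u d hd
    have hB : u' * d * u'⁻¹ ∈ D := h.cj u' d hd
    have e1 : QuotientGroup.mk' Q u * φ d * (QuotientGroup.mk' Q u)⁻¹ = φ (u * d * u⁻¹) := by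
      simp [map_mul, map_inv, hφ]
    have e2 : QuotientGroup.mk' Q u' * φ d * (QuotientGroup.mk' Q u')⁻¹ = φ (u' * d * u'⁻¹) := by
      simp [map_mul, map_inv, hφ]
    rw [e1, e2]
    have h3 : (φ (u * d * u⁻¹) * φ (u' * d * u'⁻¹)) ^ 3 = 1 := by
      rcases h.prod _ hA _ hB with h2 | h3
      · have := hsim _ hA _ hB (comm_of_sq (h.inv _ hA) (h.inv _ hB) h2)
        rw [this, ← map_mul, h.inv _ hB, map_one, one_pow]
      · rw [← map_mul, ← map_pow, h3, map_one]
    rcases (Nat.dvd_prime Nat.prime_three).mp (orderOf_dvd_of_pow_eq_one h3) with h7 | h7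
    · exact ⟨0, by simpa using h7⟩
    · exact ⟨1, by simpa using h7⟩

/-- The main induction. -/
theorem sylow_main : ∀ (n : ℕ) (G : Type u) [Group G] [Finite G], Nat.card G = n →
    ∀ (D : Set G), IsThreeTranspositionClass D → HC D → ∀ d ∈ D,
    ∃ P : Sylow 3 G, d ∈ normalizer ((P : Subgroup G) : Set G) := by
  intro n
  induction n using Nat.strong_induction_on with
  | _ n ih =>
  intro G _ _ hn D hD hc d hd
  haveI : Fact (Nat.Prime 2) := ⟨Nat.prime_two⟩
  haveI : Fact (Nat.Prime 3) := ⟨Nat.prime_three⟩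
  have h := CD.of_class hD
  by_cases hO3 : pCore 3 G = ⊥
  swap
  · -- pass to `G / O₃(G)`
    haveI hWn : (pCore 3 G).Normal := Basic.pCore_normal 3
    have hWp := Basic.pCore_isPGroup (G := G) 3
    have hnm : ∀ x ∈ D, x ∉ pCore 3 G := by
      intro x hx hm
      have := eq_one_of_pGroup (p := 3) (q := 2) Nat.prime_three hWp hm
        (by rw [pow_two]; exact h.inv x hx) (by norm_num)
      have h2 := h.ord x hx
      rw [this, orderOf_one] at h2
      omega
    have hlt : Nat.card (G ⧸ pCore 3 G) < n := by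
      rw [← hn]
      have h1 : Nat.card (G ⧸ pCore 3 G) * Nat.card (pCore 3 G) = Nat.card G :=
        (Subgroup.card_eq_card_quotient_mul_card_subgroup _).symm
      have h2 : 1 < Nat.card (pCore 3 G) := by
        have : Nontrivial (pCore 3 G) := (Subgroup.nontrivial_iff_ne_bot _).mpr hO3
        exact Finite.one_lt_card
      have h3 : 0 < Nat.card (G ⧸ pCore 3 G) := Nat.card_pos
      nlinarith
    obtain ⟨P, hP⟩ := ih _ hlt (G ⧸ pCore 3 G) rfl _ (class_quot hD (N := pCore 3 G) hnm)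
      (hc_quot h hc) (QuotientGroup.mk' _ d) ⟨d, hd, rfl⟩
    exact sylow_comap hWp P hP
  obtain ⟨P₀⟩ : Nonempty (Sylow 3 G) := inferInstance
  set Q := pCore 2 G with hQdef
  haveI hQn : Q.Normal := Basic.pCore_normal 2
  have hQp : IsPGroup 2 Q := Basic.pCore_isPGroup 2
  by_cases hdQ : d ∈ Q
  · -- `G` is a 2-group
    have hle : closure D ≤ Q := by
      rw [closure_le]
      intro x hx
      obtain ⟨g, rfl⟩ := h.tr d hd x hx
      exact hQn.conj_mem d hdQ g
    rw [h.gen] at hle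
    have hG : IsPGroup 2 G := fun g => by
      obtain ⟨k, hk⟩ := hQp ⟨g, hle (mem_top g)⟩
      exact ⟨k, by simpa using congrArg Subtype.val hk⟩
    exact ⟨P₀, sylow_trivial hG P₀ d⟩
  by_cases hX : pCore 3 (G ⧸ Q) = ⊥
  · -- again `G` is a 2-group
    have hdd : d * d = 1 := h.inv d hd
    have hle : closure D ≤ zpowers d ⊔ Q := by
      rw [closure_le]
      intro x hx
      have h1 : QuotientGroup.mk' Q d * QuotientGroup.mk' Q x ∈ pCore 3 (G ⧸ Q) :=
        prod_mem_X hD hc hd hdQ hx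
      rw [hX, mem_bot, ← map_mul] at h1
      have h2 : d * x ∈ Q := (QuotientGroup.eq_one_iff _).mp h1
      have e : x = d * (d * x) := by rw [← mul_assoc, hdd, one_mul]
      rw [e]
      exact mul_mem (mem_sup_left (mem_zpowers d)) (mem_sup_right h2)
    rw [h.gen] at hle
    have hzp : IsPGroup 2 (zpowers d) := by
      rintro ⟨t, ht⟩
      obtain ⟨i, rfl⟩ := Subgroup.mem_zpowers_iff.mp ht
      refine ⟨1, ?_⟩
      apply Subtype.ext
      show (d ^ i) ^ 2 ^ 1 = 1
      rw [pow_one, pow_two, ← zpow_add, ← two_mul, zpow_mul, zpow_two, hdd, one_zpow]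
    have hsup : IsPGroup 2 (zpowers d ⊔ Q : Subgroup G) := hzp.to_sup_of_normal_right hQp
    have hG : IsPGroup 2 G := fun g => by
      obtain ⟨k, hk⟩ := hsup ⟨g, hle (mem_top g)⟩
      exact ⟨k, by simpa using congrArg Subtype.val hk⟩
    exact ⟨P₀, sylow_trivial hG P₀ d⟩
  -- the main case
  obtain ⟨ρ, hρ3, hρQ, hρn, hdρ⟩ := exists_rho hD hc hd hdQ hX
  set N₁ := normalizer ((zpowers ρ : Subgroup G) : Set G) with hN₁
  set D' : Set G := {x | x ∈ D ∧ x ∈ N₁} with hD'
  set H := closure D' with hH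
  have hHN : H ≤ N₁ := by
    rw [hH, closure_le]
    exact fun x hx => hx.2
  have hdH : d ∈ H := subset_closure ⟨hd, hdρ⟩
  have hcov : ∀ g : G, ∃ n ∈ H, QuotientGroup.mk' Q n = QuotientGroup.mk' Q g := by
    intro g
    have hg : g ∈ closure D := by rw [h.gen]; exact mem_top g
    induction hg using Subgroup.closure_induction with
    | mem x hx =>
      obtain ⟨k, rfl⟩ := h.tr d hd x hx
      obtain ⟨n₀, hn₀, he⟩ := frattini_rho hQp hρ3 hρn k
      refine ⟨n₀ * d * n₀⁻¹, subset_closure ⟨h.cj n₀ d hd, mul_mem (mul_mem hn₀ hdρ) (inv_mem hn₀)⟩, ?_⟩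
      simp only [map_mul, map_inv, he]
    | one => exact ⟨1, one_mem _, rfl⟩
    | mul x y _ _ hx hy =>
      obtain ⟨n₁, h1, e1⟩ := hx
      obtain ⟨n₂, h2, e2⟩ := hy
      exact ⟨n₁ * n₂, mul_mem h1 h2, by rw [map_mul, map_mul, e1, e2]⟩
    | inv x _ hx =>
      obtain ⟨n₁, h1, e1⟩ := hx
      exact ⟨n₁⁻¹, inv_mem h1, by rw [map_inv, map_inv, e1]⟩
  have hHtop : H ≠ ⊤ := by
    intro htop
    have hN : N₁ = ⊤ := top_le_iff.mp (htop ▸ hHN)
    have hnz : (zpowers ρ).Normal := normalizer_eq_top_iff.mp hN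
    have hzp : IsPGroup 3 (zpowers ρ) := by
      rintro ⟨t, ht⟩
      obtain ⟨i, rfl⟩ := Subgroup.mem_zpowers_iff.mp ht
      refine ⟨1, ?_⟩
      apply Subtype.ext
      show (ρ ^ i) ^ 3 ^ 1 = 1
      rw [pow_one, ← zpow_natCast, ← zpow_mul, mul_comm, zpow_mul, zpow_natCast, hρ3, one_zpow]
    have hle := Basic.le_pCore hnz hzp
    rw [hO3] at hle
    have h1 : ρ = 1 := by
      have := hle (mem_zpowers ρ)
      simpa using this
    exact hρQ (h1 ▸ one_mem _)
  have hlt : Nat.card H < n := by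
    rw [← hn]
    exact Components.card_lt_of_lt' (lt_top_iff_ne_top.mpr hHtop) |>.trans_eq (by simp)
  -- the `3`-transposition set in `H`
  set D'' : Set H := {u | (u : G) ∈ D'} with hD''
  have hD''3 : IsThreeTranspositionGroup D'' := by
    refine ⟨⟨?_, ?_⟩, ?_, ?_⟩
    · intro u hu
      rw [← Subgroup.orderOf_coe]
      exact h.ord _ hu.1
    · intro u hu v hv
      rcases h.prod _ hu.1 _ hv.1 with h2 | h3
      · left
        apply Subtype.ext
        simpa using h2
      · right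
        apply Subtype.ext
        simpa using h3
    · intro g u hu
      refine ⟨?_, ?_⟩
      · exact h.cj _ _ hu.1
      · exact mul_mem (mul_mem (hHN g.2) hu.2) (inv_mem (hHN g.2))
    · exact Subgroup.closure_closure_coe_preimage
  have hcomm_coe : ∀ u v : H, Commute u v ↔ Commute (u : G) (v : G) := by
    intro u v
    constructor
    · intro hc'
      exact congrArg Subtype.val hc'
    · intro hc'
      exact Subtype.ext hc'
  have hc'' : HC D'' := by
    intro a ha b hb hab e he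
    rw [hcomm_coe, hcomm_coe]
    exact hc _ ha.1 _ hb.1 ((hcomm_coe a b).mp hab) _ he.1
  let d'' : H := ⟨d, hdH⟩
  have hd'' : d'' ∈ D'' := ⟨hd, hdρ⟩
  have hRex : ∃ R : Sylow 3 H, d'' ∈ normalizer ((R : Subgroup H) : Set H) := by
    rcases hc_dich hD''3 hc'' with hall | hcl
    · obtain ⟨R⟩ : Nonempty (Sylow 3 H) := inferInstance
      refine ⟨R, ?_⟩
      have hle : closure D'' ≤ centralizer ({d''} : Set H) := by
        rw [closure_le]
        intro y hy
        rw [SetLike.mem_coe, Subgroup.mem_centralizer_singleton_iff]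
        exact hall y hy d'' hd''
      rw [hD''3.2.2] at hle
      have hcd : ∀ t : H, d'' * t * d''⁻¹ = t := by
        intro t
        have := Subgroup.mem_centralizer_singleton_iff.mp (hle (mem_top t))
        rw [← this]; group
      rw [mem_normalizer_iff]
      intro t
      rw [hcd]
    · exact ih _ hlt H rfl D'' hcl hc'' d'' hd''
  obtain ⟨R, hR⟩ := hRex
  have hcard := sylow_of_cover hQp hcov R
  refine ⟨Sylow.ofCard _ hcard, ?_⟩
  rw [mem_normalizer_iff]
  intro x
  show x ∈ (R : Subgroup H).map H.subtype ↔ d * x * d⁻¹ ∈ (R : Subgroup H).map H.subtype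
  constructor
  · rintro ⟨r, hr, rfl⟩
    exact ⟨d'' * r * d''⁻¹, (mem_normalizer_iff.mp hR r).mp hr, rfl⟩
  · rintro ⟨r, hr, hre⟩
    have hxH : x ∈ H := by
      have e : x = d⁻¹ * (d * x * d⁻¹) * d := by group
      rw [e, ← hre]
      exact mul_mem (mul_mem (inv_mem hdH) r.2) hdH
    refine ⟨⟨x, hxH⟩, ?_, rfl⟩
    refine (mem_normalizer_iff.mp hR ⟨x, hxH⟩).mpr ?_
    have : d'' * ⟨x, hxH⟩ * d''⁻¹ = r := Subtype.ext hre.symm
    rw [this]
    exact hr

/-- The generation statement. -/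
theorem sup_eq_top_of_hc {D : Set G} (hD : IsThreeTranspositionClass D) (hc : HC D) {d : G} (hd : d ∈ D)
    (P : Sylow 3 G) : zpowers d ⊔ (P : Subgroup G) ⊔ pCore 2 G = ⊤ := by
  haveI : Fact (Nat.Prime 2) := ⟨Nat.prime_two⟩
  haveI : Fact (Nat.Prime 3) := ⟨Nat.prime_three⟩
  have h := CD.of_class hD
  set Q := pCore 2 G with hQdef
  haveI hQn : Q.Normal := Basic.pCore_normal 2
  by_cases hdQ : d ∈ Q
  · have hle : closure D ≤ Q := by
      rw [closure_le]
      intro x hx
      obtain ⟨g, rfl⟩ := h.tr d hd x hx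
      exact hQn.conj_mem d hdQ g
    rw [h.gen] at hle
    exact top_le_iff.mp (hle.trans le_sup_right)
  rw [eq_top_iff, ← h.gen, closure_le]
  intro x hx
  have h1 : QuotientGroup.mk' Q d * QuotientGroup.mk' Q x ∈ pCore 3 (G ⧸ Q) :=
    prod_mem_X hD hc hd hdQ hx
  set P' : Sylow 3 (G ⧸ Q) := P.mapSurjective (QuotientGroup.mk'_surjective Q) with hP'
  have h2 : pCore 3 (G ⧸ Q) ≤ (P' : Subgroup (G ⧸ Q)) := Basic.pCore_le_sylow P'
  have h3 := h2 h1
  rw [hP', Sylow.coe_mapSurjective] at h3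
  obtain ⟨p, hp, hpe⟩ := h3
  have h4 : p⁻¹ * (d * x) ∈ Q := by
    rw [← QuotientGroup.ker_mk' Q, MonoidHom.mem_ker, map_mul, map_inv, map_mul, hpe, inv_mul_cancel]
  have e : x = d * p * (p⁻¹ * (d * x)) := by
    have hdd := h.inv d hd
    calc x = (d * d) * x := by rw [hdd, one_mul]
      _ = d * p * (p⁻¹ * (d * x)) := by group
  rw [e]
  exact mul_mem (mul_mem (mem_sup_left (mem_sup_left (mem_zpowers d)))
    (mem_sup_left (mem_sup_right hp))) (mem_sup_right h4)

/-- `HC` from the hypothesis at one member. -/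
theorem hc_of_one {D : Set G} (hD : IsThreeTranspositionClass D) {d : G} (hd : d ∈ D)
    (hV : {y : G | y ∈ D ∧ Commute d y} = {v : G | v ∈ D ∧ ∀ e ∈ D, Commute v e ↔ Commute d e}) : HC D := by
  have h := CD.of_class hD
  intro a ha b hb hab e he
  obtain ⟨g, rfl⟩ := h.tr d hd a ha
  have hb' : g⁻¹ * b * g ∈ D := by
    have := h.cj g⁻¹ b hb
    rwa [inv_inv] at this
  have he' : g⁻¹ * e * g ∈ D := by
    have := h.cj g⁻¹ e he
    rwa [inv_inv] at this
  have key : ∀ u y : G, Commute u (g⁻¹ * y * g) ↔ Commute (g * u * g⁻¹) y := by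
    intro u y
    have e1 : y = g * (g⁻¹ * y * g) * g⁻¹ := by group
    conv_rhs => rw [e1]
    exact (ThreeTrans.commute_conj_iff g _ _).symm
  have h1 : Commute d (g⁻¹ * b * g) := (key d b).mpr hab
  have h2 : g⁻¹ * b * g ∈ {y : G | y ∈ D ∧ Commute d y} := ⟨hb', h1⟩
  rw [hV] at h2
  have h3 := h2.2 _ he'
  rw [← key d e]
  have h4 : Commute (g⁻¹ * b * g) (g⁻¹ * e * g) ↔ Commute b e := by
    have e2 : g⁻¹ * b * g = g⁻¹ * b * g⁻¹⁻¹ := by rw [inv_inv]
    have e3 : g⁻¹ * e * g = g⁻¹ * e * g⁻¹⁻¹ := by rw [inv_inv]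
    rw [e2, e3]
    exact ThreeTrans.commute_conj_iff g⁻¹ _ _
  rw [← h4]
  exact h3.symm

end Cfsg.Agent.Lib.ThreeTrans.TL
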