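import Cfsg.Agent.Lib.ThreeTrans.ZStarB
import Cfsg.Agent.Lib.TwoFusion.Isolated
import Cfsg.Agent.Lib.PGroups.SylowFix

/-!
# Isolated involutions: maximal invariant subgroups are Sylow
-/

set_option autoImplicit false
set_option linter.unusedSectionVars false
set_option linter.style.haveILetI false
set_option linter.unusedVariables false

namespace Cfsg.Agent.Lib.ThreeTrans.ZS

open Cfsg Cfsg.Agent.Lib.Basic Cfsg.Agent.Lib.LocalEven2 Subgroup

universe u

variable {G : Type u} [Group G] [Finite G]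

theorem IsoInv.of_isolated {z : G} (hz : IsIsolatedInvolution z) : IsoInv z :=
  ⟨hz.1, fun g => Cfsg.Agent.Lib.TwoFusion.IsolatedOdd hz g⟩

theorem mem_normalizer_of_conj_mem {V : Subgroup G} {n : G} (h : ∀ a ∈ V, n * a * n⁻¹ ∈ V) :
    n ∈ normalizer (V : Set G) := by
  classical
  refine Subgroup.mem_normalizer_iff.mpr fun a => ⟨h a, fun ha => ?_⟩
  let f : V → V := fun b => ⟨n * b * n⁻¹, h b b.2⟩
  have hf : Function.Injective f := by
    intro b c hbc
    have h1 : n * (b : G) * n⁻¹ = n * (c : G) * n⁻¹ := congrArg Subtype.val hbc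
    exact Subtype.ext (mul_left_cancel (mul_right_cancel h1))
  have hs := Finite.surjective_of_injective hf
  obtain ⟨b, hb⟩ := hs ⟨n * a * n⁻¹, ha⟩
  have h1 : n * (b : G) * n⁻¹ = n * a * n⁻¹ := congrArg Subtype.val hb
  have h2 : (b : G) = a := mul_left_cancel (mul_right_cancel h1)
  rw [← h2]
  exact b.2

/-- A maximal `z`-invariant `p`-subgroup is a Sylow subgroup, `z` an isolated involution. -/
theorem isSylow_of_maximal_invariant {z : G} (hz : IsIsolatedInvolution z) {p : ℕ} [Fact p.Prime]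
    (Q : Subgroup G) (hQ : IsPGroup p Q) (hzQ : z ∈ normalizer (Q : Set G))
    (hmax : ∀ R : Subgroup G, IsPGroup p R → z ∈ normalizer (R : Set G) → Q ≤ R → R = Q) :
    ∃ P : Sylow p G, (P : Subgroup G) = Q := by
  classical
  haveI : Fact (Nat.Prime 2) := ⟨Nat.prime_two⟩
  have hp : p.Prime := Fact.out
  by_cases hp2 : p = 2
  · subst hp2
    have hzq : IsPGroup 2 (zpowers z) := by
      refine IsPGroup.of_card (n := 1) ?_
      rw [Nat.card_zpowers, hz.1, pow_one]
    have hsup : IsPGroup 2 ↥(zpowers z ⊔ Q) :=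
      isPGroup_sup_of_le_normalizer hQ hzq (zpowers_le.2 hzQ)
    have hzN : z ∈ normalizer (((zpowers z ⊔ Q : Subgroup G) : Subgroup G) : Set G) := by
      apply mem_normalizer_of_conj_mem
      intro w hw
      have hx1 : z ∈ zpowers z ⊔ Q := (le_sup_left : _ ≤ zpowers z ⊔ Q) (mem_zpowers z)
      exact Subgroup.mul_mem _ (Subgroup.mul_mem _ hx1 hw) (Subgroup.inv_mem _ hx1)
    have e1 := hmax _ hsup hzN le_sup_right
    have hzQ' : z ∈ Q := by
      rw [← e1]
      exact (le_sup_left : _ ≤ zpowers z ⊔ Q) (mem_zpowers z)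
    obtain ⟨S, hS⟩ := hQ.exists_le_sylow
    exact ⟨S, hmax S S.isPGroup' (Subgroup.le_normalizer (hS hzQ')) hS⟩
  -- `p` is odd
  have hI := IsoInv.of_isolated hz
  have hpodd : Odd p := hp.odd_of_ne_two hp2
  obtain ⟨S, hS⟩ := hQ.exists_le_sylow
  set N := pPrimeCore 2 G with hNdef
  haveI hN : N.Normal := Cfsg.Agent.Lib.Basic.pPrimeCore_normal (G := G) 2
  set H : Subgroup G := (S : Subgroup G) ⊔ N with hH
  have hSH : (S : Subgroup G) ≤ H := le_sup_left
  have hNH : N ≤ H := le_sup_right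
  -- `H` has odd order
  have hHodd : ¬ 2 ∣ Nat.card H := by
    intro h2
    obtain ⟨t, ht⟩ := exists_prime_orderOf_dvd_card' 2 h2
    have htH : (t : G) ∈ ((S : Subgroup G) ⊔ N : Subgroup G) := t.2
    have h1 : (t : G) ∈ (((S : Subgroup G) ⊔ N : Subgroup G) : Set G) := htH
    rw [Subgroup.mul_normal] at h1
    obtain ⟨s, hs, n, hn, hsn⟩ := Set.mem_mul.mp h1
    have htt : (t : G) * t = 1 := by
      have := congrArg Subtype.val (show t ^ 2 = 1 by rw [← ht, pow_orderOf_eq_one])
      simpa [pow_two] using this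
    -- the image of `t` in `G/N`
    set f := QuotientGroup.mk' N with hf
    have hfn : f n = 1 := (QuotientGroup.eq_one_iff n).mpr hn
    have h3 : f (t : G) = f s := by
      rw [← hsn, map_mul, hfn, mul_one]
    have h4 : f s * f s = 1 := by
      rw [← h3, ← map_mul, htt, map_one]
    have h5 : s * s ∈ N := by
      have : f (s * s) = 1 := by rw [map_mul, h4]
      exact (QuotientGroup.eq_one_iff _).mp this
    -- `s` has odd order
    obtain ⟨k, hk⟩ := IsPGroup.iff_card.mp S.isPGroup'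
    have h6 : orderOf s ∣ p ^ k := by
      rw [← hk, ← Subgroup.orderOf_mk _ hs]
      exact orderOf_dvd_natCard _
    have hsodd : Odd (orderOf s) := by
      obtain ⟨j, -, hj⟩ := (Nat.dvd_prime_pow hp).mp h6
      rw [hj]
      exact hpodd.pow
    have h7 : s ∈ N := by
      obtain ⟨m, hm⟩ := hsodd
      have e : s = (s * s) ^ (m + 1) := by
        rw [← pow_two, ← pow_mul]
        have : 2 * (m + 1) = orderOf s + 1 := by omega
        rw [this, pow_succ, pow_orderOf_eq_one, one_mul]
      rw [e]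
      exact Subgroup.pow_mem _ h5 _
    have h8 : (t : G) ∈ N := by
      rw [← hsn]
      exact Subgroup.mul_mem _ h7 hn
    have h9 := odd_of_mem_core h8
    rw [Subgroup.orderOf_coe, ht] at h9
    exact absurd h9 (by decide)
  -- `z` normalizes `H`
  have hzH : z ∈ normalizer (H : Set G) := by
    apply mem_normalizer_of_conj_mem
    have hle : H ≤ H.comap (MulAut.conj z).toMonoidHom := by
      rw [hH, sup_le_iff]
      constructor
      · intro s hs
        change z * s * z⁻¹ ∈ ((S : Subgroup G) ⊔ N : Subgroup G)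
        have h1 : z * s * z⁻¹ * s⁻¹ ∈ N := zstar hI s
        have e : z * s * z⁻¹ = (z * s * z⁻¹ * s⁻¹) * s := by group
        rw [e]
        exact Subgroup.mul_mem _ (hNH h1) (hSH hs)
      · intro n hn
        change z * n * z⁻¹ ∈ ((S : Subgroup G) ⊔ N : Subgroup G)
        exact hNH (hN.conj_mem n hn z)
    intro a ha
    exact hle ha
  -- the normalizer of `Q` in `H`
  set M : Subgroup G := H ⊓ normalizer (Q : Set G) with hM
  have hzM : z ∈ normalizer (M : Set G) := by
    apply mem_normalizer_of_conj_mem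
    intro a ha
    refine ⟨(mem_normalizer_iff.mp hzH a).mp ha.1, ?_⟩
    exact Subgroup.mul_mem _ (Subgroup.mul_mem _ hzQ ha.2) (Subgroup.inv_mem _ hzQ)
  have hQM : Q ≤ M := le_inf (hS.trans hSH) Subgroup.le_normalizer
  have hMH : M ≤ H := inf_le_left
  have hcard : ¬ 2 ∣ Nat.card (Sylow p M) := by
    intro h2
    have h3 : Nat.card (Sylow p M) ∣ ((default : Sylow p M) : Subgroup M).index :=
      Sylow.card_dvd_index _
    have h4 := (h2.trans h3).trans (Subgroup.index_dvd_card _)
    exact hHodd (h4.trans (Subgroup.card_dvd_of_le hMH))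
  obtain ⟨U, hU⟩ := Cfsg.Agent.Lib.PGroups.exists_fixed_sylow (r := 2) (k := 1) M hzM
    (by rw [pow_one, ← hz.1, pow_orderOf_eq_one]) hcard
  have hQ0n : (Q.subgroupOf M).Normal := by
    refine ⟨fun a ha c => ?_⟩
    rw [Subgroup.mem_subgroupOf] at ha ⊢
    have := (mem_normalizer_iff.mp c.2.2 a).mp ha
    simpa using this
  have hQ0p : IsPGroup p (Q.subgroupOf M) := hQ.comap_of_injective M.subtype M.subtype_injective
  have hQU : Q.subgroupOf M ≤ (U : Subgroup M) := normal_pGroup_le_sylow hQ0n hQ0p U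
  have hQU' : Q ≤ (U : Subgroup M).map M.subtype := by
    intro x hx
    exact ⟨⟨x, hQM hx⟩, hQU (Subgroup.mem_subgroupOf.mpr hx), rfl⟩
  have hUQ := hmax _ (U.isPGroup'.map _) hU hQU'
  -- `Q` is Sylow in `M`
  refine ⟨S, ?_⟩
  by_contra hne
  have hlt : Q < (S : Subgroup G) := lt_of_le_of_ne hS (Ne.symm hne)
  haveI hnil : Group.IsNilpotent (S : Subgroup G) := S.isPGroup'.isNilpotent
  set Q₀ : Subgroup (S : Subgroup G) := Q.subgroupOf (S : Subgroup G) with hQ₀
  have hQ₀top : Q₀ ≠ ⊤ := by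
    intro h
    apply hne
    refine le_antisymm ?_ hS
    intro x hx
    have : (⟨x, hx⟩ : (S : Subgroup G)) ∈ Q₀ := by rw [h]; trivial
    exact Subgroup.mem_subgroupOf.mp this
  have hgrow := normalizerCondition_of_isNilpotent Q₀ (lt_top_iff_ne_top.mpr hQ₀top)
  obtain ⟨s, hs, hsQ⟩ := SetLike.exists_of_lt hgrow
  have hsN : (s : G) ∈ normalizer (Q : Set G) := by
    apply mem_normalizer_of_conj_mem
    intro a ha
    have h1 : (⟨a, hS ha⟩ : (S : Subgroup G)) ∈ Q₀ := Subgroup.mem_subgroupOf.mpr ha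
    have h2 := (Subgroup.mem_normalizer_iff.mp hs _).mp h1
    exact Subgroup.mem_subgroupOf.mp h2
  have hsM : (s : G) ∈ M := ⟨hSH s.2, hsN⟩
  -- the `p`-group generated by `s` and `Q` inside `M`
  have hT : IsPGroup p ↥(zpowers (s : G) ⊔ Q) := by
    apply isPGroup_sup_of_le_normalizer hQ
    · exact S.isPGroup'.to_le (zpowers_le.mpr s.2)
    · exact zpowers_le.mpr hsN
  have hTM : zpowers (s : G) ⊔ Q ≤ M := sup_le (zpowers_le.mpr hsM) hQM
  have hT0 : IsPGroup p ((zpowers (s : G) ⊔ Q).subgroupOf M) :=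
    hT.comap_of_injective M.subtype M.subtype_injective
  obtain ⟨V, hV⟩ := hT0.exists_le_sylow
  obtain ⟨c, hc⟩ := MulAction.exists_smul_eq M V U
  have hcardV : Nat.card (V : Subgroup M) = Nat.card (U : Subgroup M) := by
    rw [Sylow.card_eq_multiplicity, Sylow.card_eq_multiplicity]
  have hcardT : Nat.card ↥(zpowers (s : G) ⊔ Q) ≤ Nat.card Q := by
    have h1 : Nat.card ((zpowers (s : G) ⊔ Q).subgroupOf M) = Nat.card ↥(zpowers (s : G) ⊔ Q) :=
      Nat.card_congr (Subgroup.subgroupOfEquivOfLe hTM).toEquiv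
    have h2 : Nat.card ((zpowers (s : G) ⊔ Q).subgroupOf M) ≤ Nat.card (V : Subgroup M) :=
      Nat.card_le_card_of_injective _ (Subgroup.inclusion_injective hV)
    have h3 : Nat.card Q = Nat.card (U : Subgroup M) := by
      rw [← hUQ, Subgroup.card_map_of_injective M.subtype_injective]
    rw [h3, ← hcardV, ← h1]
    exact h2
  have hTQ : zpowers (s : G) ⊔ Q = Q := by
    refine (Subgroup.eq_of_le_of_card_ge (le_sup_right : Q ≤ _) hcardT).symm
  have hsQ' : (s : G) ∈ Q := by
    rw [← hTQ]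
    exact (le_sup_left : _ ≤ zpowers (s : G) ⊔ Q) (mem_zpowers _)
  exact hsQ (Subgroup.mem_subgroupOf.mpr hsQ')

end Cfsg.Agent.Lib.ThreeTrans.ZS
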