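import Cfsg.Agent.Lib.ThreeTrans.ZStarI

/-!
# Isolated involutions: invariant Sylow subgroups and their fixed points
-/

set_option autoImplicit false
set_option linter.unusedSectionVars false
set_option linter.style.haveILetI false
set_option linter.unusedVariables false

namespace Cfsg.Agent.Lib.ThreeTrans.ZS

open Cfsg Cfsg.Agent.Lib.Basic Cfsg.Agent.Lib.LocalEven2 Subgroup

universe u

variable {G : Type u} [Group G] [Finite G]

theorem inv_part {z : G} (hzz : z * z = 1) (a : G) :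
    z * (a * (z * a * z⁻¹)⁻¹) * z⁻¹ = (a * (z * a * z⁻¹)⁻¹)⁻¹ := by
  have hzi : z⁻¹ = z := inv_eq_of_mul_eq_one_left hzz
  have h1 : z * (a * (z * a * z⁻¹)⁻¹) * z⁻¹ = z * a * z * a⁻¹ * (z * z)⁻¹ := by group
  have h2 : (a * (z * a * z⁻¹)⁻¹)⁻¹ = z * a * z⁻¹ * a⁻¹ := by group
  rw [h1, h2, hzz, inv_one, mul_one, hzi]

/-- The part on the number of inverted elements. -/
theorem relIndex_eq_card_inverted {z : G} (hzz : z * z = 1) {p : ℕ} [Fact p.Prime] (hp : p ≠ 2)
    (P : Sylow p G) (hzP : z ∈ normalizer ((P : Subgroup G) : Set G)) :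
    ((P : Subgroup G) ⊓ centralizer ({z} : Set G)).relIndex (P : Subgroup G) =
      Nat.card {x : G // x ∈ P ∧ z * x * z⁻¹ = x⁻¹} := by
  classical
  have hpp : p.Prime := Fact.out
  have hzi : z⁻¹ = z := inv_eq_of_mul_eq_one_left hzz
  set K : Subgroup (P : Subgroup G) := ((P : Subgroup G) ⊓ centralizer ({z} : Set G)).subgroupOf (P : Subgroup G) with hK
  have hmemK : ∀ c : (P : Subgroup G), c ∈ K ↔ z * (c : G) * z⁻¹ = c := by
    intro c
    rw [hK, Subgroup.mem_subgroupOf]
    constructor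
    · intro h
      have h1 := Subgroup.mem_centralizer_singleton_iff.mp h.2
      rw [← h1]
      group
    · intro h
      refine ⟨c.2, Subgroup.mem_centralizer_singleton_iff.mpr ?_⟩
      calc (c : G) * z = (z * (c : G) * z⁻¹) * z := by rw [h]
        _ = z * c := by group
  have hconjP : ∀ a : (P : Subgroup G), z * (a : G) * z⁻¹ ∈ (P : Subgroup G) := fun a =>
    (mem_normalizer_iff.mp hzP a).mp a.2
  let θ : ↥(P : Subgroup G) → {x : G // x ∈ P ∧ z * x * z⁻¹ = x⁻¹} := fun a =>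
    ⟨(a : G) * (z * (a : G) * z⁻¹)⁻¹,
      Subgroup.mul_mem _ a.2 (Subgroup.inv_mem _ (hconjP a)), inv_part hzz _⟩
  have hθ : ∀ a b : (P : Subgroup G), θ a = θ b ↔ a⁻¹ * b ∈ K := by
    intro a b
    rw [hmemK, Subtype.ext_iff]
    change (a : G) * (z * (a : G) * z⁻¹)⁻¹ = (b : G) * (z * (b : G) * z⁻¹)⁻¹ ↔
      z * (((a⁻¹ * b : (P : Subgroup G))) : G) * z⁻¹ = ((a⁻¹ * b : (P : Subgroup G)) : G)
    simp only [Subgroup.coe_mul, Subgroup.coe_inv]
    constructor
    · intro h
      have h1 : (b : G) = (a : G) * (z * (a : G) * z⁻¹)⁻¹ * (z * (b : G) * z⁻¹) := by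
        rw [h]
        group
      calc z * ((a : G)⁻¹ * (b : G)) * z⁻¹ = (z * (a : G) * z⁻¹)⁻¹ * (z * (b : G) * z⁻¹) := by group
        _ = (a : G)⁻¹ * ((a : G) * (z * (a : G) * z⁻¹)⁻¹ * (z * (b : G) * z⁻¹)) := by group
        _ = (a : G)⁻¹ * b := by rw [← h1]
    · intro h
      have h1 : (z * (a : G) * z⁻¹)⁻¹ * (z * (b : G) * z⁻¹) = (a : G)⁻¹ * b := by
        rw [← h]
        group
      have h2 : z * (b : G) * z⁻¹ = (z * (a : G) * z⁻¹) * ((a : G)⁻¹ * b) := by
        rw [← h1]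
        group
      rw [h2]
      group
  change (Nat.card ((P : Subgroup G) ⧸ K)) = _
  refine Nat.card_congr (Equiv.ofBijective (Quotient.lift (s := QuotientGroup.leftRel K) θ ?_) ⟨?_, ?_⟩)
  · intro a b hab
    exact (hθ a b).mpr (QuotientGroup.leftRel_apply.mp hab)
  · intro x y
    induction x using Quotient.inductionOn with
    | h a =>
      induction y using Quotient.inductionOn with
      | h b =>
        intro hxy
        exact Quotient.sound (QuotientGroup.leftRel_apply.mpr ((hθ a b).mp hxy))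
  · rintro ⟨i, hiP, hi⟩
    -- the element `i` has odd order
    obtain ⟨k, hk⟩ := IsPGroup.iff_card.mp P.isPGroup'
    have h6 : orderOf i ∣ p ^ k := by
      rw [← hk, ← Subgroup.orderOf_mk _ hiP]
      exact orderOf_dvd_natCard _
    have hiodd : Odd (orderOf i) := by
      obtain ⟨j, -, hj⟩ := (Nat.dvd_prime_pow hpp).mp h6
      rw [hj]
      exact (hpp.odd_of_ne_two hp).pow
    obtain ⟨m, hm⟩ := hiodd
    set j : G := i ^ (m + 1) with hj
    have hjP : j ∈ (P : Subgroup G) := Subgroup.pow_mem _ hiP _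
    have hzj : z * j * z⁻¹ = j⁻¹ := by
      rw [hj, ← conj_pow, hi, inv_pow]
    refine ⟨Quotient.mk (QuotientGroup.leftRel K) ⟨j, hjP⟩, Subtype.ext ?_⟩
    change j * (z * j * z⁻¹)⁻¹ = i
    rw [hzj, inv_inv, hj, ← pow_add]
    have : m + 1 + (m + 1) = orderOf i + 1 := by omega
    rw [this, pow_succ, pow_orderOf_eq_one, one_mul]

/-- `P ∩ C(z)` is a Sylow subgroup of `C(z)`. -/
theorem not_dvd_relIndex_centralizer {z : G} (hz : IsIsolatedInvolution z) {p : ℕ} [Fact p.Prime]
    (P : Sylow p G) (hzP : z ∈ normalizer ((P : Subgroup G) : Set G)) :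
    ¬ p ∣ ((P : Subgroup G) ⊓ centralizer ({z} : Set G)).relIndex (centralizer ({z} : Set G)) := by
  classical
  intro hdvd
  haveI : Fact (Nat.Prime 2) := ⟨Nat.prime_two⟩
  set C : Subgroup G := centralizer ({z} : Set G) with hC
  set A : Subgroup G := (P : Subgroup G) ⊓ C with hA
  have hAp : IsPGroup p A := P.isPGroup'.to_le inf_le_left
  have hA0 : IsPGroup p (A.subgroupOf C) := hAp.comap_of_injective C.subtype C.subtype_injective
  obtain ⟨B₀, hB₀⟩ := hA0.exists_le_sylow
  have hne : A.subgroupOf C ≠ (B₀ : Subgroup C) := by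
    intro h
    apply B₀.not_dvd_index
    rw [← h]
    exact hdvd
  have hcardA : Nat.card (A.subgroupOf C) = Nat.card A :=
    Nat.card_congr (Subgroup.subgroupOfEquivOfLe inf_le_right).toEquiv
  have hlt : Nat.card A < Nat.card (B₀ : Subgroup C) := by
    rw [← hcardA]
    refine lt_of_le_of_ne (Subgroup.card_le_of_le hB₀) ?_
    intro h
    exact hne (Subgroup.eq_of_le_of_card_ge hB₀ h.ge)
  set B : Subgroup G := (B₀ : Subgroup C).map C.subtype with hB
  have hBC : B ≤ C := Subgroup.map_subtype_le _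
  have hBp : IsPGroup p B := B₀.isPGroup'.map _
  have hcomm : ∀ b ∈ C, z * b * z⁻¹ = b := by
    intro b hb
    have h1 := Subgroup.mem_centralizer_singleton_iff.mp hb
    rw [← h1]
    group
  have hzB : z ∈ normalizer (B : Set G) := by
    apply mem_normalizer_of_conj_mem
    intro a ha
    rw [hcomm a (hBC ha)]
    exact ha
  -- a maximal invariant `p`-subgroup
  obtain ⟨R, hRm⟩ := (Set.toFinite {R : Subgroup G | IsPGroup p R ∧ z ∈ normalizer (R : Set G) ∧ B ≤ R}).exists_maximal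
    ⟨B, hBp, hzB, le_rfl⟩
  obtain ⟨hRp, hzR, hBR⟩ := hRm.prop
  obtain ⟨P₁, hP₁⟩ := isSylow_of_maximal_invariant hz R hRp hzR
    (fun R' h1 h2 h3 => hRm.eq_of_ge ⟨h1, h2, hBR.trans h3⟩ h3)
  have hzP₁ : z ∈ normalizer ((P₁ : Subgroup G) : Set G) := by
    rw [hP₁]
    exact hzR
  obtain ⟨c, hcC, hc⟩ := transitive_on_invariant_sylow (p := 2) hz.1 hz.2 P P₁ hzP hzP₁
  -- conjugating `B` into `A`
  have hmem : ∀ b ∈ B, c⁻¹ * b * c ∈ A := by
    intro b hb
    have hbP₁ : b ∈ (P₁ : Subgroup G) := by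
      rw [hP₁]
      exact hBR hb
    rw [← hc] at hbP₁
    obtain ⟨a, ha, hab⟩ := hbP₁
    have hab' : c * a * c⁻¹ = b := hab
    refine ⟨?_, Subgroup.mul_mem _ (Subgroup.mul_mem _ (Subgroup.inv_mem _ hcC) (hBC hb)) hcC⟩
    have : c⁻¹ * b * c = a := by
      rw [← hab']
      group
    rw [this]
    exact ha
  let f : B → A := fun b => ⟨c⁻¹ * b * c, hmem b b.2⟩
  have hf : Function.Injective f := by
    intro b b' h
    have h1 : c⁻¹ * (b : G) * c = c⁻¹ * (b' : G) * c := congrArg Subtype.val h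
    exact Subtype.ext (mul_left_cancel (mul_right_cancel h1))
  have h1 := Nat.card_le_card_of_injective f hf
  have h2 : Nat.card B = Nat.card (B₀ : Subgroup C) :=
    Subgroup.card_map_of_injective C.subtype_injective
  omega

end Cfsg.Agent.Lib.ThreeTrans.ZS
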